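import Mathlib
import Cfsg.Agent.Lib.Known3.OmegaCalc
import Cfsg.Agent.Lib.Classical.Transvection

/-! The Levi subgroup `diag(A, A⁻ᵀ)` of the orthogonal group of the hyperbolic form. -/

set_option autoImplicit false
set_option linter.unusedSectionVars false

namespace Cfsg.Agent.Lib.Known3.OmegaLevi

open Cfsg.Agent.Lib.Classical.Witt Cfsg.Agent.Lib.Classical.Abs Cfsg.Agent.Lib.Classical
open Cfsg.Agent.Lib.Classical.Orth Cfsg.Agent.Lib.Known3.Spinor Cfsg.Agent.Lib.Known3.OmegaCalc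
open Matrix Matrix.SpecialLinearGroup
open scoped commutatorElement

local notation "P" => QuadraticMap.polarBilin

variable {F : Type*} [Field F] {m : ℕ}

/-- The block matrix. -/
noncomputable def blk (A : Matrix (Fin m) (Fin m) F) : Matrix (Fin m ⊕ Fin m) (Fin m ⊕ Fin m) F :=
  Matrix.fromBlocks A 0 0 (A⁻¹).transpose

lemma blk_apply (A : Matrix (Fin m) (Fin m) F) (v : Fin m ⊕ Fin m → F) (k : Fin m ⊕ Fin m) :
    (blk A *ᵥ v) k = Sum.elim (A *ᵥ (v ∘ Sum.inl)) ((A⁻¹).transpose *ᵥ (v ∘ Sum.inr)) k := by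
  rw [blk, Matrix.fromBlocks_mulVec]
  simp

lemma quadFormPlus_eq (v : Fin m ⊕ Fin m → F) : Cfsg.quadFormPlus m F v = (v ∘ Sum.inl) ⬝ᵥ (v ∘ Sum.inr) := rfl

lemma blk_pres (A : GL (Fin m) F) (v : Fin m ⊕ Fin m → F) :
    Cfsg.quadFormPlus m F (blk (A : Matrix (Fin m) (Fin m) F) *ᵥ v) = Cfsg.quadFormPlus m F v := by
  have h1 : (blk (A : Matrix (Fin m) (Fin m) F) *ᵥ v) ∘ Sum.inl = (A : Matrix (Fin m) (Fin m) F) *ᵥ (v ∘ Sum.inl) := by
    funext i
    exact blk_apply _ v (Sum.inl i)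
  have h2 : (blk (A : Matrix (Fin m) (Fin m) F) *ᵥ v) ∘ Sum.inr = ((A : Matrix (Fin m) (Fin m) F)⁻¹).transpose *ᵥ (v ∘ Sum.inr) := by
    funext i
    exact blk_apply _ v (Sum.inr i)
  rw [quadFormPlus_eq, quadFormPlus_eq, h1, h2, Matrix.dotProduct_mulVec, Matrix.vecMul_transpose, Matrix.mulVec_mulVec]
  have : IsUnit (A : Matrix (Fin m) (Fin m) F).det := (Matrix.isUnit_iff_isUnit_det _).1 A.isUnit
  rw [Matrix.nonsing_inv_mul _ this, Matrix.one_mulVec]

lemma blk_det (A : GL (Fin m) F) : (blk (A : Matrix (Fin m) (Fin m) F)).det ≠ 0 := by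
  have h0 : IsUnit (A : Matrix (Fin m) (Fin m) F).det := (Matrix.isUnit_iff_isUnit_det _).1 A.isUnit
  rw [blk, Matrix.det_fromBlocks_zero₁₂, Matrix.det_transpose, Matrix.det_nonsing_inv]
  simp [h0.ne_zero]

lemma blk_pres' (A : GL (Fin m) F) (v : Fin m ⊕ Fin m → F) :
    Qplus m F (blk (A : Matrix (Fin m) (Fin m) F) *ᵥ v) = Qplus m F v := by
  rw [Qplus_apply, Qplus_apply]
  exact blk_pres A v

/-- The homomorphism from `GL_m`. -/
noncomputable def Φ : GL (Fin m) F →* Cfsg.isometryGroup F (⇑(Qplus m F)) where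
  toFun A := mkIso' _ (blk (A : Matrix (Fin m) (Fin m) F)) (blk_det A) (blk_pres' A)
  map_one' := by
    apply Subtype.ext
    apply Units.ext
    change blk _ = 1
    simp [blk]
  map_mul' A B := by
    apply Subtype.ext
    apply Units.ext
    change blk _ = blk _ * blk _
    simp only [blk, Matrix.fromBlocks_multiply]
    simp only [Matrix.mul_zero, Matrix.zero_mul, add_zero, zero_add]
    congr 1
    rw [← Matrix.transpose_mul, ← Matrix.mul_inv_rev]
    simp

@[simp] lemma Φ_coe (A : GL (Fin m) F) : ((Φ A : Cfsg.isometryGroup F (⇑(Qplus m F))) : Matrix.GeneralLinearGroup (Fin m ⊕ Fin m) F).1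
    = Matrix.fromBlocks (A : Matrix (Fin m) (Fin m) F) 0 0 ((A : Matrix (Fin m) (Fin m) F)⁻¹).transpose := rfl

lemma map_mem_commutator {G H : Type*} [Group G] [Group H] (f : G →* H) {x : G} (hx : x ∈ commutator G) :
    f x ∈ commutator H := by
  have h : (commutator G).map f ≤ commutator H := by
    rw [commutator_def, Subgroup.map_commutator]
    exact Subgroup.commutator_mono le_top le_top
  exact h ⟨x, hx, rfl⟩

lemma exists_ne_zero_one [Fintype F] (h : Fintype.card F ≠ 2) : ∃ x : F, x ≠ 0 ∧ x ≠ 1 := by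
  classical
  by_contra hcon
  push Not at hcon
  have h1 : (Finset.univ : Finset F) ⊆ {0, 1} := fun x _ => by
    by_cases hx : x = 0
    · simp [hx]
    · simp [hcon x hx]
  have h3 := Finset.card_le_card h1
  rw [Finset.card_pair zero_ne_one, Finset.card_univ] at h3
  have h4 : 1 < Fintype.card F := Fintype.one_lt_card
  omega

/-- Diagonal element with one non-trivial entry. -/
noncomputable def Dg (i : Fin m) (d : F) (hd : d ≠ 0) : GL (Fin m) F :=
  Matrix.GeneralLinearGroup.mkOfDetNeZero (Matrix.diagonal (Function.update 1 i d)) (by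
    rw [Matrix.det_diagonal, Finset.prod_update_of_mem (Finset.mem_univ i)]
    simp [hd])

lemma Dg_coe (i : Fin m) (d : F) (hd : d ≠ 0) : (Dg i d hd : Matrix (Fin m) (Fin m) F) = Matrix.diagonal (Function.update 1 i d) := rfl

lemma Dg_det (i : Fin m) (d : F) (hd : d ≠ 0) : (Dg i d hd : Matrix (Fin m) (Fin m) F).det = d := by
  rw [Dg_coe, Matrix.det_diagonal, Finset.prod_update_of_mem (Finset.mem_univ i)]
  simp

lemma Dg_inv (i : Fin m) (d : F) (hd : d ≠ 0) : (Dg i d hd : Matrix (Fin m) (Fin m) F)⁻¹ = Matrix.diagonal (Function.update 1 i d⁻¹) := by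
  apply Matrix.inv_eq_right_inv
  rw [Dg_coe, Matrix.diagonal_mul_diagonal, ← Matrix.diagonal_one]
  congr 1
  funext k
  by_cases hk : k = i
  · subst hk
    simp [hd]
  · simp [Function.update_of_ne hk]

/-- Commutator computation for the transvections in `GL`. -/
lemma comm_Dg_transvection {i j : Fin m} (hij : i ≠ j) (x : F) (hx0 : x ≠ 0) (hx1 : x ≠ 1) (c : F) :
    ⁅Dg i x hx0, toGL (transvection hij (c / (x - 1)))⁆ = toGL (transvection hij c) := by
  have hx : x - 1 ≠ 0 := sub_ne_zero_of_ne hx1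
  set b := c / (x - 1) with hb
  have hc : c = b * (x - 1) := by rw [hb]; field_simp
  rw [commutatorElement_def, mul_inv_eq_iff_eq_mul, mul_inv_eq_iff_eq_mul]
  apply Units.ext
  change (Dg i x hx0 : Matrix (Fin m) (Fin m) F) * (transvection hij b).1 = (transvection hij c).1 * (transvection hij b).1 * (Dg i x hx0 : Matrix (Fin m) (Fin m) F)
  simp only [transvection_coe, Dg_coe]
  ext k l
  rw [Matrix.diagonal_mul, Matrix.mul_diagonal, mul_one_add_single_apply]
  simp only [Matrix.add_apply, Matrix.one_apply, Matrix.single_apply]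
  have hji : j ≠ i := hij.symm
  simp only [Function.update_apply, Pi.one_apply]
  rw [hc]
  grind

/-- `SL_m` lies in the commutator subgroup of `GL_m`. -/
theorem sl_mem_comm [Fintype F] (hm : 1 ≤ m) (hc : Fintype.card F ≠ 2 ∨ m ≠ 2) (S : SpecialLinearGroup (Fin m) F) :
    toGL S ∈ commutator (GL (Fin m) F) := by
  by_cases hm1 : m = 1
  · subst hm1
    have : S = 1 := by
      apply Subtype.ext
      ext i j
      have h1 := S.2
      rw [Matrix.det_fin_one] at h1
      have hi : i = 0 := Subsingleton.elim _ _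
      have hj : j = 0 := Subsingleton.elim _ _
      subst hi hj
      simpa using h1
    rw [this, map_one]
    exact Subgroup.one_mem _
  by_cases hm3 : 3 ≤ m
  · have h1 : S ∈ commutator (SpecialLinearGroup (Fin m) F) := by
      rw [commutator_SL_eq_top (by simpa using hm3)]
      trivial
    exact map_mem_commutator toGL h1
  · have hm2 : m = 2 := by omega
    subst hm2
    have hc' : Fintype.card F ≠ 2 := hc.resolve_right (by simp)
    obtain ⟨x, hx0, hx1⟩ := exists_ne_zero_one hc'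
    refine transvection_induction (fun g => toGL g ∈ commutator (GL (Fin 2) F)) S ?_ ?_
    · intro i j hij a
      rw [← comm_Dg_transvection hij x hx0 hx1 a, commutator_def]
      exact Subgroup.commutator_mem_commutator (Subgroup.mem_top _) (Subgroup.mem_top _)
    · intro A B hA hB
      rw [map_mul]
      exact mul_mem hA hB

/-- Decomposition of `GL_m`. -/
lemma exists_SL_mul [Fintype F] (i : Fin m) (A : GL (Fin m) F) {d : F} (hd : d ≠ 0) (hdet : (A : Matrix (Fin m) (Fin m) F).det = d) :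
    ∃ S : SpecialLinearGroup (Fin m) F, A = toGL S * Dg i d hd := by
  have h0 : ((A * (Dg i d hd)⁻¹ : GL (Fin m) F) : Matrix (Fin m) (Fin m) F).det = 1 := by
    rw [Units.val_mul, Matrix.det_mul, Matrix.coe_units_inv, Matrix.det_nonsing_inv, hdet, Dg_det, Ring.inverse_eq_inv', mul_inv_cancel₀ hd]
  refine ⟨⟨_, h0⟩, ?_⟩
  apply Units.ext
  change (A : Matrix (Fin m) (Fin m) F) = ((A * (Dg i d hd)⁻¹ * Dg i d hd : GL (Fin m) F) : Matrix (Fin m) (Fin m) F)
  rw [inv_mul_cancel_right]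

variable [Fintype F]

section

open Cfsg.Agent.Lib.Classical.Orth

lemma coe_Qplus_iso : Cfsg.quadFormPlus m F = ⇑(Qplus m F) := (coe_Qplus m).symm

/-- The list for the diagonal element. -/
noncomputable def LD (i : Fin m) (d : F) (hd : d ≠ 0) : List (NS (Qplus m F)) :=
  [nd (pair_plus m i) d hd, nd (pair_plus m i) 1 one_ne_zero]

lemma prodL_LD_apply (i : Fin m) (d : F) (hd : d ≠ 0) (x : Fin m ⊕ Fin m → F) :
    (prodL (LD i d hd)).1 x = blk (Dg i d hd : Matrix (Fin m) (Fin m) F) *ᵥ x := by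
  have h1 : prodL (LD i d hd) = refl (Qplus m F) (nd (pair_plus m i) d hd).1 (nd (pair_plus m i) d hd).2 *
      refl (Qplus m F) (nd (pair_plus m i) 1 one_ne_zero).1 (nd (pair_plus m i) 1 one_ne_zero).2 := by
    simp [LD]
  rw [h1]
  funext k
  rw [refl_nd_mul_apply, blk_apply, Dg_inv, Dg_coe]
  rcases k with k | k
  · by_cases hk : k = i
    · subst hk
      simp [Matrix.mulVec_diagonal]
    · simp [Matrix.mulVec_diagonal, hk, Function.update_of_ne hk]
  · by_cases hk : k = i
    · subst hk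
      simp [Matrix.mulVec_diagonal]
    · simp [Matrix.mulVec_diagonal, hk, Function.update_of_ne hk]

lemma toOG_Φ_Dg (i : Fin m) (d : F) (hd : d ≠ 0) : toOG (Qplus m F) (Φ (Dg i d hd)) = prodL (LD i d hd) := by
  apply OG_ext
  intro x
  rw [toOG_apply, prodL_LD_apply]
  rfl

/-- Membership of `Φ A` in `Ω` reduces to the reflections. -/
theorem Φ_mem_iff (hm : 1 ≤ m) (hc : Fintype.card F ≠ 2 ∨ m ≠ 2) (A : GL (Fin m) F) {d : F} (hd : d ≠ 0)
    (hdet : (A : Matrix (Fin m) (Fin m) F).det = d) :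
    Φ A ∈ Cfsg.Omega F (⇑(Qplus m F)) ↔ prodL (LD (⟨0, hm⟩ : Fin m) d hd) ∈ commutator (OG (Qplus m F)) := by
  obtain ⟨S, hS⟩ := exists_SL_mul (⟨0, hm⟩ : Fin m) A hd hdet
  have h1 : Φ (toGL S) ∈ Cfsg.Omega F (⇑(Qplus m F)) := map_mem_commutator Φ (sl_mem_comm hm hc S)
  rw [hS, map_mul, Subgroup.mul_mem_cancel_left _ h1, mem_Omega_iff, toOG_Φ_Dg]

/-- The criterion for the diagonal list. -/
theorem LD_mem_iff (hc : Fintype.card F ≠ 2 ∨ m ≠ 2) (i : Fin m) {d : F} (hd : d ≠ 0) :
    prodL (LD i d hd) ∈ commutator (OG (Qplus m F)) ↔ IsSquare d := by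
  by_cases h2 : (2 : F) = 0
  · rw [mem_comm_even h2 (Qplus_nondeg m) (by
      rcases hc with h | h
      · exact Or.inl h
      · right
        simp
        omega)]
    obtain ⟨t, ht⟩ := exists_sq_of_two_eq_zero h2 d
    simp [LD, show IsSquare d from ⟨t, ht.symm⟩]
  · rw [mem_comm_odd h2 (Qplus_nondeg m)]
    simp [LD, nd, Q_vd (pair_plus m i)]

/-- The swap of the first `i` pairs. -/
theorem exists_swap (m : ℕ) : ∀ i' ≤ m, ∃ L : List (NS (Qplus m F)), L.length = i' ∧ (L.map (fun v => (Qplus m F) v.1)).prod = (-1) ^ i' ∧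
    ∀ x j, (prodL L).1 x (Sum.inl j) = (if (j : ℕ) < i' then x (Sum.inr j) else x (Sum.inl j)) ∧
      (prodL L).1 x (Sum.inr j) = (if (j : ℕ) < i' then x (Sum.inl j) else x (Sum.inr j)) := by
  intro i'
  induction i' with
  | zero =>
    intro _
    exact ⟨[], rfl, by simp, by simp⟩
  | succ i' ih =>
    intro hi
    obtain ⟨L, h1, h3, h4⟩ := ih (by omega)
    let j₀ : Fin m := ⟨i', by omega⟩
    have hm1 : (-1 : F) ≠ 0 := neg_ne_zero.2 one_ne_zero
    refine ⟨nd (pair_plus m j₀) (-1) hm1 :: L, by simp [h1], ?_, ?_⟩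
    · simp only [List.map_cons, List.prod_cons, h3]
      simp only [nd, Q_vd (pair_plus m j₀)]
      ring
    · intro x j
      have hjj : (j₀ : ℕ) = i' := rfl
      rw [prodL_cons, Orth.mul_apply', refl_nd_apply, refl_nd_apply]
      by_cases hj : j = j₀
      · subst hj
        have e : (j₀ : ℕ) < i' + 1 := by omega
        have e' : ¬ (j₀ : ℕ) < i' := by omega
        simp only [if_true, e, if_pos, (h4 _ j₀).1, (h4 _ j₀).2, if_neg e', Sum.inl_ne_inr, Sum.inr_ne_inl, if_false]
        simp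
      · have e : (j : ℕ) ≠ i' := fun h => hj (Fin.ext h)
        have e1 : ((j : ℕ) < i' + 1) ↔ (j : ℕ) < i' := by omega
        simp only [Sum.inl.injEq, Sum.inr.injEq, hj, if_false, Sum.inl_ne_inr, Sum.inr_ne_inl, e1, (h4 _ j).1, (h4 _ j).2, and_self]

/-- Block form of isometries preserving both subspaces. -/
theorem exists_blk (M : Matrix (Fin m ⊕ Fin m) (Fin m ⊕ Fin m) F) (hM : ∀ v, Qplus m F (M *ᵥ v) = Qplus m F v)
    (h1 : ∀ v : Fin m ⊕ Fin m → F, (∀ i, v (Sum.inr i) = 0) → ∀ i, (M *ᵥ v) (Sum.inr i) = 0)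
    (h2 : ∀ v : Fin m ⊕ Fin m → F, (∀ i, v (Sum.inl i) = 0) → ∀ i, (M *ᵥ v) (Sum.inl i) = 0) :
    ∃ A : GL (Fin m) F, M = blk (A : Matrix (Fin m) (Fin m) F) := by
  have hC : M.toBlocks₂₁ = 0 := by
    ext i j
    have := h1 (Pi.single (Sum.inl j) 1) (by simp) i
    change M (Sum.inr i) (Sum.inl j) = 0
    simpa using this
  have hB : M.toBlocks₁₂ = 0 := by
    ext i j
    have := h2 (Pi.single (Sum.inr j) 1) (by simp) i
    change M (Sum.inl i) (Sum.inr j) = 0
    simpa using this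
  have hfb : M = Matrix.fromBlocks M.toBlocks₁₁ 0 0 M.toBlocks₂₂ := by
    have := Matrix.fromBlocks_toBlocks M
    rw [hB, hC] at this
    exact this.symm
  set A := M.toBlocks₁₁ with hA
  set D := M.toBlocks₂₂ with hD
  have hq : ∀ x y : Fin m → F, (A *ᵥ x) ⬝ᵥ (D *ᵥ y) = x ⬝ᵥ y := by
    intro x y
    have h3 := hM (Sum.elim x y)
    rw [hfb, Matrix.fromBlocks_mulVec, Qplus_apply, Qplus_apply, quadFormPlus_eq, quadFormPlus_eq] at h3
    simpa [Function.comp_def] using h3
  have hAD : A.transpose * D = 1 := by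
    ext i j
    have h3 := hq (Pi.single i 1) (Pi.single j 1)
    simp only [Matrix.mulVec_single_one] at h3
    change A.col i ⬝ᵥ D.col j = _
    rw [h3, single_dotProduct, Pi.single_apply, Matrix.one_apply, one_mul]
  have hDA : D.transpose * A = 1 := by
    have := congrArg Matrix.transpose hAD
    rwa [Matrix.transpose_mul, Matrix.transpose_transpose, Matrix.transpose_one] at this
  have hAD' : A * D.transpose = 1 := mul_eq_one_comm.1 hDA
  refine ⟨⟨A, D.transpose, hAD', hDA⟩, ?_⟩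
  have hinv : A⁻¹ = D.transpose := Matrix.inv_eq_right_inv hAD'
  change M = Matrix.fromBlocks A 0 0 (A⁻¹).transpose
  rw [hinv, Matrix.transpose_transpose]
  exact hfb

end

end Cfsg.Agent.Lib.Known3.OmegaLevi
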