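import Mathlib

/-! Subgroups of small order centralise large alternating groups. -/

set_option autoImplicit false

namespace Cfsg.Agent.Lib.Known3.AltCent

variable {X : Type} [Fintype X] [DecidableEq X]

open MulAction in
/-- Pigeonhole on the stabilisers of orbit representatives. -/
lemma exists_reps (G : Subgroup (Equiv.Perm X)) (r : ℕ) (h : Nat.card G * (2 ^ Nat.card G * r) ≤ Fintype.card X) :
    ∃ (S : Subgroup G) (x : Fin r → X), (∀ i, stabilizer G (x i) = S) ∧ ∀ (i j : Fin r) (g : G), g • x i = x j → i = j := by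
  classical
  haveI : Fintype G := Fintype.ofFinite _
  let Ω := orbitRel.Quotient G X
  haveI : Fintype Ω := Fintype.ofFinite _
  let rep : Ω → X := Quotient.out
  have hrep : ∀ ω : Ω, (Quotient.mk'' (rep ω) : Ω) = ω := fun ω => Quotient.out_eq' ω
  have hn : 0 < Nat.card G := Nat.card_pos
  have h1 : Fintype.card X ≤ Nat.card G * Fintype.card Ω := by
    have h2 := Finset.card_le_mul_card_image_of_maps_to (s := (Finset.univ : Finset X)) (t := (Finset.univ : Finset Ω))
      (f := fun x => (Quotient.mk'' x : Ω)) (fun _ _ => Finset.mem_univ _) (Nat.card G) (by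
        intro ω _
        have h3 : (Finset.univ.filter (fun x : X => (Quotient.mk'' x : Ω) = ω)) ⊆ (Finset.univ : Finset G).image (fun g => g • rep ω) := by
          intro x hx
          simp only [Finset.mem_filter, Finset.mem_univ, true_and] at hx
          simp only [Finset.mem_image, Finset.mem_univ, true_and]
          have h4 : (Quotient.mk'' x : Ω) = Quotient.mk'' (rep ω) := by rw [hx, hrep]
          have h5 : x ∈ orbit G (rep ω) := by
            have := Quotient.eq''.1 h4
            exact this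
          obtain ⟨g, hg⟩ := h5
          exact ⟨g, hg⟩
        calc _ ≤ _ := Finset.card_le_card h3
          _ ≤ (Finset.univ : Finset G).card := Finset.card_image_le
          _ = Nat.card G := by rw [Finset.card_univ, Nat.card_eq_fintype_card])
    simpa using h2
  have h6 : 2 ^ Nat.card G * r ≤ Fintype.card Ω := Nat.le_of_mul_le_mul_left (h.trans h1) hn
  haveI : Fintype (Subgroup G) := Fintype.ofFinite _
  have h7 : Fintype.card (Subgroup G) ≤ 2 ^ Nat.card G := by
    have h8 : Function.Injective (fun S : Subgroup G => (S : Set G)) := SetLike.coe_injective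
    have h9 := Fintype.card_le_of_injective _ h8
    rw [Fintype.card_set, ← Nat.card_eq_fintype_card (α := G)] at h9
    exact h9
  let φ : Ω → Subgroup G := fun ω => stabilizer G (rep ω)
  obtain ⟨S, hS⟩ := Fintype.exists_le_card_fiber_of_mul_le_card φ (n := r) ((Nat.mul_le_mul_right _ h7).trans h6)
  have h10 : Fintype.card (Fin r) ≤ Fintype.card {ω : Ω // φ ω = S} := by
    rw [Fintype.card_fin, Fintype.card_subtype]
    exact hS
  obtain ⟨e⟩ := Function.Embedding.nonempty_of_card_le h10
  refine ⟨S, fun i => rep (e i).1, fun i => (e i).2, ?_⟩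
  intro i j g hg
  apply e.injective
  apply Subtype.ext
  have h11 : (Quotient.mk'' (rep (e i).1) : Ω) = Quotient.mk'' (rep (e j).1) := by
    apply Quotient.eq''.2
    change rep (e i).1 ∈ orbit G (rep (e j).1)
    have hg' : g • rep (e i).1 = rep (e j).1 := hg
    rw [← hg']
    exact ⟨g⁻¹, by simp⟩
  rw [hrep, hrep] at h11
  exact h11

open MulAction in
/-- Permuting isomorphic orbits. -/
theorem exists_hom (G : Subgroup (Equiv.Perm X)) (r : ℕ) (h : Nat.card G * (2 ^ Nat.card G * r) ≤ Fintype.card X) :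
    ∃ ψ : Equiv.Perm (Fin r) →* Equiv.Perm X, Function.Injective ψ ∧ ∀ g ∈ G, ∀ σ, g * ψ σ = ψ σ * g := by
  classical
  obtain ⟨S, x, hS, hx⟩ := exists_reps G r h
  let P : X → Prop := fun y => ∃ (i : Fin r) (g : G), y = g • x i
  let ψ0 : Equiv.Perm (Fin r) → X → X := fun σ y =>
    if hy : P y then hy.choose_spec.choose • x (σ hy.choose) else y
  have hwell : ∀ (i j : Fin r) (g g' : G) (σ : Equiv.Perm (Fin r)), g • x i = g' • x j → g • x (σ i) = g' • x (σ j) := by
    intro i j g g' σ he
    have h1 : i = j := by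
      apply hx i j (g'⁻¹ * g)
      rw [mul_smul, he, inv_smul_smul]
    subst h1
    have h2 : g'⁻¹ * g ∈ stabilizer G (x i) := by
      rw [mem_stabilizer_iff, mul_smul, he, inv_smul_smul]
    rw [hS i, ← hS (σ i), mem_stabilizer_iff, mul_smul, inv_smul_eq_iff] at h2
    exact h2
  have hψ1 : ∀ (σ : Equiv.Perm (Fin r)) (i : Fin r) (g : G), ψ0 σ (g • x i) = g • x (σ i) := by
    intro σ i g
    have hy : P (g • x i) := ⟨i, g, rfl⟩
    simp only [ψ0, dif_pos hy]
    exact hwell _ _ _ _ σ hy.choose_spec.choose_spec.symm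
  have hψ2 : ∀ (σ : Equiv.Perm (Fin r)) (y : X), ¬ P y → ψ0 σ y = y := by
    intro σ y hy
    simp only [ψ0, dif_neg hy]
  have hcomp : ∀ σ τ y, ψ0 σ (ψ0 τ y) = ψ0 (σ * τ) y := by
    intro σ τ y
    by_cases hy : P y
    · obtain ⟨i, g, rfl⟩ := hy
      rw [hψ1, hψ1, hψ1]
      rfl
    · rw [hψ2 _ _ hy, hψ2 _ _ hy, hψ2 _ _ hy]
  have hone : ∀ y, ψ0 1 y = y := by
    intro y
    by_cases hy : P y
    · obtain ⟨i, g, rfl⟩ := hy
      rw [hψ1]
      rfl
    · rw [hψ2 _ _ hy]
  let ψ : Equiv.Perm (Fin r) →* Equiv.Perm X :=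
    { toFun := fun σ =>
        { toFun := ψ0 σ
          invFun := ψ0 σ⁻¹
          left_inv := fun y => by rw [hcomp, inv_mul_cancel, hone]
          right_inv := fun y => by rw [hcomp, mul_inv_cancel, hone] }
      map_one' := by
        ext y
        exact hone y
      map_mul' := fun σ τ => by
        ext y
        exact (hcomp σ τ y).symm }
  have hψ : ∀ σ y, ψ σ y = ψ0 σ y := fun _ _ => rfl
  refine ⟨ψ, ?_, ?_⟩
  · intro σ τ he
    ext i
    have h1 := DFunLike.congr_fun he (x i)
    rw [hψ, hψ] at h1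
    have h2 := hψ1 σ i 1
    have h3 := hψ1 τ i 1
    rw [one_smul, one_smul] at h2 h3
    rw [h2, h3] at h1
    have := hx (σ i) (τ i) 1 (by rw [one_smul]; exact h1)
    rw [this]
  · intro g hg σ
    ext y
    change g (ψ0 σ y) = ψ0 σ (g y)
    by_cases hy : P y
    · obtain ⟨i, a, rfl⟩ := hy
      have h1 : g (a • x i) = (⟨g, hg⟩ * a : G) • x i := by
        rw [mul_smul]
        rfl
      rw [h1, hψ1, hψ1, mul_smul]
      rfl
    · have hy' : ¬ P (g y) := by
        rintro ⟨i, a, ha⟩
        apply hy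
        refine ⟨i, (⟨g, hg⟩ : G)⁻¹ * a, ?_⟩
        rw [mul_smul, ← ha]
        exact (inv_smul_smul (⟨g, hg⟩ : G) y).symm
      rw [hψ2 _ _ hy, hψ2 _ _ hy']

/-- Even permutations map to even permutations. -/
lemma sign_eq_one {α : Type} [Fintype α] [DecidableEq α] (ψ : Equiv.Perm α →* Equiv.Perm X) (σ : Equiv.Perm α)
    (hσ : Equiv.Perm.sign σ = 1) : Equiv.Perm.sign (ψ σ) = 1 := by
  let s : Equiv.Perm α →* ℤˣ := Equiv.Perm.sign.comp ψ
  by_cases hs : Function.Surjective s
  · have := Equiv.Perm.eq_sign_of_surjective_hom hs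
    have h2 : s σ = 1 := by rw [this, hσ]
    exact h2
  · by_contra hne
    apply hs
    have hneg : s σ = -1 := by
      rcases Int.units_eq_one_or (s σ) with h3 | h3
      · exact absurd h3 hne
      · exact h3
    intro u
    rcases Int.units_eq_one_or u with h3 | h3
    · exact ⟨1, by rw [h3, map_one]⟩
    · exact ⟨σ, by rw [h3, hneg]⟩

end Cfsg.Agent.Lib.Known3.AltCent
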