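import Mathlib

/-!
The automorphism group of an elementary abelian `2`-group of order at most `16` embeds in `GL₄(2)`.
-/

set_option autoImplicit false
set_option linter.style.haveILetI false

namespace Cfsg.Agent.Lib.Known3.AutEl

open Matrix

theorem mulAut_embed (W : Type*) [Group W] [Finite W] (h2 : ∀ w : W, w * w = 1) (hc : Nat.card W ≤ 16) :
    ∃ ψ : MulAut W →* GL (Fin 4) (ZMod 2), Function.Injective ψ := by
  classical
  have hcomm : ∀ a b : W, a * b = b * a := by
    intro a b
    have h := h2 (a * b)
    have ha : a⁻¹ = a := inv_eq_of_mul_eq_one_left (h2 a)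
    have hb : b⁻¹ = b := inv_eq_of_mul_eq_one_left (h2 b)
    calc a * b = (a * b)⁻¹ := (inv_eq_of_mul_eq_one_left h).symm
      _ = b⁻¹ * a⁻¹ := mul_inv_rev a b
      _ = b * a := by rw [ha, hb]
  letI cg : CommGroup W := { (inferInstance : Group W) with mul_comm := hcomm }
  have h20 : ∀ x : Additive W, (2 : ℕ) • x = 0 := by
    intro x
    rw [two_nsmul]
    exact h2 (Additive.toMul x)
  letI md : Module (ZMod 2) (Additive W) := AddCommGroup.zmodModule h20
  haveI : Finite (Additive W) := inferInstanceAs (Finite W)
  haveI hfd : Module.Finite (ZMod 2) (Additive W) := Module.Finite.of_finite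
  set r := Module.finrank (ZMod 2) (Additive W) with hr
  have hcard : Nat.card (Additive W) = 2 ^ r := by
    rw [Module.natCard_eq_pow_finrank (K := ZMod 2), Nat.card_zmod]
  have hr4 : r ≤ 4 := by
    have h1 : Nat.card (Additive W) = Nat.card W := rfl
    rw [h1] at hcard
    rw [hcard] at hc
    by_contra h
    have h5 : 2 ^ 5 ≤ 2 ^ r := Nat.pow_le_pow_right (by norm_num) (by omega)
    omega
  let E := Additive W × (Fin (4 - r) → ZMod 2)
  have hfE : Module.finrank (ZMod 2) E = Module.finrank (ZMod 2) (Fin 4 → ZMod 2) := by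
    simp only [E, Module.finrank_prod, Module.finrank_fin_fun]
    omega
  let e : E ≃ₗ[ZMod 2] (Fin 4 → ZMod 2) := LinearEquiv.ofFinrankEq _ _ hfE
  let L : MulAut W → (Additive W →ₗ[ZMod 2] Additive W) := fun a =>
    (MonoidHom.toAdditive a.toMonoidHom).toZModLinearMap 2
  have hL : ∀ (a : MulAut W) (x : Additive W), L a x = Additive.ofMul (a (Additive.toMul x)) := fun a x => rfl
  let Φ : MulAut W →* Module.End (ZMod 2) (Fin 4 → ZMod 2) :=
    { toFun := fun a => e.toLinearMap ∘ₗ (LinearMap.prodMap (L a) LinearMap.id) ∘ₗ e.symm.toLinearMap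
      map_one' := by
        apply LinearMap.ext
        intro v
        show e (LinearMap.prodMap (L 1) LinearMap.id (e.symm v)) = v
        have : LinearMap.prodMap (L 1) LinearMap.id (e.symm v) = e.symm v := by
          apply Prod.ext
          · exact hL 1 _
          · rfl
        rw [this]
        exact e.apply_symm_apply v
      map_mul' := by
        intro a b
        apply LinearMap.ext
        intro v
        show e (LinearMap.prodMap (L (a * b)) LinearMap.id (e.symm v)) =
          e (LinearMap.prodMap (L a) LinearMap.id (e.symm (e (LinearMap.prodMap (L b) LinearMap.id (e.symm v)))))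
        rw [e.symm_apply_apply]
        rfl }
  refine ⟨(Matrix.GeneralLinearGroup.toLin (n := Fin 4) (R := ZMod 2)).symm.toMonoidHom.comp Φ.toHomUnits, ?_⟩
  intro a b hab
  have h1 : Φ.toHomUnits a = Φ.toHomUnits b := by
    have := congrArg (Matrix.GeneralLinearGroup.toLin (n := Fin 4) (R := ZMod 2)) hab
    simpa using this
  have h3 : Φ a = Φ b := congrArg Units.val h1
  ext w
  have h4 := congrArg (fun F : Module.End (ZMod 2) (Fin 4 → ZMod 2) => F (e (Additive.ofMul w, 0))) h3
  have h5 : ∀ c : MulAut W, Φ c (e (Additive.ofMul w, 0)) = e (Additive.ofMul (c w), 0) := by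
    intro c
    show e (LinearMap.prodMap (L c) LinearMap.id (e.symm (e (Additive.ofMul w, 0)))) = _
    rw [e.symm_apply_apply]
    rfl
  simp only [h5] at h4
  have h6 := e.injective h4
  exact congrArg Additive.toMul (congrArg Prod.fst h6)

end Cfsg.Agent.Lib.Known3.AutEl
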