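import Mathlib
import Cfsg.Prelude.Def_LieClassical
import Cfsg.Agent.Lib.Classical.Symplectic
import Cfsg.Agent.Lib.Classical.SympStd
import Cfsg.Agent.Lib.Classical.Hermitian
import Cfsg.Agent.Lib.Known3.QuadStd
import Cfsg.Agent.Lib.Known3.Witt

set_option autoImplicit false
set_option linter.unusedSectionVars false

open Module

namespace Cfsg.Agent.Lib.Known3.Descent

section transfer

variable {F : Type*} [Field F] {V : Type*} [AddCommGroup V] [Module F V] {G : Type*} [Group G]
variable {ι : Type} [Fintype ι] [DecidableEq ι]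

/-- A representation on `V` read in coordinates. -/
noncomputable def toM (θ : V ≃ₗ[F] (ι → F)) (ρ : G →* Module.End F V) : G →* Matrix ι ι F where
  toFun g := LinearMap.toMatrix' (θ.toLinearMap ∘ₗ (ρ g) ∘ₗ θ.symm.toLinearMap)
  map_one' := by
    rw [map_one, ← LinearMap.toMatrix'_id]
    congr 1
    apply LinearMap.ext
    intro v
    simp
  map_mul' a b := by
    rw [← LinearMap.toMatrix'_comp, map_mul]
    congr 1
    apply LinearMap.ext
    intro v
    simp

lemma toM_mulVec (θ : V ≃ₗ[F] (ι → F)) (ρ : G →* Module.End F V) (g : G) (w : ι → F) :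
    (toM θ ρ g).mulVec w = θ (ρ g (θ.symm w)) := by
  change (LinearMap.toMatrix' (θ.toLinearMap ∘ₗ (ρ g) ∘ₗ θ.symm.toLinearMap)).mulVec w = _
  rw [LinearMap.toMatrix'_mulVec]
  simp

lemma toM_injective (θ : V ≃ₗ[F] (ι → F)) (ρ : G →* Module.End F V) (hρ : Function.Injective ρ) :
    Function.Injective (toM θ ρ) := by
  intro a b h
  apply hρ
  apply LinearMap.ext
  intro v
  have h1 : (toM θ ρ a).mulVec (θ v) = (toM θ ρ b).mulVec (θ v) := by rw [h]
  rw [toM_mulVec, toM_mulVec] at h1
  simpa using θ.injective h1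

/-- Transfer to the symplectic group. -/
theorem transfer_sp {m : ℕ} (B : LinearMap.BilinForm F V) (θ : V ≃ₗ[F] (Fin m ⊕ Fin m → F))
    (hθ : ∀ u v, Cfsg.sympForm m F (θ u) (θ v) = B u v) (ρ : G →* Module.End F V)
    (hρ : ∀ g u v, B (ρ g u) (ρ g v) = B u v) (hinj : Function.Injective ρ) :
    ∃ φ : G →* ↥(Matrix.symplecticGroup (Fin m) F), Function.Injective φ := by
  have hmem : ∀ g, toM θ ρ g ∈ Matrix.symplecticGroup (Fin m) F := by
    intro g
    rw [Cfsg.Agent.Lib.Classical.mem_symplecticGroup_iff_preserves]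
    intro u v
    rw [toM_mulVec, toM_mulVec, hθ, hρ, ← hθ]
    simp
  refine ⟨(toM θ ρ).codRestrict (Matrix.symplecticGroup (Fin m) F) hmem, ?_⟩
  intro a b h
  apply toM_injective θ ρ hinj
  exact congrArg Subtype.val h

/-- Transfer to an isometry group. -/
theorem transfer_iso (Q' : (ι → F) → F) (Q : V → F) (θ : V ≃ₗ[F] (ι → F))
    (hθ : ∀ v, Q' (θ v) = Q v) (ρ : G →* Module.End F V)
    (hρ : ∀ g v, Q (ρ g v) = Q v) (hinj : Function.Injective ρ) :
    ∃ φ : G →* ↥(Cfsg.isometryGroup F Q'), Function.Injective φ := by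
  let M₀ : G →* Matrix.GeneralLinearGroup ι F := (toM θ ρ).toHomUnits
  have hM₀ : ∀ g, ((M₀ g : Matrix.GeneralLinearGroup ι F) : Matrix ι ι F) = toM θ ρ g := fun g => rfl
  have hmem : ∀ g, M₀ g ∈ Cfsg.isometryGroup F Q' := by
    intro g u _
    change Q' (((M₀ g : Matrix.GeneralLinearGroup ι F) : Matrix ι ι F).mulVec u) = Q' u
    rw [hM₀, toM_mulVec, hθ, hρ, ← hθ]
    simp
  refine ⟨M₀.codRestrict _ hmem, ?_⟩
  intro a b h
  apply toM_injective θ ρ hinj
  have h1 := congrArg (fun x : ↥(Cfsg.isometryGroup F Q') => ((x : Matrix.GeneralLinearGroup ι F) : Matrix ι ι F)) h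
  exact h1

end transfer

section fields

variable {K F : Type*} [Field K] [Fintype K] [Field F] [Fintype F] {q : ℕ}

theorem exists_ringHom (hK : Fintype.card K = q ^ 2) (hF : Fintype.card F = q) :
    Nonempty (F →+* K) := by
  classical
  obtain ⟨p, hp⟩ := CharP.exists F
  haveI : Fact p.Prime := ⟨CharP.char_is_prime F p⟩
  obtain ⟨n, hpp, hc⟩ := FiniteField.card F p
  obtain ⟨p', hp'⟩ := CharP.exists K
  haveI : Fact p'.Prime := ⟨CharP.char_is_prime K p'⟩
  obtain ⟨n', hpp', hc'⟩ := FiniteField.card K p'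
  have hq : q = p ^ (n : ℕ) := by rw [← hF, hc]
  have hpe : p' = p := by
    have h1 : p' ^ (n' : ℕ) = p ^ (2 * (n : ℕ)) := by
      rw [← hc', hK, hq, ← pow_mul, mul_comm]
    have h2 : p' ∣ p ^ (2 * (n : ℕ)) := by
      rw [← h1]
      exact dvd_pow_self _ n'.ne_zero
    exact (Nat.prime_dvd_prime_iff_eq hpp' hpp).1 (hpp'.dvd_of_dvd_pow h2)
  subst hpe
  letI := ZMod.algebra F p'
  letI := ZMod.algebra K p'
  have h1 : p' ^ finrank (ZMod p') F = p' ^ (n : ℕ) := by
    have := Module.card_eq_pow_finrank (K := ZMod p') (V := F)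
    rw [ZMod.card, hc] at this
    exact this.symm
  have h2 : p' ^ finrank (ZMod p') K = p' ^ (2 * (n : ℕ)) := by
    have := Module.card_eq_pow_finrank (K := ZMod p') (V := K)
    rw [ZMod.card, hK, hq, ← pow_mul, mul_comm] at this
    exact this.symm
  have h3 := Nat.pow_right_injective hpp.two_le h1
  have h4 := Nat.pow_right_injective hpp.two_le h2
  obtain ⟨f⟩ := FiniteField.nonempty_algHom_of_finrank_dvd (F := ZMod p') (K := F) (L := K) (by
    rw [h3, h4]
    exact Dvd.intro_left 2 rfl)
  exact ⟨f.toRingHom⟩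

variable [Algebra F K]

lemma finrank_eq_two (hK : Fintype.card K = q ^ 2) (hF : Fintype.card F = q) : finrank F K = 2 := by
  have h1 := Module.card_eq_pow_finrank (K := F) (V := K)
  rw [hK, hF] at h1
  have hq : 1 < q := by
    rw [← hF]
    exact Fintype.one_lt_card
  exact (Nat.pow_right_injective hq h1).symm

lemma tr_eq (hK : Fintype.card K = q ^ 2) (hF : Fintype.card F = q) (x : K) :
    algebraMap F K (Algebra.trace F K x) = x + x ^ q := by
  rw [FiniteField.algebraMap_trace_eq_sum_pow, finrank_eq_two hK hF, Nat.card_eq_fintype_card, hF]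
  simp [Finset.sum_range_succ]

lemma norm_eq (hK : Fintype.card K = q ^ 2) (hF : Fintype.card F = q) (x : K) :
    algebraMap F K (Algebra.norm F x) = x ^ (q + 1) := by
  rw [FiniteField.algebraMap_norm_eq_pow_sum, finrank_eq_two hK hF, Nat.card_eq_fintype_card, hF]
  simp [Finset.sum_range_succ, add_comm]

lemma alg_pow (hF : Fintype.card F = q) (c : F) : (algebraMap F K c) ^ q = algebraMap F K c := by
  rw [← map_pow, ← hF, FiniteField.pow_card]

lemma tr_eq_zero_imp (hK : Fintype.card K = q ^ 2) (hF : Fintype.card F = q) (x : K)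
    (h : ∀ c : K, Algebra.trace F K (c * x) = 0) : x = 0 := by
  by_contra hx
  obtain ⟨y, hy⟩ := Cfsg.Agent.Lib.Classical.exists_trace_eq hK (1 : K) (by simp)
  have h1 := h (y / x)
  rw [div_mul_cancel₀ _ hx] at h1
  have h2 := tr_eq hK hF y
  rw [h1, map_zero, hy] at h2
  exact zero_ne_one h2

/-- Restriction of scalars as a monoid homomorphism on matrices. -/
noncomputable def resM {n : Type*} [Fintype n] [DecidableEq n] :
    Matrix n n K →* Module.End F (n → K) where
  toFun A := (Matrix.mulVecLin A).restrictScalars F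
  map_one' := by
    apply LinearMap.ext
    intro v
    simp
  map_mul' A B := by
    apply LinearMap.ext
    intro v
    simp [Module.End.mul_apply]

lemma resM_apply {n : Type*} [Fintype n] [DecidableEq n] (A : Matrix n n K) (v : n → K) :
    (resM (F := F) A) v = A.mulVec v := by
  simp [resM]

lemma resM_injective {n : Type*} [Fintype n] [DecidableEq n] :
    Function.Injective (resM (F := F) (K := K) (n := n)) := by
  intro A B h
  ext i j
  have h1 := congrArg (fun f : Module.End F (n → K) => f (Pi.single j 1)) h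
  simp only [resM_apply, Matrix.mulVec_single_one] at h1
  exact congrFun h1 i

lemma finrank_fun {n : Type*} [Fintype n] (hK : Fintype.card K = q ^ 2) (hF : Fintype.card F = q) :
    finrank F (n → K) = 2 * Fintype.card n := by
  rw [Module.finrank_pi_fintype]
  simp [finrank_eq_two hK hF, mul_comm]

/-- The trace of the symplectic form. -/
noncomputable def trSymp (a : ℕ) : LinearMap.BilinForm F (Fin a ⊕ Fin a → K) :=
  LinearMap.mk₂ F (fun u v => Algebra.trace F K (Cfsg.sympForm a K u v))
    (fun u u' v => by rw [Cfsg.Agent.Lib.Classical.sympForm_add_left, map_add])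
    (fun c u v => by
      have : (c • u : Fin a ⊕ Fin a → K) = (algebraMap F K c) • u := by
        funext i
        simp [Algebra.smul_def]
      rw [this, Cfsg.Agent.Lib.Classical.sympForm_smul_left, ← Algebra.smul_def', map_smul])
    (fun u v v' => by rw [Cfsg.Agent.Lib.Classical.sympForm_add_right, map_add])
    (fun c u v => by
      have : (c • v : Fin a ⊕ Fin a → K) = (algebraMap F K c) • v := by
        funext i
        simp [Algebra.smul_def]
      rw [this, Cfsg.Agent.Lib.Classical.sympForm_smul_right, ← Algebra.smul_def', map_smul])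

@[simp] lemma trSymp_apply (a : ℕ) (u v : Fin a ⊕ Fin a → K) :
    trSymp (F := F) a u v = Algebra.trace F K (Cfsg.sympForm a K u v) := rfl

/-- `Sp_{2a}(K)` in `Sp_{4a}(F)`. -/
theorem sp_embed (hK : Fintype.card K = q ^ 2) (hF : Fintype.card F = q) (a : ℕ) :
    ∃ φ : ↥(Matrix.symplecticGroup (Fin a) K) →* ↥(Matrix.symplecticGroup (Fin (2 * a)) F),
      Function.Injective φ := by
  classical
  have hAlt : (trSymp (F := F) (K := K) a).IsAlt := by
    intro u
    simp [Cfsg.Agent.Lib.Classical.sympForm_self]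
  have hL : ∀ u : Fin a ⊕ Fin a → K, (∀ v, trSymp (F := F) a u v = 0) → u = 0 := by
    intro u hu
    have h1 : ∀ v, Cfsg.sympForm a K v u = 0 := by
      intro v
      rw [Cfsg.Agent.Lib.Classical.sympForm_flip]
      rw [neg_eq_zero]
      apply tr_eq_zero_imp (F := F) hK hF
      intro c
      have := hu (c • v)
      rwa [trSymp_apply, Cfsg.Agent.Lib.Classical.sympForm_smul_right] at this
    exact Cfsg.Agent.Lib.Classical.sympForm_eq_zero_iff h1
  have hnd : (trSymp (F := F) (K := K) a).Nondegenerate := by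
    refine ⟨hL, ?_⟩
    intro v hv
    apply hL
    intro u
    rw [← hAlt.neg_eq u v, hv u, neg_zero]
  have hdim : finrank F (Fin a ⊕ Fin a → K) = 2 * (2 * a) := by
    rw [finrank_fun hK hF]
    simp
    omega
  obtain ⟨θ, hθ⟩ := Cfsg.Agent.Lib.Classical.exists_symp_isometry (trSymp (F := F) (K := K) a) hnd hAlt (2 * a) hdim
  let ρ : ↥(Matrix.symplecticGroup (Fin a) K) →* Module.End F (Fin a ⊕ Fin a → K) :=
    (resM (F := F) (K := K)).comp (Matrix.symplecticGroup (Fin a) K).subtype
  refine transfer_sp (trSymp (F := F) (K := K) a) θ hθ ρ ?_ ?_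
  · intro g u v
    change trSymp (F := F) a (resM (F := F) (g : Matrix _ _ K) u) (resM (F := F) (g : Matrix _ _ K) v) = _
    rw [resM_apply, resM_apply, trSymp_apply, trSymp_apply,
      Cfsg.Agent.Lib.Classical.mem_symplecticGroup_iff_preserves.1 g.2]
  · intro g g' h
    exact Subtype.ext (resM_injective h)

/-- The alternating form from the Hermitian form. -/
noncomputable def trHerm (hK : Fintype.card K = q ^ 2) (hF : Fintype.card F = q) (α : K) (m : ℕ) :
    LinearMap.BilinForm F (Fin m → K) :=
  LinearMap.mk₂ F (fun u v => Algebra.trace F K (α * Cfsg.hermForm m K q u v))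
    (fun u u' v => by rw [Cfsg.Agent.Lib.Classical.hermForm_add_left hK, mul_add, map_add])
    (fun c u v => by
      have : (c • u : Fin m → K) = (algebraMap F K c) • u := by
        funext i
        simp [Algebra.smul_def]
      rw [this, Cfsg.Agent.Lib.Classical.hermForm_smul_left, mul_left_comm, ← Algebra.smul_def', map_smul])
    (fun u v v' => by rw [Cfsg.Agent.Lib.Classical.hermForm_add_right hK, mul_add, map_add])
    (fun c u v => by
      have : (c • v : Fin m → K) = (algebraMap F K c) • v := by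
        funext i
        simp [Algebra.smul_def]
      rw [this, Cfsg.Agent.Lib.Classical.hermForm_smul_right, alg_pow hF, mul_left_comm,
        ← Algebra.smul_def', map_smul])

@[simp] lemma trHerm_apply (hK : Fintype.card K = q ^ 2) (hF : Fintype.card F = q) (α : K) (m : ℕ)
    (u v : Fin m → K) :
    trHerm hK hF α m u v = Algebra.trace F K (α * Cfsg.hermForm m K q u v) := rfl

lemma hermForm_self_pow (hK : Fintype.card K = q ^ 2) {m : ℕ} (u : Fin m → K) :
    (Cfsg.hermForm m K q u u) ^ q = Cfsg.hermForm m K q u u :=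
  Cfsg.Agent.Lib.Classical.hermForm_symm hK u u

lemma alg_injective : Function.Injective (algebraMap F K) := (algebraMap F K).injective

/-- `GU_m` in `Sp_{2m}`. -/
theorem gu_embed_sp (hK : Fintype.card K = q ^ 2) (hF : Fintype.card F = q) (m : ℕ) :
    ∃ φ : ↥(Cfsg.GU m K q) →* ↥(Matrix.symplecticGroup (Fin m) F), Function.Injective φ := by
  classical
  have hq := Cfsg.Agent.Lib.Classical.one_lt_q hK
  -- the element `α`
  obtain ⟨α, hα0, hα⟩ : ∃ α : K, α ≠ 0 ∧ α ^ q = -α := by
    have hne := Cfsg.Agent.Lib.Classical.conjQ_ne_id hK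
    obtain ⟨y, hy⟩ : ∃ y : K, y ^ q ≠ y := by
      by_contra hcon
      push Not at hcon
      apply hne
      ext x
      exact hcon x
    refine ⟨y - y ^ q, ?_, ?_⟩
    · intro h
      exact hy (sub_eq_zero.1 h).symm
    · rw [Cfsg.Agent.Lib.Classical.conjQ_sub hK, Cfsg.Agent.Lib.Classical.pow_q_pow_q hK]
      ring
  have hAlt : (trHerm (F := F) hK hF α m).IsAlt := by
    intro u
    rw [trHerm_apply]
    apply alg_injective (F := F) (K := K)
    rw [map_zero, tr_eq hK hF, mul_pow, hα, hermForm_self_pow hK]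
    ring
  have hL : ∀ u : Fin m → K, (∀ v, trHerm (F := F) hK hF α m u v = 0) → u = 0 := by
    intro u hu
    apply Cfsg.Agent.Lib.Classical.hermForm_nondeg_left hK
    intro v
    have h1 : α * Cfsg.hermForm m K q u v = 0 := by
      apply tr_eq_zero_imp (F := F) hK hF
      intro c
      have := hu ((c ^ q) • v)
      rw [trHerm_apply, Cfsg.Agent.Lib.Classical.hermForm_smul_right,
        Cfsg.Agent.Lib.Classical.pow_q_pow_q hK] at this
      rw [← this]
      congr 1
      ring
    exact (mul_eq_zero.1 h1).resolve_left hα0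
  have hnd : (trHerm (F := F) hK hF α m).Nondegenerate := by
    refine ⟨hL, ?_⟩
    intro v hv
    apply hL
    intro u
    rw [← hAlt.neg_eq u v, hv u, neg_zero]
  have hdim : finrank F (Fin m → K) = 2 * m := by
    rw [finrank_fun hK hF]
    simp
  obtain ⟨θ₀, hθ₀⟩ := Cfsg.Agent.Lib.Classical.exists_symp_isometry (trHerm (F := F) hK hF α m) hnd hAlt m hdim
  let A : ↥(Cfsg.GU m K q) →* Matrix (Fin m) (Fin m) K :=
    (Units.coeHom (Matrix (Fin m) (Fin m) K)).comp (Cfsg.GU m K q).subtype
  have hA : ∀ (g : ↥(Cfsg.GU m K q)) u v, Cfsg.hermForm m K q ((A g).mulVec u) ((A g).mulVec v) =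
      Cfsg.hermForm m K q u v := fun g u v => g.2 u v
  have hAinj : Function.Injective A := fun g g' h => Subtype.ext (Units.ext h)
  let ρ : ↥(Cfsg.GU m K q) →* Module.End F (Fin m → K) := (resM (F := F) (K := K)).comp A
  have hρ : ∀ g w, ρ g w = (A g).mulVec w := fun g w => resM_apply (F := F) (A g) w
  refine transfer_sp (trHerm (F := F) hK hF α m) θ₀ hθ₀ ρ ?_ ?_
  · intro g u v
    rw [hρ, hρ, trHerm_apply, trHerm_apply, hA]
  · intro g g' h
    exact hAinj (resM_injective h)

end fields

end Cfsg.Agent.Lib.Known3.Descent
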