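import Mathlib
import Cfsg.Agent.Lib.Known3.Descent
import Cfsg.Agent.Lib.Known3.QuadIso

set_option autoImplicit false
set_option linter.unusedSectionVars false

open Module

namespace Cfsg.Agent.Lib.Known3.DescentQ

open Cfsg.Agent.Lib.Known3.Descent
open Cfsg.Agent.Lib.Known3.QuadIso
open Cfsg.Agent.Lib.Classical (hermForm_add_left hermForm_add_right hermForm_smul_left hermForm_smul_right
  hermForm_symm hermForm_nondeg_left pow_q_pow_q pow_q_add one_lt_q exists_norm_eq conjQ_neg)

variable {K F : Type*} [Field K] [Fintype K] [Field F] [Fintype F] {q : ℕ} [Algebra F K]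

local notation "P" => QuadraticMap.polarBilin

lemma norm_smul' (hK : Fintype.card K = q ^ 2) (hF : Fintype.card F = q) (c : F) (x : K) :
    Algebra.norm F (c • x) = c * c * Algebra.norm F x := by
  apply (algebraMap F K).injective
  rw [norm_eq hK hF, map_mul, map_mul, norm_eq hK hF, Algebra.smul_def, mul_pow, pow_succ _ q, alg_pow hF]

/-- The quadratic form `Σ N(v_i)`. -/
noncomputable def normQ (hK : Fintype.card K = q ^ 2) (hF : Fintype.card F = q) (m : ℕ) :
    QuadraticForm F (Fin m → K) where
  toFun v := ∑ i, Algebra.norm F (v i)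
  toFun_smul c v := by
    simp only [Pi.smul_apply, norm_smul' hK hF, smul_eq_mul, Finset.mul_sum]
  exists_companion' := ⟨trHerm hK hF 1 m, by
    intro u v
    apply (algebraMap F K).injective
    have h1 : ∀ w : Fin m → K, algebraMap F K (∑ i, Algebra.norm F (w i)) = Cfsg.hermForm m K q w w := by
      intro w
      rw [map_sum]
      refine Finset.sum_congr rfl fun i _ => ?_
      rw [norm_eq hK hF, pow_succ']
    rw [map_add, map_add, h1, h1, h1, trHerm_apply, tr_eq hK hF, one_mul, hermForm_add_left hK,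
      hermForm_add_right hK, hermForm_add_right hK, hermForm_symm hK]
    ring⟩

lemma normQ_apply (hK : Fintype.card K = q ^ 2) (hF : Fintype.card F = q) (m : ℕ) (v : Fin m → K) :
    normQ hK hF m v = ∑ i, Algebra.norm F (v i) := rfl

lemma normQ_alg (hK : Fintype.card K = q ^ 2) (hF : Fintype.card F = q) (m : ℕ) (w : Fin m → K) :
    algebraMap F K (normQ hK hF m w) = Cfsg.hermForm m K q w w := by
  rw [normQ_apply, map_sum]
  refine Finset.sum_congr rfl fun i _ => ?_
  rw [norm_eq hK hF, pow_succ']

lemma normQ_polar (hK : Fintype.card K = q ^ 2) (hF : Fintype.card F = q) (m : ℕ) (u v : Fin m → K) :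
    P (normQ hK hF m) u v = Algebra.trace F K (Cfsg.hermForm m K q u v) := by
  change QuadraticMap.polar (⇑(normQ hK hF m)) u v = _
  apply (algebraMap F K).injective
  rw [QuadraticMap.polar, map_sub, map_sub, normQ_alg, normQ_alg, normQ_alg, tr_eq hK hF,
    hermForm_add_left hK, hermForm_add_right hK, hermForm_add_right hK, hermForm_symm hK]
  ring

lemma normQ_nondeg (hK : Fintype.card K = q ^ 2) (hF : Fintype.card F = q) (m : ℕ) :
    (P (normQ hK hF m)).Nondegenerate := by
  have hL : ∀ u : Fin m → K, (∀ v, P (normQ hK hF m) u v = 0) → u = 0 := by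
    intro u hu
    apply hermForm_nondeg_left hK
    intro v
    apply tr_eq_zero_imp (F := F) hK hF
    intro c
    have := hu ((c ^ q) • v)
    rwa [normQ_polar, hermForm_smul_right, pow_q_pow_q hK] at this
  refine ⟨hL, ?_⟩
  intro v hv
  apply hL
  intro u
  have : P (normQ hK hF m) v u = P (normQ hK hF m) u v := Cfsg.Agent.Lib.Classical.Witt.pol_comm _ _ _
  rw [this, hv u]

/-- For `k` even, `Σ N(v_i)` on `K^k` is hyperbolic. -/
theorem exists_theta_plus (hK : Fintype.card K = q ^ 2) (hF : Fintype.card F = q) (k : ℕ) (hk : Even k) :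
    ∃ θ : (Fin k → K) ≃ₗ[F] (Fin k ⊕ Fin k → F), ∀ v, Cfsg.quadFormPlus k F (θ v) = normQ hK hF k v := by
  classical
  obtain ⟨r, rfl⟩ := hk
  have hq := one_lt_q hK
  obtain ⟨lam, hlam0, hlam⟩ := exists_norm_eq hK (μ := (-1 : K)) (by simp) (by
    rw [conjQ_neg hK, one_pow])
  let ψ : (Fin r → K) →ₗ[F] (Fin (r + r) → K) :=
    { toFun := fun w => Fin.append w (lam • w)
      map_add' := fun u v => by
        funext i
        refine Fin.addCases (fun i => ?_) (fun i => ?_) i
        · simp only [Pi.add_apply, Fin.append_left]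
        · simp only [Pi.add_apply, Fin.append_right, Pi.smul_apply, smul_eq_mul, mul_add]
      map_smul' := fun c v => by
        funext i
        refine Fin.addCases (fun i => ?_) (fun i => ?_) i
        · simp only [Fin.append_left, Pi.smul_apply, RingHom.id_apply]
        · simp only [Fin.append_right, Pi.smul_apply, RingHom.id_apply, smul_eq_mul]
          rw [mul_smul_comm] }
  have hψ : Function.Injective ψ := by
    intro u v h
    funext i
    have := congrFun h (Fin.castAdd r i)
    simpa [ψ] using this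
  refine isometry_plus_of_ts (by rw [finrank_fun hK hF, Fintype.card_fin]) (normQ hK hF (r + r)) (normQ_nondeg hK hF (r + r))
    (LinearMap.range ψ) ?_ ?_
  · rw [LinearMap.finrank_range_of_inj hψ, finrank_fun hK hF, Fintype.card_fin]
    omega
  · rintro _ ⟨w, rfl⟩
    apply (algebraMap F K).injective
    rw [normQ_alg, map_zero]
    simp only [Cfsg.hermForm, Fin.sum_univ_add, ψ, LinearMap.coe_mk, AddHom.coe_mk, Fin.append_left, Fin.append_right,
      Pi.smul_apply, smul_eq_mul, ← Finset.sum_add_distrib]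
    refine Finset.sum_eq_zero fun i _ => ?_
    have h1 : (lam * w i) ^ q = lam ^ q * (w i) ^ q := mul_pow _ _ _
    rw [h1]
    have h2 : lam * lam ^ q = -1 := by
      rw [← hlam, pow_succ']
    linear_combination (w i * (w i) ^ q) * h2

/-- Embedding of `GU` in the isometry group of a form isometric with `normQ`. -/
theorem gu_embed_iso {ι : Type} [Fintype ι] [DecidableEq ι] (hK : Fintype.card K = q ^ 2)
    (hF : Fintype.card F = q) (m : ℕ) (Q' : (ι → F) → F) (θ : (Fin m → K) ≃ₗ[F] (ι → F))
    (hθ : ∀ v, Q' (θ v) = normQ hK hF m v) :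
    ∃ φ : ↥(Cfsg.GU m K q) →* ↥(Cfsg.isometryGroup F Q'), Function.Injective φ := by
  let A : ↥(Cfsg.GU m K q) →* Matrix (Fin m) (Fin m) K :=
    (Units.coeHom (Matrix (Fin m) (Fin m) K)).comp (Cfsg.GU m K q).subtype
  have hA : ∀ (g : ↥(Cfsg.GU m K q)) u v, Cfsg.hermForm m K q ((A g).mulVec u) ((A g).mulVec v) =
      Cfsg.hermForm m K q u v := fun g u v => g.2 u v
  have hAinj : Function.Injective A := fun g g' h => Subtype.ext (Units.ext h)
  let ρ : ↥(Cfsg.GU m K q) →* Module.End F (Fin m → K) := (resM (F := F) (K := K)).comp A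
  have hρ : ∀ g w, ρ g w = (A g).mulVec w := fun g w => resM_apply (F := F) (A g) w
  refine transfer_iso Q' (normQ hK hF m) θ hθ ρ ?_ ?_
  · intro g v
    rw [hρ]
    apply (algebraMap F K).injective
    rw [normQ_alg, normQ_alg, hA]
  · intro g g' h
    exact hAinj (resM_injective h)

/-- Elements fixed by the Frobenius come from the subfield. -/
lemma fixed_mem_range (hK : Fintype.card K = q ^ 2) (hF : Fintype.card F = q) (x : K) (hx : x ^ q = x) :
    ∃ c : F, algebraMap F K c = x := by
  let f : F → {x : K // x ^ q = x} := fun c => ⟨algebraMap F K c, alg_pow hF c⟩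
  have hf : Function.Injective f := fun a b h => (algebraMap F K).injective (congrArg Subtype.val h)
  have hc : Nat.card F = Nat.card {x : K // x ^ q = x} := by
    rw [Cfsg.Agent.Lib.Classical.card_fixed hK, Nat.card_eq_fintype_card, hF]
  haveI : Finite {x : K // x ^ q = x} := inferInstance
  have hb := (Nat.bijective_iff_injective_and_card f).2 ⟨hf, hc⟩
  obtain ⟨c, hc'⟩ := hb.2 ⟨x, hx⟩
  exact ⟨c, congrArg Subtype.val hc'⟩

/-- A root of an anisotropic binary quadratic polynomial. -/
theorem exists_root (hK : Fintype.card K = q ^ 2) (hF : Fintype.card F = q) (a b : F)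
    (hab : ∀ z₁ z₂ : F, z₁ ^ 2 + a * z₁ * z₂ + b * z₂ ^ 2 = 0 → z₁ = 0 ∧ z₂ = 0) :
    ∃ β : K, β ^ q ≠ β ∧ β + β ^ q = algebraMap F K (-a) ∧ β * β ^ q = algebraMap F K b := by
  classical
  let f : Polynomial F := Polynomial.X ^ 2 + Polynomial.C a * Polynomial.X + Polynomial.C b
  have hdeg : f.natDegree = 2 := by
    simp only [f]
    compute_degree!
  have hmon : f.Monic := by
    simp only [f]
    monicity!
  have hirr : Irreducible f := by
    rw [Polynomial.Monic.irreducible_iff_roots_eq_zero_of_degree_le_three hmon (by omega) (by omega)]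
    apply Multiset.eq_zero_of_forall_notMem
    intro t ht
    have h1 := (Polynomial.mem_roots'.1 ht).2
    have h2 : t ^ 2 + a * t + b = 0 := by
      simpa [f, Polynomial.IsRoot] using h1
    have h3 := hab t 1 (by linear_combination h2)
    exact one_ne_zero h3.2
  haveI : Fact (Irreducible f) := ⟨hirr⟩
  have hfin : finrank F (AdjoinRoot f) = 2 := by
    rw [(AdjoinRoot.powerBasis hirr.ne_zero).finrank, AdjoinRoot.powerBasis_dim, hdeg]
  haveI : Finite K := inferInstance
  obtain ⟨g⟩ := FiniteField.nonempty_algHom_of_finrank_dvd (F := F) (K := AdjoinRoot f) (L := K) (by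
    rw [hfin, finrank_eq_two hK hF])
  set β := g (AdjoinRoot.root f) with hβ
  have h0 : β ^ 2 + algebraMap F K a * β + algebraMap F K b = 0 := by
    have h1 : f.eval₂ (AdjoinRoot.of f) (AdjoinRoot.root f) = 0 := AdjoinRoot.eval₂_root f
    simp only [f, Polynomial.eval₂_add, Polynomial.eval₂_mul, Polynomial.eval₂_pow, Polynomial.eval₂_X,
      Polynomial.eval₂_C] at h1
    have h2 := congrArg g h1
    simp only [map_add, map_mul, map_pow, map_zero] at h2
    have h3 : ∀ c : F, g (AdjoinRoot.of f c) = algebraMap F K c := fun c => g.commutes c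
    rw [h3, h3] at h2
    exact h2
  have hnf : β ^ q ≠ β := by
    intro h
    obtain ⟨t, ht⟩ := fixed_mem_range hK hF β h
    have h2 : t ^ 2 + a * t + b = 0 := by
      apply (algebraMap F K).injective
      rw [map_zero, map_add, map_add, map_pow, map_mul, ht]
      exact h0
    have h3 := hab t 1 (by linear_combination h2)
    exact one_ne_zero h3.2
  have h1 : (β ^ q) ^ 2 + algebraMap F K a * β ^ q + algebraMap F K b = 0 := by
    have hq := one_lt_q hK
    have h2 : (β ^ 2 + algebraMap F K a * β + algebraMap F K b) ^ q = 0 ^ q := by rw [h0]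
    rw [pow_q_add hK, pow_q_add hK, mul_pow, alg_pow hF, alg_pow hF, zero_pow (by omega)] at h2
    rw [← h2]
    ring
  have h2 : (β - β ^ q) * (β + β ^ q + algebraMap F K a) = 0 := by
    linear_combination h0 - h1
  have h3 : β + β ^ q + algebraMap F K a = 0 := by
    refine (mul_eq_zero.1 h2).resolve_left ?_
    intro h
    exact hnf (sub_eq_zero.1 h).symm
  refine ⟨β, hnf, ?_, ?_⟩
  · rw [map_neg]
    linear_combination h3
  · linear_combination β * h3 - h0

/-- For `k` even, `Σ N(v_i)` on `K^(k+1)` is the elliptic form. -/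
theorem exists_theta_minus (hK : Fintype.card K = q ^ 2) (hF : Fintype.card F = q) (k : ℕ) (hk : Even k)
    (a b : F) (hab : ∀ z₁ z₂ : F, z₁ ^ 2 + a * z₁ * z₂ + b * z₂ ^ 2 = 0 → z₁ = 0 ∧ z₂ = 0) :
    ∃ θ : (Fin (k + 1) → K) ≃ₗ[F] ((Fin k ⊕ Fin k) ⊕ Fin 2 → F),
      ∀ v, Cfsg.quadFormMinus k F a b (θ v) = normQ hK hF (k + 1) v := by
  classical
  obtain ⟨θ₁, hθ₁⟩ := exists_theta_plus (F := F) hK hF k hk
  obtain ⟨β, hβ, hs, hp⟩ := exists_root hK hF a b hab
  let y : (((Fin k ⊕ Fin k) ⊕ Fin 2) → F) → K := fun w =>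
    algebraMap F K (w (Sum.inr 0)) - algebraMap F K (w (Sum.inr 1)) * β
  let x : (((Fin k ⊕ Fin k) ⊕ Fin 2) → F) →ₗ[F] (Fin k → K) :=
    θ₁.symm.toLinearMap ∘ₗ (LinearMap.funLeft F F Sum.inl)
  let Ψ : (((Fin k ⊕ Fin k) ⊕ Fin 2) → F) →ₗ[F] (Fin (k + 1) → K) :=
    { toFun := fun w => Fin.snoc (α := fun _ => K) (x w) (y w)
      map_add' := fun u v => by
        funext i
        refine Fin.lastCases ?_ (fun i => ?_) i
        · simp only [Fin.snoc_last, Pi.add_apply, y, map_add]
          ring
        · simp only [Fin.snoc_castSucc, Pi.add_apply, map_add]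
      map_smul' := fun c v => by
        funext i
        refine Fin.lastCases ?_ (fun i => ?_) i
        · have h : y (c • v) = c • y v := by
            simp only [y, Pi.smul_apply, smul_eq_mul, map_mul]
            rw [Algebra.smul_def]
            ring
          simp only [Fin.snoc_last, Pi.smul_apply, RingHom.id_apply, h]
        · simp only [Fin.snoc_castSucc, Pi.smul_apply, RingHom.id_apply, map_smul] }
  have hΨl : ∀ w, Ψ w (Fin.last k) = y w := fun w => Fin.snoc_last (α := fun _ => K) _ _
  have hΨc : ∀ w (i : Fin k), Ψ w i.castSucc = x w i := fun w i => Fin.snoc_castSucc (α := fun _ => K) _ _ _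
  -- the norm formula
  have hnorm : ∀ w, algebraMap F K (Algebra.norm F (y w)) =
      algebraMap F K (w (Sum.inr 0) ^ 2 + a * w (Sum.inr 0) * w (Sum.inr 1) + b * w (Sum.inr 1) ^ 2) := by
    intro w
    rw [norm_eq hK hF, pow_succ']
    have h1 : (y w) ^ q = algebraMap F K (w (Sum.inr 0)) - algebraMap F K (w (Sum.inr 1)) * β ^ q := by
      simp only [y]
      rw [Cfsg.Agent.Lib.Classical.conjQ_sub hK, mul_pow, alg_pow hF, alg_pow hF]
    rw [h1]
    simp only [y, map_add, map_mul, map_pow]
    rw [map_neg] at hs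
    linear_combination (-(algebraMap F K (w (Sum.inr 0)) * algebraMap F K (w (Sum.inr 1)))) * hs +
      (algebraMap F K (w (Sum.inr 1))) ^ 2 * hp
  have hinj : Function.Injective Ψ := by
    rw [← LinearMap.ker_eq_bot, LinearMap.ker_eq_bot']
    intro w hw
    have h1 : x w = 0 := by
      funext i
      have := congrFun hw i.castSucc
      rwa [hΨc] at this
    have h2 : LinearMap.funLeft F F Sum.inl w = 0 := by
      have : θ₁.symm (LinearMap.funLeft F F Sum.inl w) = 0 := h1
      simpa using this
    have h3 : y w = 0 := by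
      have := congrFun hw (Fin.last k)
      rwa [hΨl] at this
    have h4 := hnorm w
    rw [norm_eq hK hF, h3, zero_pow (by omega)] at h4
    have h5 := hab _ _ ((algebraMap F K).injective (by rw [map_zero]; exact h4.symm))
    funext s
    rcases s with s | s
    · exact congrFun h2 s
    · fin_cases s
      · exact h5.1
      · exact h5.2
  have hdim : finrank F ((Fin k ⊕ Fin k) ⊕ Fin 2 → F) = finrank F (Fin (k + 1) → K) := by
    rw [finrank_fun hK hF, Module.finrank_fintype_fun_eq_card]
    simp
    omega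
  let e := LinearMap.linearEquivOfInjective Ψ hinj hdim
  have he : ∀ w, e w = Ψ w := fun w => rfl
  have hval : ∀ w, normQ hK hF (k + 1) (Ψ w) = Cfsg.quadFormMinus k F a b w := by
    intro w
    rw [normQ_apply, Fin.sum_univ_castSucc, hΨl]
    simp only [hΨc]
    have h1 : ∑ i, Algebra.norm F (x w i) = ∑ i : Fin k, w (Sum.inl (Sum.inl i)) * w (Sum.inl (Sum.inr i)) := by
      have h2 := hθ₁ (x w)
      rw [normQ_apply] at h2
      rw [← h2]
      have h3 : θ₁ (x w) = LinearMap.funLeft F F Sum.inl w := by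
        change θ₁ (θ₁.symm _) = _
        simp
      rw [h3]
      rfl
    rw [h1, Cfsg.quadFormMinus]
    congr 1
    exact (algebraMap F K).injective (hnorm w)
  refine ⟨e.symm, ?_⟩
  intro v
  rw [← hval, ← he]
  simp

/-- `GU_m`, `m` even. -/
theorem gu_embed_plus (hK : Fintype.card K = q ^ 2) (hF : Fintype.card F = q) (m : ℕ) (hm : Even m) :
    ∃ φ : ↥(Cfsg.GU m K q) →* ↥(Cfsg.isometryGroup F (Cfsg.quadFormPlus m F)), Function.Injective φ := by
  obtain ⟨θ, hθ⟩ := exists_theta_plus (F := F) hK hF m hm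
  exact gu_embed_iso hK hF m _ θ hθ

/-- `GU_m`, `m` odd. -/
theorem gu_embed_minus (hK : Fintype.card K = q ^ 2) (hF : Fintype.card F = q) (k : ℕ) (hk : Even k) (a b : F)
    (hab : ∀ z₁ z₂ : F, z₁ ^ 2 + a * z₁ * z₂ + b * z₂ ^ 2 = 0 → z₁ = 0 ∧ z₂ = 0) :
    ∃ φ : ↥(Cfsg.GU (k + 1) K q) →* ↥(Cfsg.isometryGroup F (Cfsg.quadFormMinus k F a b)), Function.Injective φ := by
  obtain ⟨θ, hθ⟩ := exists_theta_minus (F := F) hK hF k hk a b hab
  exact gu_embed_iso hK hF (k + 1) _ θ hθ

end Cfsg.Agent.Lib.Known3.DescentQ
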