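import Mathlib
import Cfsg.Agent.Lib.Known3.Commutant
import Cfsg.Agent.Lib.Known3.Dichotomy
import Cfsg.Agent.Lib.Known3.PSLBasic

/-! The determinant on the commutant of a semisimple endomorphism over a finite field is surjective. -/

namespace Cfsg.Agent.Lib.Known3.DetCent

open Polynomial Module
open Cfsg.Agent.Lib.Known3.Commutant

universe u v

variable {F : Type u} [Field F] [Fintype F]

/-- Irreducible cyclic case. -/
theorem exists_det_of_irreducible {V : Type v} [AddCommGroup V] [Module F V] [FiniteDimensional F V]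
    {T : V →ₗ[F] V} {f : F[X]} (hf : Irreducible f) (hT : aeval T f = 0) {v₀ : V} (hv₀ : IsCyc T v₀)
    (hv0 : v₀ ≠ 0) {c : F} (hc : c ≠ 0) :
    ∃ S : V →ₗ[F] V, (∀ v, S (T v) = T (S v)) ∧ LinearMap.det S = c := by
  classical
  haveI : Fact (Irreducible f) := ⟨hf⟩
  have hf0 : f ≠ 0 := hf.ne_zero
  let E := AdjoinRoot f
  haveI : Module.Finite F E := (AdjoinRoot.powerBasis hf0).finite
  let hom := homE T f hT
  have hhom : ∀ y : E, ∀ v, hom y (T v) = T (hom y v) := by
    intro y v
    obtain ⟨r, rfl⟩ := AdjoinRoot.mk_surjective y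
    rw [homE_mk]
    exact (aeval_comm (S := T) (T := T) (fun _ => rfl) r v).symm
  have hsmul : ∀ (a : F) (y : E) (v : V), hom (a • y) v = a • hom y v := by
    intro a y v
    obtain ⟨r, rfl⟩ := AdjoinRoot.mk_surjective y
    rw [AdjoinRoot.smul_mk, homE_mk, homE_mk, map_smul]
    rfl
  have hmul : ∀ (x y : E) (v : V), hom (x * y) v = hom x (hom y v) := by
    intro x y v
    rw [map_mul]
    rfl
  let Φ : E →ₗ[F] V :=
    { toFun := fun y => hom y v₀
      map_add' := fun a b => by rw [map_add]; rfl
      map_smul' := fun a y => hsmul a y v₀ }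
  have hΦinj : Function.Injective Φ := by
    rw [injective_iff_map_eq_zero]
    intro y hy
    by_contra hy0
    apply hv0
    have h1 : hom (y⁻¹ * y) v₀ = hom y⁻¹ (hom y v₀) := hmul _ _ _
    rw [inv_mul_cancel₀ hy0, map_one] at h1
    have h2 : hom y v₀ = 0 := hy
    rw [h2, map_zero] at h1
    exact h1
  have hΦsurj : Function.Surjective Φ := by
    intro v
    obtain ⟨r, hr⟩ := hv₀ v
    exact ⟨AdjoinRoot.mk f r, by change hom (AdjoinRoot.mk f r) v₀ = v; rw [homE_mk, hr]⟩
  let e : E ≃ₗ[F] V := LinearEquiv.ofBijective Φ ⟨hΦinj, hΦsurj⟩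
  haveI : Finite E := Module.finite_of_finite F
  obtain ⟨l, hl⟩ := FiniteField.norm_surjective F E c
  refine ⟨hom l, hhom l, ?_⟩
  have h1 : hom l = e.toLinearMap ∘ₗ (LinearMap.mulLeft F l) ∘ₗ e.symm.toLinearMap := by
    apply LinearMap.ext
    intro v
    obtain ⟨y, rfl⟩ := e.surjective v
    simp only [LinearMap.comp_apply, LinearEquiv.coe_coe, LinearEquiv.symm_apply_apply,
      LinearMap.mulLeft_apply]
    change hom l (hom y v₀) = hom (l * y) v₀
    rw [hmul]
  rw [h1, LinearMap.det_conj, ← hl, Algebra.norm_apply]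
  rfl

/-- The determinant on the commutant of a semisimple endomorphism is surjective. -/
theorem exists_det (n : ℕ) : ∀ (V : Type v) [AddCommGroup V] [Module F V] [FiniteDimensional F V]
    (_ : finrank F V = n) [Nontrivial V] (T : V →ₗ[F] V) (P : F[X]) (_ : Squarefree P) (_ : P ≠ 0)
    (_ : aeval T P = 0) (c : F) (_ : c ≠ 0),
    ∃ S : V →ₗ[F] V, (∀ v, S (T v) = T (S v)) ∧ LinearMap.det S = c := by
  induction n using Nat.strong_induction_on with
  | _ n ih =>
    intro V _ _ _ hn _ T P hP hP0 hPT c hc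
    rcases Dichotomy.decomp_or_cyclic T with
      ⟨V₁, V₂, hcompl, h1, h2, hi1, hi2⟩ | ⟨p, e, v₀, hp, he, h1, h2⟩
    · have hdim := Submodule.finrank_add_eq_of_isCompl hcompl
      haveI : Nontrivial V₁ := Submodule.nontrivial_iff_ne_bot.2 h1
      have hd1 : 0 < finrank F V₁ := Module.finrank_pos
      have hd2 : 0 < finrank F V₂ := by
        rw [Module.finrank_pos_iff]
        exact Submodule.nontrivial_iff_ne_bot.2 h2
      let T₁ : V₁ →ₗ[F] V₁ := T.restrict hi1
      have hT₁ : aeval T₁ P = 0 := by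
        apply LinearMap.ext
        intro v
        apply Subtype.ext
        rw [aeval_restrict, hPT]
        rfl
      obtain ⟨S₁, hS₁, hdet₁⟩ := ih (finrank F V₁) (by omega) V₁ rfl T₁ P hP hP0 hT₁ c hc
      let eV : (V₁ × V₂) ≃ₗ[F] V := Submodule.prodEquivOfIsCompl V₁ V₂ hcompl
      let f : (V₁ × V₂) →ₗ[F] (V₁ × V₂) := LinearMap.prodMap S₁ LinearMap.id
      let S : V →ₗ[F] V := eV.toLinearMap ∘ₗ f ∘ₗ eV.symm.toLinearMap
      have hS1 : ∀ v : V₁, S v = S₁ v := by
        intro v
        have h3 : eV.symm (v : V) = (v, 0) := Submodule.prodEquivOfIsCompl_symm_apply_left V₁ V₂ hcompl v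
        simp only [S, LinearMap.comp_apply, LinearEquiv.coe_coe, h3]
        simp [f, eV]
      have hS2 : ∀ v : V₂, S v = v := by
        intro v
        have h3 : eV.symm (v : V) = (0, v) := Submodule.prodEquivOfIsCompl_symm_apply_right V₁ V₂ hcompl v
        simp only [S, LinearMap.comp_apply, LinearEquiv.coe_coe, h3]
        simp [f, eV]
      refine ⟨S, ?_, ?_⟩
      · intro v
        have : S ∘ₗ T = T ∘ₗ S := by
          apply PSLBasic.eq_of_agree hcompl
          · intro w hw
            have h3 := hS1 ⟨w, hw⟩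
            have h4 := hS1 ⟨T w, hi1 w hw⟩
            simp only at h3 h4
            simp only [LinearMap.comp_apply]
            rw [h3, h4]
            have h5 := hS₁ ⟨w, hw⟩
            have h6 : (T₁ ⟨w, hw⟩ : V₁) = ⟨T w, hi1 w hw⟩ := rfl
            rw [← h6, h5]
            rfl
          · intro w hw
            have h3 := hS2 ⟨w, hw⟩
            have h4 := hS2 ⟨T w, hi2 w hw⟩
            simp only at h3 h4
            simp only [LinearMap.comp_apply]
            rw [h3, h4]
        exact LinearMap.congr_fun this v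
      · change LinearMap.det (eV.toLinearMap ∘ₗ f ∘ₗ eV.symm.toLinearMap) = c
        rw [LinearMap.det_conj, LinearMap.det_prodMap, hdet₁]
        simp
    · -- cyclic: `e = 1`
      have hP1 : p ^ e ∣ P := (h1 P).1 (by rw [hPT]; rfl)
      have he1 : e = 1 := by
        by_contra hne
        have h3 : p * p ∣ P := by
          have h4 : p ^ 2 ∣ P := (pow_dvd_pow p (by omega)).trans hP1
          rwa [pow_two] at h4
        exact hp.not_isUnit (hP p h3)
      subst he1
      rw [pow_one] at h1
      have hann : aeval T p = 0 := by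
        apply LinearMap.ext
        intro v
        obtain ⟨r, rfl⟩ := h2 v
        rw [aeval_aeval_comm, (h1 p).2 dvd_rfl, map_zero]
        rfl
      have hv0 : v₀ ≠ 0 := by
        rintro rfl
        obtain ⟨v, hv⟩ := exists_ne (0 : V)
        obtain ⟨r, hr⟩ := h2 v
        rw [map_zero] at hr
        exact hv hr.symm
      exact exists_det_of_irreducible hp hann h2 hv0 hc

end Cfsg.Agent.Lib.Known3.DetCent
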