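import Mathlib
import Cfsg.Agent.Lib.Known3.QuadIso
import Cfsg.Agent.Lib.Known3.Witt

set_option autoImplicit false
set_option linter.unusedSectionVars false

open Module

namespace Cfsg.Agent.Lib.Known3.F2Quad

open Cfsg.Agent.Lib.Classical.Abs (Qplus Qplus_apply)
open Cfsg.Agent.Lib.Known3.QuadIso

local notation "P" => QuadraticMap.polarBilin

variable {m : ℕ}

/-- The space. -/
abbrev VV (m : ℕ) := Fin m ⊕ Fin m → ZMod 2

/-- The plus form. -/
noncomputable def Q0 (v : VV m) : ZMod 2 := Cfsg.quadFormPlus m (ZMod 2) v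

/-- The polar form. -/
noncomputable def BB (u v : VV m) : ZMod 2 := Q0 (u + v) - Q0 u - Q0 v

lemma BB_eq (u v : VV m) : BB u v = P (Qplus m (ZMod 2)) u v := by
  change _ = QuadraticMap.polar _ _ _
  simp [BB, Q0, QuadraticMap.polar, Qplus_apply]

lemma BB_apply (u v : VV m) : BB u v = ∑ i, (u (Sum.inl i) * v (Sum.inr i) + u (Sum.inr i) * v (Sum.inl i)) := by
  rw [BB_eq, polar_Qplus]

lemma BB_add_left (u u' v : VV m) : BB (u + u') v = BB u v + BB u' v := by
  simp only [BB_eq, map_add, LinearMap.add_apply]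

lemma BB_add_right (u v v' : VV m) : BB u (v + v') = BB u v + BB u v' := by
  simp only [BB_eq, map_add]

lemma BB_comm (u v : VV m) : BB u v = BB v u := by
  simp only [BB_eq]
  exact Cfsg.Agent.Lib.Classical.Witt.pol_comm _ _ _

lemma two_eq : (2 : ZMod 2) = 0 := rfl

lemma sq_eq (x : ZMod 2) : x * x = x := by
  revert x; decide

lemma add_self' (x : ZMod 2) : x + x = 0 := by
  revert x; decide

lemma BB_self (w : VV m) : BB w w = 0 := by
  rw [BB_apply]
  refine Finset.sum_eq_zero fun i _ => ?_
  linear_combination (w (Sum.inl i) * w (Sum.inr i)) * two_eq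

lemma BB_nondeg (w : VV m) (h : ∀ u, BB u w = 0) : w = 0 := by
  classical
  funext s
  rcases s with i | i
  · have := h (Pi.single (Sum.inr i) 1)
    rw [BB_apply] at this
    simpa [Pi.single_apply] using this
  · have := h (Pi.single (Sum.inl i) 1)
    rw [BB_apply] at this
    simpa [Pi.single_apply] using this

/-- `q` polarises to `BB`. -/
def IsPol (q : VV m → ZMod 2) : Prop := ∀ u v, q (u + v) = q u + q v + BB u v

lemma Q0_isPol : IsPol (Q0 : VV m → ZMod 2) := by
  intro u v
  rw [BB]
  ring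

/-- The form `q_w`. -/
noncomputable def qq (w : VV m) : VV m → ZMod 2 := fun v => Q0 v + BB v w

lemma isPol_add (q : VV m → ZMod 2) (hq : IsPol q) (w : VV m) : IsPol (fun v => q v + BB v w) := by
  intro u v
  simp only [hq u v, BB_add_left]
  ring

lemma qq_isPol (w : VV m) : IsPol (qq w) := isPol_add Q0 Q0_isPol w

lemma qq_injective : Function.Injective (qq : VV m → _) := by
  intro a b h
  have h1 : ∀ u, BB u (a - b) = 0 := by
    intro u
    have h2 := congrFun h u
    simp only [qq] at h2
    have h3 : BB u a = BB u b := add_left_cancel h2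
    have h4 : a = (a - b) + b := by abel
    rw [h4, BB_add_right] at h3
    have h5 : (BB u (a - b) + BB u b) = BB u b := by
      simpa using h3
    exact add_eq_right.1 h5
  exact sub_eq_zero.1 (BB_nondeg _ h1)

lemma IsPol.map_zero (q : VV m → ZMod 2) (hq : IsPol q) : q 0 = 0 := by
  have h1 := hq 0 0
  simp only [add_zero] at h1
  rw [BB_self] at h1
  have : q 0 + q 0 = 0 := add_self' _
  linear_combination h1 + this

lemma exists_qq (q : VV m → ZMod 2) (hq : IsPol q) : ∃ w, qq w = q := by
  classical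
  let ℓ₀ : VV m →+ ZMod 2 :=
    { toFun := fun v => q v - Q0 v
      map_zero' := by
        rw [IsPol.map_zero q hq, IsPol.map_zero Q0 Q0_isPol, sub_zero]
      map_add' := fun u v => by
        rw [hq u v, Q0_isPol u v]
        ring }
  let L : VV m →ₗ[ZMod 2] ZMod 2 := ℓ₀.toZModLinearMap 2
  have hL : ∀ v, L v = q v - Q0 v := fun v => rfl
  let w : VV m := Sum.elim (fun i => L (fun j => if Sum.inr i = j then 1 else 0))
    (fun i => L (fun j => if Sum.inl i = j then 1 else 0))
  refine ⟨w, ?_⟩
  funext v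
  simp only [qq]
  have h1 := LinearMap.pi_apply_eq_sum_univ L v
  rw [Fintype.sum_sum_type, ← Finset.sum_add_distrib] at h1
  have h2 : BB v w = L v := by
    rw [BB_apply, h1]
    refine Finset.sum_congr rfl fun i _ => ?_
    simp [w]
  rw [h2, hL]
  ring

/-- The sign character. -/
def chi (x : ZMod 2) : ℤ := if x = 0 then 1 else -1

lemma chi_add (x y : ZMod 2) : chi (x + y) = chi x * chi y := by
  revert x y; decide

lemma chi_eq_one_iff (x : ZMod 2) : chi x = 1 ↔ x = 0 := by
  revert x; decide

/-- The Gauss sum. -/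
def SS (q : VV m → ZMod 2) : ℤ := ∑ v, chi (q v)

lemma SS_add (q : VV m → ZMod 2) (hq : IsPol q) (w : VV m) :
    SS (fun v => q v + BB v w) = chi (q w) * SS q := by
  rw [SS, SS, Finset.mul_sum, ← Equiv.sum_comp (Equiv.addRight w) (fun v => chi (q w) * chi (q v))]
  refine Finset.sum_congr rfl fun v _ => ?_
  rw [← chi_add]
  congr 1
  simp only [Equiv.coe_addRight]
  rw [hq v w]
  linear_combination (-q w) * two_eq

lemma SS_comp (q : VV m → ZMod 2) (g : VV m ≃ VV m) : SS (fun v => q (g v)) = SS q :=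
  Equiv.sum_comp g (fun v => chi (q v))

lemma SS_Q0 : SS (Q0 : VV m → ZMod 2) = 2 ^ m := by
  classical
  let e : VV m ≃ (Fin m → ZMod 2 × ZMod 2) :=
    (Equiv.sumArrowEquivProdArrow _ _ _).trans (Equiv.arrowProdEquivProdArrow _ _ _).symm
  have h1 : ∀ v : VV m, chi (Q0 v) = ∏ i, chi ((e v i).1 * (e v i).2) := by
    intro v
    have h2 : ∀ (s : Finset (Fin m)), chi (∑ i ∈ s, v (Sum.inl i) * v (Sum.inr i)) =
        ∏ i ∈ s, chi (v (Sum.inl i) * v (Sum.inr i)) := by
      intro s
      induction s using Finset.induction_on with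
      | empty => simp [chi]
      | insert a s ha ih => rw [Finset.sum_insert ha, Finset.prod_insert ha, chi_add, ih]
    exact h2 Finset.univ
  rw [SS, Finset.sum_congr rfl (fun v _ => h1 v), Equiv.sum_comp e (fun p => ∏ i, chi ((p i).1 * (p i).2))]
  have h3 := Finset.prod_univ_sum (fun _ : Fin m => (Finset.univ : Finset (ZMod 2 × ZMod 2)))
    (fun _ p => chi (p.1 * p.2))
  rw [Fintype.piFinset_univ] at h3
  rw [← h3]
  have h4 : ∑ p : ZMod 2 × ZMod 2, chi (p.1 * p.2) = 2 := by decide
  simp [h4]

lemma SS_qq (w : VV m) : SS (qq w) = chi (Q0 w) * 2 ^ m := by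
  have := SS_add Q0 Q0_isPol w
  rw [SS_Q0] at this
  exact this

lemma chi_ne_zero (x : ZMod 2) : chi x ≠ 0 := by
  revert x; decide

lemma SS_ne_zero (q : VV m → ZMod 2) (hq : IsPol q) : SS q ≠ 0 := by
  obtain ⟨w, rfl⟩ := exists_qq q hq
  rw [SS_qq]
  exact mul_ne_zero (chi_ne_zero _) (pow_ne_zero _ two_ne_zero)

/-- The transvection. -/
noncomputable def tv (w : VV m) : VV m → VV m := fun v => v + (BB v w) • w

lemma BB_smul_right (u w : VV m) (c : ZMod 2) : BB u (c • w) = c * BB u w := by
  simp only [BB_eq, map_smul, smul_eq_mul]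

lemma BB_smul_left (u w : VV m) (c : ZMod 2) : BB (c • u) w = c * BB u w := by
  simp only [BB_eq, map_smul, LinearMap.smul_apply, smul_eq_mul]

lemma isPol_smul (q : VV m → ZMod 2) (hq : IsPol q) (c : ZMod 2) (w : VV m) : q (c • w) = c * q w := by
  have h0 := IsPol.map_zero q hq
  have : ∀ c : ZMod 2, c = 0 ∨ c = 1 := by decide
  rcases this c with rfl | rfl
  · simp [h0]
  · simp

/-- The linear involution `v ↦ v + BB(v, w) w`. -/
noncomputable def tvL (w : VV m) : VV m ≃ₗ[ZMod 2] VV m :=
  LinearEquiv.ofInvolutive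
    { toFun := fun v => v + (BB v w) • w
      map_add' := fun u v => by
        rw [BB_add_left, add_smul]
        abel
      map_smul' := fun c v => by
        rw [BB_smul_left, mul_smul, RingHom.id_apply, smul_add] }
    (by
      intro v
      simp only [LinearMap.coe_mk, AddHom.coe_mk]
      rw [BB_add_left, BB_smul_left, BB_self, mul_zero, add_zero, add_assoc, ← add_smul, add_self',
        zero_smul, add_zero])

lemma tvL_apply (w v : VV m) : tvL w v = v + (BB v w) • w := rfl

lemma q_tv (q : VV m → ZMod 2) (hq : IsPol q) (w : VV m) (hw : q w = 0) (v : VV m) :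
    q (tvL w v) = q v + BB v w := by
  rw [tvL_apply, hq, isPol_smul q hq, hw, BB_smul_right, sq_eq]
  ring

/-- First half: the identity. -/
theorem same_type_iff (q : VV m → ZMod 2) (hq : IsPol q) (w : VV m) :
    (∃ g : VV m ≃ₗ[ZMod 2] VV m, ∀ v, q v + BB v w = q (g v)) ↔ q w = 0 := by
  constructor
  · rintro ⟨g, hg⟩
    have h1 := SS_add q hq w
    have h2 : (fun v => q v + BB v w) = fun v => q (g v) := funext hg
    have h5 : SS (fun v => q (g v)) = SS q := SS_comp q g.toEquiv
    rw [h2, h5] at h1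
    have h3 : (chi (q w) - 1) * SS q = 0 := by linear_combination -h1
    have h4 := (mul_eq_zero.1 h3).resolve_right (SS_ne_zero q hq)
    exact (chi_eq_one_iff _).1 (by linarith)
  · intro h
    exact ⟨tvL w, fun v => (q_tv q hq w h v).symm⟩

end Cfsg.Agent.Lib.Known3.F2Quad
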