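import Mathlib
import Cfsg.Agent.Lib.Known3.F2Quad
import Cfsg.Agent.Lib.Known3.Descent

set_option autoImplicit false
set_option linter.unusedSectionVars false

open Module

namespace Cfsg.Agent.Lib.Known3.EvenSet

open Cfsg.Agent.Lib.Known3.F2Quad
open Cfsg.Agent.Lib.Known3.QuadIso

local notation "P" => QuadraticMap.polarBilin

/-- Gauss sum of the minus form. -/
lemma SS_minus (k : ℕ) : ∑ v : (Fin k ⊕ Fin k) ⊕ Fin 2 → ZMod 2, chi (Cfsg.quadFormMinus k (ZMod 2) 1 1 v) = - 2 ^ (k + 1) := by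
  classical
  let e := Equiv.sumArrowEquivProdArrow (Fin k ⊕ Fin k) (Fin 2) (ZMod 2)
  have h1 : ∀ v, chi (Cfsg.quadFormMinus k (ZMod 2) 1 1 v) =
      chi (Q0 (e v).1) * chi ((e v).2 0 ^ 2 + 1 * (e v).2 0 * (e v).2 1 + 1 * (e v).2 1 ^ 2) := by
    intro v
    rw [← chi_add]
    rfl
  rw [Finset.sum_congr rfl (fun v _ => h1 v)]
  rw [Equiv.sum_comp e (fun p => chi (Q0 p.1) * chi (p.2 0 ^ 2 + 1 * p.2 0 * p.2 1 + 1 * p.2 1 ^ 2))]
  rw [Fintype.sum_prod_type]
  simp only [← Finset.mul_sum, ← Finset.sum_mul]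
  have h2 : ∑ z : Fin 2 → ZMod 2, chi (z 0 ^ 2 + 1 * z 0 * z 1 + 1 * z 1 ^ 2) = -2 := by decide
  rw [h2]
  have h3 := SS_Q0 (m := k)
  rw [SS] at h3
  rw [h3]
  ring

variable {V₂ : Type*} [AddCommGroup V₂] [Module (ZMod 2) V₂] [Fintype V₂] [FiniteDimensional (ZMod 2) V₂]

/-- Type of a form from its Gauss sum. -/
theorem type_of_gauss {m : ℕ} (hm : 1 ≤ m) (hV : finrank (ZMod 2) V₂ = 2 * m)
    (Q : QuadraticForm (ZMod 2) V₂) (hQ : (P Q).Nondegenerate) :
    (∑ v, chi (Q v) = 2 ^ m → ∃ θ : V₂ ≃ₗ[ZMod 2] (Fin m ⊕ Fin m → ZMod 2), ∀ v, Cfsg.quadFormPlus m (ZMod 2) (θ v) = Q v) ∧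
    (∑ v, chi (Q v) = - 2 ^ m → ∃ θ : V₂ ≃ₗ[ZMod 2] ((Fin (m - 1) ⊕ Fin (m - 1)) ⊕ Fin 2 → ZMod 2),
      ∀ v, Cfsg.quadFormMinus (m - 1) (ZMod 2) 1 1 (θ v) = Q v) := by
  classical
  have hpos : (0 : ℤ) < 2 ^ m := by positivity
  rcases isometry_even hm hV Q hQ with ⟨θ, hθ⟩ | ⟨ζ, θ, hζ, hθ⟩
  · have hS : ∑ v, chi (Q v) = 2 ^ m := by
      have h1 : ∀ v, chi (Q v) = chi (Q0 (θ v)) := fun v => by rw [← hθ]; rfl
      rw [Finset.sum_congr rfl (fun v _ => h1 v)]
      exact (Equiv.sum_comp θ.toEquiv (fun v => chi (Q0 v))).trans SS_Q0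
    refine ⟨fun _ => ⟨θ, hθ⟩, fun h => ?_⟩
    rw [hS] at h
    omega
  · have h1 : ζ = 1 := by
      have h2 : ζ ≠ 0 := by simpa using hζ 0
      have h3 : ∀ z : ZMod 2, z ≠ 0 → z = 1 := by decide
      exact h3 ζ h2
    subst h1
    have hS : ∑ v, chi (Q v) = - 2 ^ m := by
      have h1 : ∀ v, chi (Q v) = chi (Cfsg.quadFormMinus (m - 1) (ZMod 2) 1 1 (θ v)) := fun v => by rw [← hθ]
      rw [Finset.sum_congr rfl (fun v _ => h1 v)]
      refine (Equiv.sum_comp θ.toEquiv (fun v => chi (Cfsg.quadFormMinus (m - 1) (ZMod 2) 1 1 v))).trans ?_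
      rw [SS_minus, Nat.sub_add_cancel hm]
    refine ⟨fun h => ?_, fun _ => ⟨θ, hθ⟩⟩
    rw [hS] at h
    omega

section model

variable {n : ℕ}

/-- The weight. -/
def wt (v : Fin n → ZMod 2) : ℕ := ∑ i, (v i).val

/-- The coordinate sum. -/
def sm : (Fin n → ZMod 2) →ₗ[ZMod 2] ZMod 2 where
  toFun v := ∑ i, v i
  map_add' u v := by simp [Finset.sum_add_distrib]
  map_smul' c v := by simp [Finset.mul_sum]

lemma sm_apply (v : Fin n → ZMod 2) : sm v = ∑ i, v i := rfl

/-- The integer count of common support. -/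
def cc (u v : Fin n → ZMod 2) : ℕ := ∑ i, (u i).val * (v i).val

lemma wt_add (u v : Fin n → ZMod 2) : wt (u + v) + 2 * cc u v = wt u + wt v := by
  simp only [wt, cc, Finset.mul_sum, ← Finset.sum_add_distrib, Pi.add_apply]
  refine Finset.sum_congr rfl fun i _ => ?_
  generalize u i = a
  generalize v i = b
  revert a b
  decide

lemma wt_cast (v : Fin n → ZMod 2) : ((wt v : ℕ) : ZMod 2) = sm v := by
  simp [wt, sm_apply]

lemma wt_even_iff (v : Fin n → ZMod 2) : sm v = 0 ↔ 2 ∣ wt v := by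
  rw [← wt_cast, ZMod.natCast_eq_zero_iff]

/-- The dot product as a bilinear form. -/
def dotB : LinearMap.BilinForm (ZMod 2) (Fin n → ZMod 2) :=
  LinearMap.mk₂ (ZMod 2) (fun u v => ∑ i, u i * v i)
    (fun u u' v => by simp [add_mul, Finset.sum_add_distrib])
    (fun c u v => by simp [Finset.mul_sum, mul_assoc])
    (fun u v v' => by simp [mul_add, Finset.sum_add_distrib])
    (fun c u v => by simp [Finset.mul_sum, mul_left_comm])

lemma dotB_apply (u v : Fin n → ZMod 2) : dotB u v = ∑ i, u i * v i := rfl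

lemma cc_cast (u v : Fin n → ZMod 2) : ((cc u v : ℕ) : ZMod 2) = dotB u v := by
  simp [cc, dotB_apply]

/-- Half of the weight, mod 2. -/
def hw (v : Fin n → ZMod 2) : ZMod 2 := ((wt v / 2 : ℕ) : ZMod 2)

lemma hw_add (u v : Fin n → ZMod 2) (hu : sm u = 0) (hv : sm v = 0) :
    hw (u + v) = hw u + hw v + dotB u v := by
  have h1 := wt_add u v
  obtain ⟨s, hs⟩ := (wt_even_iff u).1 hu
  obtain ⟨t, ht⟩ := (wt_even_iff v).1 hv
  have h2 : wt (u + v) / 2 + cc u v = wt u / 2 + wt v / 2 := by omega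
  have h3 := congrArg (Nat.cast : ℕ → ZMod 2) h2
  push_cast at h3
  rw [cc_cast] at h3
  simp only [hw]
  linear_combination h3 - (dotB u v) * two_eq

/-- The complex count. -/
lemma total : ∑ v : Fin n → ZMod 2, Complex.I ^ wt v = (1 + Complex.I) ^ n := by
  classical
  have h1 : ∀ v : Fin n → ZMod 2, Complex.I ^ wt v = ∏ i, Complex.I ^ (v i).val := by
    intro v
    rw [wt, Finset.prod_pow_eq_pow_sum]
  rw [Finset.sum_congr rfl (fun v _ => h1 v)]
  have h2 := Finset.prod_univ_sum (fun _ : Fin n => (Finset.univ : Finset (ZMod 2)))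
    (fun (_ : Fin n) (a : ZMod 2) => Complex.I ^ a.val)
  rw [Fintype.piFinset_univ] at h2
  rw [← h2]
  have h3 : ∑ a : ZMod 2, Complex.I ^ a.val = 1 + Complex.I := by
    change ∑ a : Fin 2, Complex.I ^ (a : ℕ) = _
    simp [Fin.sum_univ_two]
  simp [h3]

lemma one_add_I_four : (1 + Complex.I) ^ 4 = -4 := by
  have h : (1 + Complex.I) ^ 2 = 2 * Complex.I := by
    ring_nf
    rw [Complex.I_sq]
    ring
  calc (1 + Complex.I) ^ 4 = ((1 + Complex.I) ^ 2) ^ 2 := by ring
    _ = -4 := by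
      rw [h, mul_pow, Complex.I_sq]
      norm_num

/-- The function counted. -/
noncomputable def gg (v : Fin n → ZMod 2) : ℤ := if sm v = 0 then chi (hw v) else 0

lemma chi_cast (t : ℕ) : chi ((t : ZMod 2)) = (-1) ^ t := by
  induction t with
  | zero => simp [chi]
  | succ t ih =>
    push_cast
    rw [chi_add, ih, pow_succ]
    simp [chi]

lemma re_I_pow (v : Fin n → ZMod 2) : (Complex.I ^ wt v).re = ((gg v : ℤ) : ℝ) := by
  rw [gg]
  by_cases h : sm v = 0
  · rw [if_pos h]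
    obtain ⟨t, ht⟩ := (wt_even_iff v).1 h
    rw [hw, ht, Nat.mul_div_cancel_left _ (by norm_num), chi_cast, pow_mul, Complex.I_sq]
    have h2 : ((-1 : ℂ) ^ t) = (((-1 : ℤ) ^ t : ℤ) : ℂ) := by push_cast; rfl
    rw [h2, Complex.intCast_re]
  · rw [if_neg h]
    have h1 : ¬ 2 ∣ wt v := fun hd => h ((wt_even_iff v).2 hd)
    obtain ⟨t, ht⟩ : ∃ t, wt v = 2 * t + 1 := ⟨wt v / 2, by omega⟩
    rw [ht, pow_succ, pow_mul, Complex.I_sq]
    have h2 : ((-1 : ℂ) ^ t) = (((-1 : ℤ) ^ t : ℤ) : ℂ) := by push_cast; rfl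
    rw [h2, Complex.mul_re, Complex.intCast_re, Complex.intCast_im]
    simp

/-- The total over the even vectors. -/
lemma sum_gg (r : ℕ) : ∑ v : Fin (4 * r) → ZMod 2, gg v = (-4) ^ r := by
  have h1 := congrArg Complex.re (total (n := 4 * r))
  rw [Complex.re_sum, pow_mul, one_add_I_four] at h1
  have h2 : (((-4 : ℂ)) ^ r) = (((-4 : ℤ) ^ r : ℤ) : ℂ) := by push_cast; rfl
  rw [h2, Complex.intCast_re, Finset.sum_congr rfl (fun v _ => re_I_pow v)] at h1
  exact_mod_cast h1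

/-- Hypotheses on `n`. -/
structure Good (n : ℕ) : Prop where
  four : 4 ∣ n
  big : 8 ≤ n

variable (hn : Good n)

include hn

lemma n_pos : 0 < n := by have := hn.big; omega

/-- The base point. -/
def a₀ (hn : Good n) : Fin n := ⟨0, n_pos hn⟩

/-- The map whose kernel is the model. -/
def Φ (hn : Good n) : (Fin n → ZMod 2) →ₗ[ZMod 2] (ZMod 2 × ZMod 2) :=
  sm.prod (LinearMap.proj (a₀ hn))

/-- The model. -/
def U (hn : Good n) : Submodule (ZMod 2) (Fin n → ZMod 2) := LinearMap.ker (Φ hn)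

lemma mem_U (v : Fin n → ZMod 2) : v ∈ U hn ↔ sm v = 0 ∧ v (a₀ hn) = 0 := by
  simp [U, Φ, Prod.ext_iff]

lemma finrank_U : finrank (ZMod 2) (U hn) = n - 2 := by
  classical
  have h1 := LinearMap.finrank_range_add_finrank_ker (Φ hn)
  have hsurj : LinearMap.range (Φ hn) = ⊤ := by
    rw [LinearMap.range_eq_top]
    rintro ⟨x, y⟩
    have hb : (⟨1, by have := hn.big; omega⟩ : Fin n) ≠ a₀ hn := by
      simp [a₀, Fin.ext_iff]
    refine ⟨y • Pi.single (a₀ hn) 1 + (x - y) • Pi.single ⟨1, by have := hn.big; omega⟩ 1, ?_⟩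
    simp [Φ, sm_apply, hb, Finset.sum_add_distrib, Pi.single_apply, Finset.mul_sum]
  rw [hsurj, finrank_top] at h1
  simp only [Module.finrank_prod, Module.finrank_self, Module.finrank_fin_fun] at h1
  change _ + finrank (ZMod 2) (U hn) = _ at h1
  omega

/-- The quadratic form on the model. -/
noncomputable def QQ : QuadraticForm (ZMod 2) (U hn) where
  toFun u := hw (u : Fin n → ZMod 2)
  toFun_smul c u := by
    have h : ∀ c : ZMod 2, c = 0 ∨ c = 1 := by decide
    rcases h c with rfl | rfl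
    · simp [hw, wt]
    · simp
  exists_companion' := ⟨LinearMap.BilinForm.restrict dotB (U hn), by
    intro x y
    exact hw_add _ _ ((mem_U hn _).1 x.2).1 ((mem_U hn _).1 y.2).1⟩

lemma QQ_apply (u : U hn) : QQ hn u = hw (u : Fin n → ZMod 2) := rfl

lemma QQ_polar (u v : U hn) : P (QQ hn) u v = dotB (u : Fin n → ZMod 2) (v : Fin n → ZMod 2) := by
  change QuadraticMap.polar _ _ _ = _
  simp only [QuadraticMap.polar, QQ_apply]
  rw [Submodule.coe_add, hw_add _ _ ((mem_U hn _).1 u.2).1 ((mem_U hn _).1 v.2).1]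
  ring

lemma card_cast : ((n : ℕ) : ZMod 2) = 0 := by
  rw [ZMod.natCast_eq_zero_iff]
  exact dvd_trans (by norm_num) hn.four

lemma QQ_nondeg : (P (QQ hn)).Nondegenerate := by
  classical
  have hL : ∀ u : U hn, (∀ v, P (QQ hn) u v = 0) → u = 0 := by
    intro u hu
    have hu1 := (mem_U hn _).1 u.2
    -- elementary vectors
    have hpair : ∀ i j : Fin n, i ≠ a₀ hn → j ≠ a₀ hn → i ≠ j →
        (u : Fin n → ZMod 2) i = (u : Fin n → ZMod 2) j := by
      intro i j hi hj hij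
      have hmem : (Pi.single i 1 + Pi.single j 1 : Fin n → ZMod 2) ∈ U hn := by
        rw [mem_U]
        constructor
        · simp [sm_apply, Finset.sum_add_distrib, Pi.single_apply]
          decide
        · simp [Pi.single_apply, hi.symm, hj.symm]
      have h1 := hu ⟨_, hmem⟩
      rw [QQ_polar, dotB_apply] at h1
      simp [mul_add, Finset.sum_add_distrib, Pi.single_apply] at h1
      have h2 : ∀ a b : ZMod 2, a + b = 0 → a = b := by decide
      exact h2 _ _ h1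
    apply Subtype.ext
    funext i
    by_cases hi : i = a₀ hn
    · rw [hi]
      exact hu1.2
    by_contra hne
    have hval : ∀ j, j ≠ a₀ hn → (u : Fin n → ZMod 2) j = (u : Fin n → ZMod 2) i := by
      intro j hj
      by_cases hji : j = i
      · rw [hji]
      · exact hpair j i hj hi hji
    have hsum := hu1.1
    rw [sm_apply, ← Finset.add_sum_erase _ _ (Finset.mem_univ (a₀ hn)), hu1.2, zero_add,
      Finset.sum_congr rfl (fun j hj => hval j (Finset.ne_of_mem_erase hj)), Finset.sum_const,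
      Finset.card_erase_of_mem (Finset.mem_univ _), Finset.card_univ, Fintype.card_fin] at hsum
    have hn1 : ((n - 1 : ℕ) : ZMod 2) = 1 := by
      have h1 := card_cast hn
      have h2 : n = (n - 1) + 1 := by have := hn.big; omega
      rw [h2] at h1
      push_cast at h1
      have h3 : ∀ a : ZMod 2, a + 1 = 0 → a = 1 := by decide
      exact h3 _ h1
    rw [nsmul_eq_mul, hn1, one_mul] at hsum
    exact hne hsum
  refine ⟨hL, ?_⟩
  intro v hv
  apply hL
  intro u
  rw [Cfsg.Agent.Lib.Classical.Witt.pol_comm]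
  exact hv u

/-- The projection. -/
noncomputable def pr : (Fin n → ZMod 2) →ₗ[ZMod 2] (Fin n → ZMod 2) :=
  LinearMap.id + (LinearMap.proj (a₀ hn)).smulRight (fun _ => 1)

lemma pr_apply (v : Fin n → ZMod 2) : pr hn v = v + (v (a₀ hn)) • (fun _ => 1) := rfl

lemma pr_one : pr hn (fun _ => 1) = 0 := by
  rw [pr_apply]
  funext i
  simp [add_self' ]

lemma pr_mem (v : Fin n → ZMod 2) (hv : sm v = 0) : pr hn v ∈ U hn := by
  rw [mem_U, pr_apply]
  constructor
  · rw [map_add, map_smul, hv, zero_add]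
    have : sm (fun _ : Fin n => (1 : ZMod 2)) = 0 := by
      rw [sm_apply]
      simp [card_cast hn]
    rw [this, smul_zero]
  · simp [add_self']

omit hn in
/-- The permutation action on vectors. -/
def Pm (σ : Equiv.Perm (Fin n)) : (Fin n → ZMod 2) →ₗ[ZMod 2] (Fin n → ZMod 2) :=
  LinearMap.funLeft (ZMod 2) (ZMod 2) (σ⁻¹ : Equiv.Perm (Fin n))

omit hn in
lemma Pm_apply (σ : Equiv.Perm (Fin n)) (v : Fin n → ZMod 2) (i : Fin n) : Pm σ v i = v (σ⁻¹ i) := rfl

omit hn in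
lemma sm_Pm (σ : Equiv.Perm (Fin n)) (v : Fin n → ZMod 2) : sm (Pm σ v) = sm v := by
  simp only [sm_apply, Pm_apply]
  exact Equiv.sum_comp (σ⁻¹ : Equiv.Perm (Fin n)) v

omit hn in
lemma wt_Pm (σ : Equiv.Perm (Fin n)) (v : Fin n → ZMod 2) : wt (Pm σ v) = wt v := by
  simp only [wt, Pm_apply]
  exact Equiv.sum_comp (σ⁻¹ : Equiv.Perm (Fin n)) (fun i => (v i).val)

omit hn in
lemma hw_Pm (σ : Equiv.Perm (Fin n)) (v : Fin n → ZMod 2) : hw (Pm σ v) = hw v := by
  simp only [hw, wt_Pm]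

omit hn in
lemma Pm_const (σ : Equiv.Perm (Fin n)) : Pm σ (fun _ => 1) = fun _ => 1 := rfl

omit hn in
lemma Pm_mul (σ τ : Equiv.Perm (Fin n)) (v : Fin n → ZMod 2) : Pm (σ * τ) v = Pm σ (Pm τ v) := by
  funext i
  simp [Pm_apply, mul_inv_rev]

lemma pr_Pm_pr (σ : Equiv.Perm (Fin n)) (x : Fin n → ZMod 2) :
    pr hn (Pm σ (pr hn x)) = pr hn (Pm σ x) := by
  rw [pr_apply hn x, map_add, map_smul, Pm_const, map_add, map_smul, pr_one, smul_zero, add_zero]

lemma smc : sm (fun _ : Fin n => (1 : ZMod 2)) = 0 := by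
  rw [sm_apply]
  simp [card_cast hn]

lemma hw_const : hw (fun _ : Fin n => (1 : ZMod 2)) = 0 := by
  simp only [hw, wt]
  simp only [ZMod.val_one, Finset.sum_const, Finset.card_univ, Fintype.card_fin, smul_eq_mul, mul_one]
  rw [ZMod.natCast_eq_zero_iff]
  obtain ⟨r, hr⟩ := hn.four
  rw [hr]
  omega

lemma dot_const (x : Fin n → ZMod 2) : dotB x (fun _ => 1) = sm x := by
  simp [dotB_apply, sm_apply]

lemma hw_pr (x : Fin n → ZMod 2) (hx : sm x = 0) : hw (pr hn x) = hw x := by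
  rw [pr_apply]
  have h : ∀ c : ZMod 2, c = 0 ∨ c = 1 := by decide
  rcases h (x (a₀ hn)) with h0 | h0 <;> rw [h0]
  · simp
  · rw [one_smul, hw_add _ _ hx (smc hn), hw_const hn, dot_const hn, hx]
    simp

/-- The representation on the model. -/
noncomputable def ρ₀ (σ : Equiv.Perm (Fin n)) : U hn →ₗ[ZMod 2] U hn :=
  ((pr hn) ∘ₗ (Pm σ) ∘ₗ (U hn).subtype).codRestrict (U hn) (fun u => by
    apply pr_mem
    change sm (Pm σ u) = 0
    rw [sm_Pm]
    exact ((mem_U hn _).1 u.2).1)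

lemma ρ₀_apply (σ : Equiv.Perm (Fin n)) (u : U hn) :
    ((ρ₀ hn σ u : U hn) : Fin n → ZMod 2) = pr hn (Pm σ u) := rfl

lemma pr_of_mem (u : U hn) : pr hn (u : Fin n → ZMod 2) = u := by
  rw [pr_apply, ((mem_U hn _).1 u.2).2]
  simp

/-- The representation as a homomorphism. -/
noncomputable def ρ : Equiv.Perm (Fin n) →* Module.End (ZMod 2) (U hn) where
  toFun := ρ₀ hn
  map_one' := by
    apply LinearMap.ext
    intro u
    apply Subtype.ext
    rw [ρ₀_apply]
    have : Pm (1 : Equiv.Perm (Fin n)) u = u := by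
      funext i
      simp [Pm_apply]
    rw [this, pr_of_mem]
    rfl
  map_mul' σ τ := by
    apply LinearMap.ext
    intro u
    apply Subtype.ext
    rw [ρ₀_apply, Pm_mul]
    change _ = ((ρ₀ hn σ (ρ₀ hn τ u) : U hn) : Fin n → ZMod 2)
    rw [ρ₀_apply, ρ₀_apply, pr_Pm_pr]

lemma ρ_apply (σ : Equiv.Perm (Fin n)) (u : U hn) :
    ((ρ hn σ u : U hn) : Fin n → ZMod 2) = pr hn (Pm σ u) := rfl

lemma ρ_pres (σ : Equiv.Perm (Fin n)) (u : U hn) : QQ hn (ρ hn σ u) = QQ hn u := by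
  rw [QQ_apply, QQ_apply, ρ_apply, hw_pr, hw_Pm]
  rw [sm_Pm]
  exact ((mem_U hn _).1 u.2).1

lemma ρ_inj : Function.Injective (ρ hn) := by
  classical
  rw [injective_iff_map_eq_one]
  intro σ hσ
  by_contra hne
  obtain ⟨a, ha⟩ : ∃ a, σ a ≠ a := by
    by_contra hcon
    push Not at hcon
    exact hne (Equiv.ext hcon)
  set b := σ a with hb
  have hbig := hn.big
  obtain ⟨c, hc⟩ : ∃ c : Fin n, c ∉ ({a, b} : Finset (Fin n)) := by
    by_contra hcon
    push Not at hcon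
    have h1 : (Finset.univ : Finset (Fin n)) ⊆ {a, b} := fun x _ => hcon x
    have h2 := Finset.card_le_card h1
    have h3 : ({a, b} : Finset (Fin n)).card ≤ 2 := Finset.card_le_two
    rw [Finset.card_univ, Fintype.card_fin] at h2
    omega
  obtain ⟨d, hd⟩ : ∃ d : Fin n, d ∉ ({a, b, c, σ c} : Finset (Fin n)) := by
    by_contra hcon
    push Not at hcon
    have h1 : (Finset.univ : Finset (Fin n)) ⊆ {a, b, c, σ c} := fun x _ => hcon x
    have h2 := Finset.card_le_card h1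
    have h3 : ({a, b, c, σ c} : Finset (Fin n)).card ≤ 4 := Finset.card_le_four
    rw [Finset.card_univ, Fintype.card_fin] at h2
    omega
  simp only [Finset.mem_insert, Finset.mem_singleton, not_or] at hc hd
  obtain ⟨hca, hcb⟩ := hc
  obtain ⟨hda, hdb, hdc, hdσ⟩ := hd
  let x : Fin n → ZMod 2 := Pi.single a 1 + Pi.single c 1
  have hx : sm x = 0 := by
    simp [x, sm_apply, Finset.sum_add_distrib, Pi.single_apply]
    decide
  let u : U hn := ⟨pr hn x, pr_mem hn x hx⟩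
  have h1 : pr hn (Pm σ x) = pr hn x := by
    have h2 : ((ρ hn σ u : U hn) : Fin n → ZMod 2) = ((1 : Module.End (ZMod 2) (U hn)) u : U hn) := by rw [hσ]
    rw [ρ_apply] at h2
    change pr hn (Pm σ (pr hn x)) = pr hn x at h2
    rw [pr_Pm_pr] at h2
    exact h2
  have hval : ∀ i, Pm σ x i + x i = Pm σ x (a₀ hn) + x (a₀ hn) := by
    intro i
    have h2 := congrFun h1 i
    rw [pr_apply, pr_apply] at h2
    simp only [Pi.add_apply, Pi.smul_apply, smul_eq_mul, mul_one] at h2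
    linear_combination h2 + (x i - Pm σ x (a₀ hn)) * two_eq
  have h3 := (hval b).trans (hval d).symm
  have hσa : σ⁻¹ b = a := by simp [hb]
  have hxa : x a = 1 := by
    have hac : ¬ a = c := fun h => hca h.symm
    simp [x, Pi.single_apply, hac]
  have hxb : x b = 0 := by
    have hbc : ¬ b = c := fun h => hcb h.symm
    simp [x, Pi.single_apply, ha, hbc]
  have hxd : x d = 0 := by
    simp [x, Pi.single_apply, hda, hdc]
  have hyb : Pm σ x b = 1 := by
    rw [Pm_apply, hσa, hxa]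
  have hyd : Pm σ x d = 0 := by
    rw [Pm_apply]
    simp only [x, Pi.add_apply, Pi.single_apply]
    have h4 : σ⁻¹ d ≠ a := by
      intro h
      apply hdb
      rw [hb, ← h]
      simp
    have h5 : σ⁻¹ d ≠ c := by
      intro h
      apply hdσ
      rw [← h]
      simp
    rw [if_neg h4, if_neg h5, add_zero]
  rw [hyb, hyd, hxb, hxd] at h3
  simp at h3


/-- Restriction to the model. -/
noncomputable def hh (v : Fin n → ZMod 2) : ℤ := by
  classical exact if v ∈ U hn then chi (hw v) else 0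

lemma gg_eq (v : Fin n → ZMod 2) : gg v = hh hn v + hh hn (v + fun _ => 1) := by
  classical
  have hs1 : sm (v + fun _ => 1) = sm v := by rw [map_add, smc hn, add_zero]
  simp only [gg, hh]
  by_cases hs : sm v = 0
  · rw [if_pos hs]
    have h2 : hw (v + fun _ => 1) = hw v := by
      rw [hw_add _ _ hs (smc hn), hw_const hn, dot_const hn, hs]
      simp
    by_cases h0 : v (a₀ hn) = 0
    · have h3 : v ∈ U hn := (mem_U hn v).2 ⟨hs, h0⟩
      have h4 : (v + fun _ => 1) ∉ U hn := by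
        intro h
        have := ((mem_U hn _).1 h).2
        simp [h0] at this
      rw [if_pos h3, if_neg h4, add_zero]
    · have h0' : v (a₀ hn) = 1 := by
        have h : ∀ c : ZMod 2, c ≠ 0 → c = 1 := by decide
        exact h _ h0
      have h3 : v ∉ U hn := fun h => h0 ((mem_U hn _).1 h).2
      have h4 : (v + fun _ => 1) ∈ U hn := by
        rw [mem_U]
        refine ⟨by rw [hs1, hs], ?_⟩
        simp [h0', add_self']
      rw [if_neg h3, if_pos h4, zero_add, h2]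
  · rw [if_neg hs]
    have h3 : v ∉ U hn := fun h => hs ((mem_U hn _).1 h).1
    have h4 : (v + fun _ => 1) ∉ U hn := fun h => hs (hs1 ▸ ((mem_U hn _).1 h).1)
    rw [if_neg h3, if_neg h4, add_zero]

lemma sum_QQ [Fintype (U hn)] : 2 * ∑ u : U hn, chi (QQ hn u) = ∑ v : Fin n → ZMod 2, gg v := by
  classical
  have h0 : ∑ x : Fin n → ZMod 2, hh hn (x + fun _ => 1) = ∑ x, hh hn x :=
    Equiv.sum_comp (Equiv.addRight (fun _ : Fin n => (1 : ZMod 2))) (hh hn)
  rw [Finset.sum_congr rfl (fun v _ => gg_eq hn v), Finset.sum_add_distrib, h0, ← two_mul]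
  congr 1
  simp only [hh, QQ_apply]
  rw [← Finset.sum_filter]
  exact (Finset.sum_subtype (Finset.univ.filter (· ∈ U hn)) (p := (· ∈ U hn)) (fun x => by simp) (fun x => chi (hw x))).symm

omit hn in
/-- The exact Gauss sum of the model. -/
lemma gauss_QQ (k : ℕ) (hn : Good (4 * (k + 1))) [Fintype (U hn)] :
    ∑ u : U hn, chi (QQ hn u) = (-1) ^ (k + 1) * 2 ^ (2 * k + 1) := by
  have h1 := sum_QQ hn
  rw [sum_gg] at h1
  have h2 : ((-4 : ℤ)) ^ (k + 1) = 2 * ((-1) ^ (k + 1) * 2 ^ (2 * k + 1)) := by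
    have : (-4 : ℤ) = (-1) * 2 ^ 2 := by norm_num
    rw [this, mul_pow, ← pow_mul]
    ring
  rw [h2] at h1
  exact mul_left_cancel₀ (by norm_num) h1

end model

/-- The embedding theorem: plus type. -/
theorem embed_plus (k : ℕ) (hk : 1 ≤ k) (hodd : Odd k) :
    ∃ φ : Equiv.Perm (Fin (4 * k + 4)) →* ↥(Cfsg.isometryGroup (ZMod 2) (Cfsg.quadFormPlus (2 * k + 1) (ZMod 2))),
      Function.Injective φ := by
  classical
  have hn : Good (4 * k + 4) := ⟨⟨k + 1, by ring⟩, by omega⟩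
  letI : Fintype (U hn) := Fintype.ofFinite _
  have hfr : finrank (ZMod 2) (U hn) = 2 * (2 * k + 1) := by
    rw [finrank_U]; omega
  have hg : ∑ u : U hn, chi (QQ hn u) = 2 ^ (2 * k + 1) := by
    have hn' : Good (4 * (k + 1)) := hn
    have h1 := gauss_QQ k hn'
    exact h1.trans (by rw [Even.neg_one_pow hodd.add_one, one_mul])
  obtain ⟨θ, hθ⟩ := (type_of_gauss (m := 2 * k + 1) (by omega) hfr (QQ hn) (QQ_nondeg hn)).1 hg
  exact Cfsg.Agent.Lib.Known3.Descent.transfer_iso (Cfsg.quadFormPlus (2 * k + 1) (ZMod 2)) (QQ hn) θ hθ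
    (ρ hn) (ρ_pres hn) (ρ_inj hn)

/-- The embedding theorem: minus type. -/
theorem embed_minus (k : ℕ) (hk : 1 ≤ k) (heven : Even k) :
    ∃ φ : Equiv.Perm (Fin (4 * k + 4)) →* ↥(Cfsg.isometryGroup (ZMod 2) (Cfsg.quadFormMinus (2 * k) (ZMod 2) 1 1)),
      Function.Injective φ := by
  classical
  have hn : Good (4 * k + 4) := ⟨⟨k + 1, by ring⟩, by omega⟩
  letI : Fintype (U hn) := Fintype.ofFinite _
  have hfr : finrank (ZMod 2) (U hn) = 2 * (2 * k + 1) := by
    rw [finrank_U]; omega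
  have hg : ∑ u : U hn, chi (QQ hn u) = - 2 ^ (2 * k + 1) := by
    have hn' : Good (4 * (k + 1)) := hn
    have h1 := gauss_QQ k hn'
    exact h1.trans (by rw [Odd.neg_one_pow heven.add_one, neg_one_mul])
  obtain ⟨θ, hθ⟩ := (type_of_gauss (m := 2 * k + 1) (by omega) hfr (QQ hn) (QQ_nondeg hn)).2 hg
  exact Cfsg.Agent.Lib.Known3.Descent.transfer_iso (Cfsg.quadFormMinus (2 * k) (ZMod 2) 1 1) (QQ hn) θ hθ
    (ρ hn) (ρ_pres hn) (ρ_inj hn)

end Cfsg.Agent.Lib.Known3.EvenSet
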