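import Mathlib
import Cfsg.Agent.Lib.Known3.FieldAutPSL3

/-! Hilbert 90 for the general unitary group. -/

set_option autoImplicit false
set_option linter.unusedVariables false
set_option linter.unusedSectionVars false

namespace Cfsg.Agent.Lib.Known3.FieldAut

open Matrix Module Cfsg
open scoped MatrixGroups
open Cfsg.Agent.Lib.AutPSL

variable {F : Type*} [Field F] {n : ℕ}

lemma tau_mp {σ τ : F ≃+* F} (hcomm : σ * τ = τ * σ) (g : GL (Fin n) F) : tau τ (mp σ g) = mp σ (tau τ g) := by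
  apply Units.ext
  rw [tau_coe, mp_coe, tau_coe, ← map_inv, mp_coe]
  ext i j
  have := congrArg (fun t : F ≃+* F => t (((g⁻¹ : GL (Fin n) F) : Matrix (Fin n) (Fin n) F) j i)) hcomm
  simpa using this.symm

lemma nu_mul (σ : F ≃+* F) (k : ℕ) (a b : Fˣ) : nu σ k (a * b) = nu σ k a * nu σ k b := by
  simp only [nu, map_mul, Finset.prod_mul_distrib]

lemma nu_map {σ τ : F ≃+* F} (hcomm : σ * τ = τ * σ) (k : ℕ) (a : Fˣ) :
    nu σ k (Units.map (τ : F →* F) a) = Units.map (τ : F →* F) (nu σ k a) := by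
  simp only [nu, map_prod]
  refine Finset.prod_congr rfl fun i _ => ?_
  apply Units.ext
  have h1 : Commute (σ ^ i) τ := (show Commute σ τ from hcomm).pow_left i
  have := congrArg (fun t : F ≃+* F => t (a : F)) h1.eq
  simpa using this

lemma nu_succ (σ : F ≃+* F) (k : ℕ) (a : Fˣ) : nu σ (k + 1) a = nu σ k a * Units.map ((σ ^ k : F ≃+* F) : F →* F) a := by
  simp only [nu, Finset.prod_range_succ]

lemma nu_add (σ : F ≃+* F) (k l : ℕ) (a : Fˣ) :
    nu σ (k + l) a = nu σ k a * nu σ l (Units.map ((σ ^ k : F ≃+* F) : F →* F) a) := by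
  simp only [nu]
  rw [Finset.prod_range_add]
  congr 1
  refine Finset.prod_congr rfl fun i _ => ?_
  apply Units.ext
  change (σ ^ (k + i)) (a : F) = (σ ^ i) ((σ ^ k) (a : F))
  rw [add_comm, pow_add]
  rfl

/-- Hilbert 90 with a value in the fixed field of an involution. -/
lemma exists_z [Finite F] {σ τ : F ≃+* F} (hcomm : σ * τ = τ * σ) (hτ : τ ≠ 1) (hτ2 : τ * τ = 1) {r : ℕ} (hr : orderOf σ = r) (hodd : Odd r)
    (e : Fˣ) (hτe : Units.map (τ : F →* F) e = e) (hN : nu σ r e = 1) :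
    ∃ z : Fˣ, Units.map (τ : F →* F) z = z ∧ Units.map (σ : F →* F) z = e * z := by
  have hC : Commute σ τ := hcomm
  have hordτ : orderOf τ = 2 := by
    haveI : Fact (Nat.Prime 2) := ⟨Nat.prime_two⟩
    exact orderOf_eq_prime (by rw [sq, hτ2]) hτ
  have hcop : (orderOf σ).Coprime (orderOf τ) := by
    rw [hr, hordτ]
    exact hodd.coprime_two_right
  set ρ : F ≃+* F := σ * τ with hρ
  have hordρ : orderOf ρ = r * 2 := by
    rw [hρ, hC.orderOf_mul_eq_mul_orderOf_of_coprime hcop, hr, hordτ]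
  have hr0 : r ≠ 0 := by
    rintro rfl
    exact (by decide : ¬ Odd 0) hodd
  have hσr : σ ^ r = 1 := by rw [← hr]; exact pow_orderOf_eq_one σ
  have hτr : τ ^ r = τ := by
    obtain ⟨t, ht⟩ := hodd
    rw [ht, pow_succ, pow_mul, sq, hτ2, one_pow, one_mul]
  have hρr : ρ ^ r = τ := by
    rw [hρ, hC.mul_pow, hσr, one_mul, hτr]
  have hτe' : ∀ i, (τ ^ i) (e : F) = e := by
    intro i
    induction i with
    | zero => simp
    | succ i ih =>
      have h1 : τ (e : F) = e := congrArg Units.val hτe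
      rw [pow_succ]
      change (τ ^ i) (τ (e : F)) = e
      rw [h1, ih]
  have hρi : ∀ i, Units.map ((ρ ^ i : F ≃+* F) : F →* F) e = Units.map ((σ ^ i : F ≃+* F) : F →* F) e := by
    intro i
    apply Units.ext
    rw [hρ, hC.mul_pow]
    change (σ ^ i) ((τ ^ i) (e : F)) = _
    rw [hτe']
    rfl
  have hν : nu ρ r e = 1 := by
    rw [← hN]
    simp only [nu]
    exact Finset.prod_congr rfl fun i _ => hρi i
  have hν2 : nu ρ (r * 2) e = 1 := by
    rw [mul_two, nu_add, hν, one_mul]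
    have : Units.map ((ρ ^ r : F ≃+* F) : F →* F) e = e := by
      rw [hρr]
      exact hτe
    rw [this, hν]
  have hinv : nu ρ (r * 2) e⁻¹ = 1 := by
    rw [nu_inv, hν2, inv_one]
  obtain ⟨z, hz⟩ := hilbert90_units ρ hordρ (by positivity) e⁻¹ hinv
  have hz1 : Units.map (ρ : F →* F) z = e * z := by
    calc Units.map (ρ : F →* F) z = e * (e⁻¹ * Units.map (ρ : F →* F) z) := (mul_inv_cancel_left e _).symm
      _ = e * z := by rw [hz]
  have hiter : ∀ k, Units.map ((ρ ^ k : F ≃+* F) : F →* F) z = nu ρ k e * z := by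
    intro k
    induction k with
    | zero =>
      apply Units.ext
      simp [nu]
    | succ k ih =>
      rw [nu_succ]
      have h1 : Units.map ((ρ ^ (k + 1) : F ≃+* F) : F →* F) z = Units.map ((ρ ^ k : F ≃+* F) : F →* F) (Units.map (ρ : F →* F) z) := by
        apply Units.ext
        rw [pow_succ]
        rfl
      rw [h1, hz1, map_mul, ih]
      simp only [mul_assoc, mul_comm, mul_left_comm]
  have hτz : Units.map (τ : F →* F) z = z := by
    have := hiter r
    rw [hρr, hν, one_mul] at this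
    exact this
  refine ⟨z, hτz, ?_⟩
  rw [← hz1]
  apply Units.ext
  change σ (z : F) = σ (τ (z : F))
  have h1 : τ (z : F) = z := congrArg Units.val hτz
  rw [h1]

lemma alt_sum (f : ℕ → F) (m : ℕ) : (∑ k ∈ Finset.range (m * 2), (if k % 2 = 0 then (1 : F) else -1) * f k) =
    ∑ k ∈ Finset.range m, f (2 * k) - ∑ k ∈ Finset.range m, f (2 * k + 1) := by
  induction m with
  | zero => simp
  | succ m ih =>
    rw [show (m + 1) * 2 = m * 2 + 1 + 1 by ring, Finset.sum_range_succ, Finset.sum_range_succ, ih, Finset.sum_range_succ,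
      Finset.sum_range_succ]
    have h1 : (m * 2 + 1) % 2 = 1 := by omega
    have h2 : (m * 2) % 2 = 0 := by omega
    simp only [h1, h2, if_true, one_ne_zero, if_false]
    rw [show m * 2 = 2 * m by ring]
    ring

/-- An involution commuting with an automorphism of odd order acts non-trivially on its fixed points. -/
lemma exists_fix_moved [Finite F] {σ τ : F ≃+* F} (hcomm : σ * τ = τ * σ) (hτ : τ ≠ 1) (hτ2 : τ * τ = 1) {r : ℕ} (hr : orderOf σ = r) (hodd : Odd r) :
    ∃ x : F, σ x = x ∧ τ x ≠ x := by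
  classical
  by_contra hcon
  push Not at hcon
  have hC : Commute σ τ := hcomm
  have hordτ : orderOf τ = 2 := by
    haveI : Fact (Nat.Prime 2) := ⟨Nat.prime_two⟩
    exact orderOf_eq_prime (by rw [sq, hτ2]) hτ
  have hcop : (orderOf σ).Coprime (orderOf τ) := by
    rw [hr, hordτ]
    exact hodd.coprime_two_right
  set ρ : F ≃+* F := σ * τ with hρ
  have hordρ : orderOf ρ = r * 2 := by
    rw [hρ, hC.orderOf_mul_eq_mul_orderOf_of_coprime hcop, hr, hordτ]
  have hr0 : r ≠ 0 := by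
    rintro rfl
    exact (by decide : ¬ Odd 0) hodd
  have hσr : σ ^ r = 1 := by rw [← hr]; exact pow_orderOf_eq_one σ
  have hρ2r : ρ ^ (r * 2) = 1 := by rw [← hordρ]; exact pow_orderOf_eq_one ρ
  obtain ⟨t, ht⟩ := hodd
  have hσ2 : (σ ^ 2) ^ (t + 1) = σ := by
    rw [← pow_mul, show 2 * (t + 1) = r + 1 by omega, pow_succ, hσr, one_mul]
  have hρ2 : ρ ^ 2 = σ ^ 2 := by
    rw [hρ, hC.mul_pow, sq τ, hτ2, mul_one]
  -- the sum over the even powers is fixed by `σ`
  let T : F → F := fun x => ∑ k ∈ Finset.range r, (ρ ^ (2 * k)) x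
  have hTσ2 : ∀ x, (ρ ^ 2) (T x) = T x := by
    intro x
    simp only [T, map_sum]
    have h1 : ∀ k, (ρ ^ 2) ((ρ ^ (2 * k)) x) = (ρ ^ (2 * (k + 1))) x := by
      intro k
      rw [mul_add, mul_one, add_comm, pow_add]
      rfl
    simp only [h1]
    have h3 := Finset.sum_range_succ (fun k => (ρ ^ (2 * k)) x) r
    have h4 := Finset.sum_range_succ' (fun k => (ρ ^ (2 * k)) x) r
    rw [h3, mul_comm 2 r, hρ2r] at h4
    simp only [mul_zero, pow_zero] at h4
    exact (add_right_cancel h4).symm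
  have hTσ : ∀ x, σ (T x) = T x := by
    intro x
    have h1 : ∀ k y, ((σ ^ 2) ^ k) y = y → True := fun _ _ _ => trivial
    have h5 : ∀ k : ℕ, ((σ ^ 2) ^ k) (T x) = T x := by
      intro k
      induction k with
      | zero => simp
      | succ k ih =>
        rw [pow_succ]
        change ((σ ^ 2) ^ k) ((σ ^ 2) (T x)) = T x
        have h7 : (σ ^ 2) (T x) = T x := by
          rw [← hρ2]
          exact hTσ2 x
        rw [h7, ih]
    have h6 := h5 (t + 1)
    rw [hσ2] at h6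
    exact h6
  have hTρ : ∀ x, ρ (T x) = T x := by
    intro x
    change σ (τ (T x)) = T x
    rw [hcon _ (hTσ x), hTσ]
  -- linear independence of the powers of `ρ`
  let φ : Fin (r * 2) → (F →* F) := fun k => ((ρ ^ (k : ℕ) : F ≃+* F) : F →* F)
  have hφ : Function.Injective φ := by
    intro a b hab
    have h1 : ρ ^ (a : ℕ) = ρ ^ (b : ℕ) := by
      ext x
      exact DFunLike.congr_fun hab x
    have h3 := pow_injOn_Iio_orderOf (x := ρ) (by rw [hordρ]; exact a.2) (by rw [hordρ]; exact b.2) h1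
    exact Fin.ext h3
  have hLI := (linearIndependent_monoidHom F F).comp φ hφ
  have h0 := Fintype.linearIndependent_iff.1 hLI (fun k => if (k : ℕ) % 2 = 0 then 1 else -1) (by
    funext c
    have h1 := hTρ c
    have h2 : (∑ k ∈ Finset.range (r * 2), (if k % 2 = 0 then (1 : F) else -1) * (ρ ^ k) c) = T c - ρ (T c) := by
      simp only [T, map_sum]
      rw [alt_sum]
      congr 1
      refine Finset.sum_congr rfl fun k _ => ?_
      rw [pow_succ']
      rfl
    rw [h1, sub_self] at h2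
    rw [← Fin.sum_univ_eq_sum_range (fun k => (if k % 2 = 0 then (1 : F) else -1) * (ρ ^ k) c)] at h2
    simp only [Finset.sum_apply, Pi.smul_apply, smul_eq_mul, Pi.zero_apply]
    exact h2) ⟨0, by omega⟩
  simp at h0

/-- A `σ`-fixed Hermitian matrix is the Hermitian square of a `σ`-fixed matrix. -/
theorem exists_herm_fixed [Finite F] {σ τ : F ≃+* F} (hcomm : σ * τ = τ * σ) (hτ : τ ≠ 1) (hτ2 : τ * τ = 1) {r : ℕ} (hr : orderOf σ = r) (hodd : Odd r)
    (A : GL (Fin n) F) (hA : mp σ A = A) (hAh : A * tau τ A = 1) :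
    ∃ P : GL (Fin n) F, mp σ P = P ∧ A = tau τ P * P⁻¹ := by
  let K : Subfield F := RingHom.eqLocusField (σ : F →+* F) (RingHom.id F)
  have hmem : ∀ x, x ∈ K ↔ σ x = x := fun _ => Iff.rfl
  let φ : K →+* F := K.subtype
  have hφinj : Function.Injective φ := Subtype.val_injective
  have hστ : ∀ x, σ (τ x) = τ (σ x) := fun x => by
    have := congrArg (fun t : F ≃+* F => t x) hcomm
    simpa using this
  have hττ : ∀ x, τ (τ x) = x := fun x => by
    have := congrArg (fun t : F ≃+* F => t x) hτ2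
    simpa using this
  let τK : K ≃+* K :=
    { toFun := fun x => ⟨τ x, (hmem _).2 (by rw [hστ, (hmem _).1 x.2])⟩
      invFun := fun x => ⟨τ x, (hmem _).2 (by rw [hστ, (hmem _).1 x.2])⟩
      left_inv := fun x => Subtype.ext (hττ _)
      right_inv := fun x => Subtype.ext (hττ _)
      map_mul' := fun a b => Subtype.ext (map_mul τ _ _)
      map_add' := fun a b => Subtype.ext (map_add τ _ _) }
  have hφτ : ∀ x : K, φ (τK x) = τ (φ x) := fun _ => rfl
  obtain ⟨x, hx, hxm⟩ := exists_fix_moved hcomm hτ hτ2 hr hodd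
  have hτK : τK ≠ 1 := by
    intro h
    apply hxm
    have := congrArg (fun t : K ≃+* K => φ (t ⟨x, (hmem _).2 hx⟩)) h
    exact this
  have hτK2 : τK * τK = 1 := by
    ext y
    exact hττ _
  haveI : Finite K := Finite.of_injective _ hφinj
  obtain ⟨A₀, hA₀⟩ := exists_map_eq σ φ hφinj (fun y => ⟨fun h => ⟨⟨y, (hmem _).2 h⟩, rfl⟩, by
    rintro ⟨z, rfl⟩
    exact (hmem _).1 z.2⟩) A hA
  have hmap : ∀ X : GL (Fin n) K, Matrix.GeneralLinearGroup.map φ (tau τK X) = tau τ (Matrix.GeneralLinearGroup.map φ X) := by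
    intro X
    apply Units.ext
    change ((tau τK X : GL (Fin n) K) : Matrix (Fin n) (Fin n) K).map φ = _
    rw [tau_coe, tau_coe, ← map_inv]
    ext i j
    rfl
  have hinj : Function.Injective (Matrix.GeneralLinearGroup.map φ : GL (Fin n) K →* GL (Fin n) F) := by
    intro a b h
    apply Units.ext
    ext i j
    have := congrArg (fun M : GL (Fin n) F => (M : Matrix (Fin n) (Fin n) F) i j) h
    exact this
  have h1 : A₀ * tau τK A₀ = 1 := by
    apply hinj
    rw [map_mul, hmap, hA₀, hAh, map_one]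
  obtain ⟨E, hE⟩ := exists_herm_factor hτK hτK2 A₀ h1
  refine ⟨Matrix.GeneralLinearGroup.map φ E, ?_, ?_⟩
  · apply Units.ext
    ext i j
    exact (hmem _).1 (E.1 i j).2
  · rw [← hA₀, hE, map_mul, hmap, map_inv]

/-- Hilbert 90 for the general unitary group, up to scalars. -/
theorem hilbert90_u [Finite F] (hn : 1 ≤ n) {σ τ : F ≃+* F} (hcomm : σ * τ = τ * σ) (hτ : τ ≠ 1) (hτ2 : τ * τ = 1) {r : ℕ} (hr : orderOf σ = r) (hodd : Odd r)
    (g : GL (Fin n) F) (hg : tau τ g = g) {c : Fˣ} (hc : nrm σ g r = sc c) :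
    ∃ (h : GL (Fin n) F) (w : Fˣ), tau τ h = h ∧ g * mp σ h = sc w * h := by
  have hr0 : r ≠ 0 := by
    rintro rfl
    exact (by decide : ¬ Odd 0) hodd
  have hσr : σ ^ r = 1 := by rw [← hr]; exact pow_orderOf_eq_one σ
  have hσ' : (τ : F →+* F) ≠ RingHom.id F := by
    intro h
    apply hτ
    ext a
    have := congrArg (fun t : F →+* F => t a) h
    simpa using this
  have hττ : ∀ x, τ (τ x) = x := fun x => by
    have := congrArg (fun t : F ≃+* F => t x) hτ2
    simpa using this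
  have hfix : Units.map (σ : F →* F) c = c := by
    have h1 : g * mp σ (nrm σ g r) = nrm σ g r * g := by
      rw [← nrm_succ', nrm_succ, hσr, mp_id]
    rw [hc, mp_sc] at h1
    have h3 := mul_left_cancel (h1.trans (sc_comm c g))
    exact sc_inj hn h3
  obtain ⟨d, hd⟩ := exists_norm σ hr hr0 c hfix
  have hg₁ : nrm σ (sc d⁻¹ * g) r = 1 := by
    rw [nrm_mul_sc, hc, ← sc_mul, nu_inv, hd, inv_mul_cancel, sc_one_eq]
  obtain ⟨h₀, hh₀⟩ := hilbert90 σ hr hr0 _ hg₁
  -- the element `c` has norm one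
  have hnrmτ : ∀ k, tau τ (nrm σ g k) = nrm σ g k := by
    intro k
    induction k with
    | zero => simp [nrm]
    | succ k ih =>
      rw [nrm_succ, map_mul, ih, tau_mp ((show Commute σ τ from hcomm).pow_left k).eq, hg]
  have hcτ : Units.map (τ : F →* F) c⁻¹ = c := by
    have h1 := hnrmτ r
    rw [hc, tau_sc] at h1
    exact sc_inj hn h1
  have hcτ' : c * Units.map (τ : F →* F) c = 1 := by
    rw [map_inv] at hcτ
    nth_rw 1 [← hcτ]
    exact inv_mul_cancel _
  set e : Fˣ := d * Units.map (τ : F →* F) d with he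
  have hτe : Units.map (τ : F →* F) e = e := by
    apply Units.ext
    simp only [he, Units.val_mul, map_mul]
    change τ (d : F) * τ (τ (d : F)) = d * τ (d : F)
    rw [hττ]
    ring
  have hNe : nu σ r e = 1 := by
    rw [he, nu_mul, nu_map hcomm, hd, hcτ']
  obtain ⟨z, hzτ, hzσ⟩ := exists_z hcomm hτ hτ2 hr hodd e hτe hNe
  have htg₁ : tau τ (sc d⁻¹ * g) = sc (Units.map (τ : F →* F) d) * g := by
    rw [map_mul, tau_sc, hg, inv_inv]
  set E₀ : GL (Fin n) F := (tau τ h₀)⁻¹ * h₀ with hE₀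
  have hth₀ : tau τ h₀ = sc (Units.map (τ : F →* F) d) * g * mp σ (tau τ h₀) := by
    conv_lhs => rw [← hh₀]
    rw [map_mul, htg₁, tau_mp hcomm]
  have hE₁ : E₀ = sc e⁻¹ * mp σ E₀ := by
    have h1 : E₀ = (sc (Units.map (τ : F →* F) d) * g * mp σ (tau τ h₀))⁻¹ * (sc d⁻¹ * g * mp σ h₀) := by
      rw [hE₀, ← hth₀, hh₀]
    have h2 : mp σ E₀ = (mp σ (tau τ h₀))⁻¹ * mp σ h₀ := by
      rw [hE₀, map_mul, map_inv]
    rw [h2, h1]
    have h3 : sc (Units.map (τ : F →* F) d)⁻¹ * sc d⁻¹ = (sc e⁻¹ : GL (Fin n) F) := by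
      rw [← sc_mul, he, _root_.mul_inv_rev]
    rw [← h3]
    have h4 : ∀ (c : Fˣ) (X : GL (Fin n) F), X⁻¹ * sc c = sc c * X⁻¹ := fun c X => (sc_comm c X⁻¹).symm
    have h5 : ∀ (c : Fˣ), (sc c : GL (Fin n) F)⁻¹ = sc c⁻¹ := fun c => by
      apply inv_eq_of_mul_eq_one_right
      rw [← sc_mul, mul_inv_cancel, sc_one_eq]
    rw [_root_.mul_inv_rev, _root_.mul_inv_rev, h5]
    calc (mp σ (tau τ h₀))⁻¹ * (g⁻¹ * sc (Units.map (τ : F →* F) d)⁻¹) * (sc d⁻¹ * g * mp σ h₀)
        = (mp σ (tau τ h₀))⁻¹ * (g⁻¹ * (sc (Units.map (τ : F →* F) d)⁻¹ * sc d⁻¹) * g) * mp σ h₀ := by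
          simp only [mul_assoc]
      _ = (mp σ (tau τ h₀))⁻¹ * (g⁻¹ * (g * (sc (Units.map (τ : F →* F) d)⁻¹ * sc d⁻¹))) * mp σ h₀ := by
          rw [← sc_mul, mul_assoc g⁻¹, sc_comm]
      _ = (mp σ (tau τ h₀))⁻¹ * (sc (Units.map (τ : F →* F) d)⁻¹ * sc d⁻¹) * mp σ h₀ := by
          rw [inv_mul_cancel_left]
      _ = _ := by
          rw [← sc_mul, h4]
          simp only [mul_assoc]
  have hEσ : mp σ E₀ = sc e * E₀ := by
    conv_rhs => rw [hE₁]
    rw [← mul_assoc, ← sc_mul, mul_inv_cancel, sc_one_eq, one_mul]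
  set A : GL (Fin n) F := sc z⁻¹ * E₀ with hA
  have hAσ : mp σ A = A := by
    rw [hA, map_mul, mp_sc, hEσ, ← mul_assoc, ← sc_mul, map_inv, hzσ]
    congr 2
    rw [_root_.mul_inv_rev]
    group
  have hAτ : A * tau τ A = 1 := by
    have h1 : tau τ E₀ = h₀⁻¹ * tau τ h₀ := by
      rw [hE₀, map_mul, map_inv, tau_tau hτ2]
    have h2 : tau τ (sc z⁻¹ : GL (Fin n) F) = sc z := by
      rw [tau_sc, inv_inv, hzτ]
    rw [hA, map_mul, h2, h1]
    calc sc z⁻¹ * E₀ * (sc z * (h₀⁻¹ * tau τ h₀)) = sc z⁻¹ * (E₀ * sc z) * (h₀⁻¹ * tau τ h₀) := by simp only [mul_assoc]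
      _ = (sc z⁻¹ * sc z) * E₀ * (h₀⁻¹ * tau τ h₀) := by rw [← sc_comm z E₀]; simp only [mul_assoc]
      _ = 1 := by
        rw [← sc_mul, inv_mul_cancel, sc_one_eq, one_mul, hE₀]
        group
  obtain ⟨P, hPσ, hP⟩ := exists_herm_fixed hcomm hτ hτ2 hr hodd A hAσ hAτ
  set h : GL (Fin n) F := h₀ * P with hh
  have hEh : (tau τ h)⁻¹ * h = sc z := by
    have h1 : E₀ = sc z * A := by
      rw [hA, ← mul_assoc, ← sc_mul, mul_inv_cancel, sc_one_eq, one_mul]
    have h2 : (tau τ h)⁻¹ * h = (tau τ P)⁻¹ * E₀ * P := by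
      rw [hh, map_mul, hE₀]
      group
    rw [h2, h1, hP]
    calc (tau τ P)⁻¹ * (sc z * (tau τ P * P⁻¹)) * P = (tau τ P)⁻¹ * (sc z * tau τ P) := by group
      _ = (tau τ P)⁻¹ * (tau τ P * sc z) := by rw [sc_comm]
      _ = sc z := by group
  have hσh : (sc d⁻¹ * g) * mp σ h = h := by
    rw [hh, map_mul, hPσ, ← mul_assoc, hh₀]
  -- the norm
  obtain ⟨y₀, hy₀, hy⟩ := Cfsg.Agent.Lib.Classical.Witt.norm_surj_sigma (τ : F →+* F) hσ' hττ ((z⁻¹ : Fˣ) : F) (Units.ne_zero _) (by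
    have : Units.map (τ : F →* F) z⁻¹ = z⁻¹ := by
      rw [map_inv, hzτ]
    exact congrArg Units.val this)
  let y : Fˣ := Units.mk0 y₀ hy₀
  have hyy : y * Units.map (τ : F →* F) y = z⁻¹ := Units.ext hy
  refine ⟨sc y * h, d * Units.map (σ : F →* F) y * y⁻¹, ?_, ?_⟩
  · have h1 : tau τ (sc y * h) = sc (Units.map (τ : F →* F) y⁻¹) * tau τ h := by
      rw [map_mul, tau_sc]
    have h2 : tau τ h = h * sc z⁻¹ := by
      have h3 : (tau τ h)⁻¹ * h = sc z := hEh
      have h4 : h = tau τ h * sc z := by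
        rw [← h3, mul_inv_cancel_left]
      conv_rhs => rw [h4]
      rw [mul_assoc, ← sc_mul, mul_inv_cancel, sc_one_eq, mul_one]
    have h3 : Units.map (τ : F →* F) y⁻¹ * z⁻¹ = y := by
      rw [← hyy, map_inv, mul_comm y, inv_mul_cancel_left]
    rw [h1, h2, ← sc_comm z⁻¹ h, ← mul_assoc, ← sc_mul, h3]
  · have h1 : g * mp σ h = sc d * h := by
      conv_rhs => rw [← hσh]
      rw [← mul_assoc, ← mul_assoc, ← sc_mul, mul_inv_cancel, sc_one_eq, one_mul]
    calc g * mp σ (sc y * h) = sc (Units.map (σ : F →* F) y) * (g * mp σ h) := by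
          rw [map_mul, mp_sc, ← mul_assoc, ← sc_comm _ g, mul_assoc]
      _ = sc (Units.map (σ : F →* F) y * d) * h := by rw [h1, sc_mul, mul_assoc]
      _ = sc (d * Units.map (σ : F →* F) y * y⁻¹) * (sc y * h) := by
          rw [← mul_assoc (sc _) (sc y), ← sc_mul]
          congr 2
          rw [inv_mul_cancel_right, mul_comm]

end Cfsg.Agent.Lib.Known3.FieldAut
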