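import Mathlib
import Cfsg.Agent.Lib.Known3.FieldAutU
import Cfsg.Agent.Lib.AutPSU.Conc

/-! Lang's theorem for the field automorphisms of `PSU_n`. -/

set_option autoImplicit false
set_option linter.unusedVariables false
set_option linter.unusedSectionVars false

namespace Cfsg.Agent.Lib.Known3.FieldAut

open Matrix Module Cfsg
open scoped MatrixGroups
open Cfsg.Agent.Lib.Classical (RC.suCongr RC.psuCongr RC.vecCongr RC.hermForm_congr RC.vecCongr_mulVec)

variable {F : Type*} [Field F] {n q : ℕ}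

/-- The matrix of an element of `SU`. -/
abbrev sm (s : SU n F q) : Matrix (Fin n) (Fin n) F := ((s : Matrix.SpecialLinearGroup (Fin n) F) : Matrix (Fin n) (Fin n) F)

/-- The matrix of an element of `GU`. -/
abbrev um (g : GU n F q) : Matrix (Fin n) (Fin n) F := ((g : GL (Fin n) F) : Matrix (Fin n) (Fin n) F)

lemma su_ext {a b : SU n F q} (h : sm a = sm b) : a = b := Subtype.ext (Subtype.ext h)

lemma um_inv_mul (g : GU n F q) : um g⁻¹ * um g = 1 := by
  change ((g : GL (Fin n) F)⁻¹ : GL (Fin n) F).val * (g : GL (Fin n) F).val = 1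
  rw [← Units.val_mul, inv_mul_cancel, Units.val_one]

lemma um_mul_inv (g : GU n F q) : um g * um g⁻¹ = 1 := by
  change (g : GL (Fin n) F).val * ((g : GL (Fin n) F)⁻¹ : GL (Fin n) F).val = 1
  rw [← Units.val_mul, mul_inv_cancel, Units.val_one]

lemma conj_det (g : GU n F q) (s : SU n F q) : (um g * sm s * um g⁻¹).det = 1 := by
  rw [Matrix.det_mul, Matrix.det_mul, mul_comm, ← mul_assoc, ← Matrix.det_mul, um_inv_mul, Matrix.det_one, one_mul]
  exact s.1.2

lemma conj_pres (g : GU n F q) (s : SU n F q) (u v : Fin n → F) :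
    hermForm n F q ((um g * sm s * um g⁻¹) *ᵥ u) ((um g * sm s * um g⁻¹) *ᵥ v) = hermForm n F q u v := by
  have e : ∀ w, (um g * sm s * um g⁻¹) *ᵥ w = um g *ᵥ (sm s *ᵥ (um g⁻¹ *ᵥ w)) := by
    intro w
    simp only [mulVec_mulVec, Matrix.mul_assoc]
  rw [e, e]
  exact (g.2 _ _).trans ((s.2 _ _).trans ((g⁻¹).2 _ _))

/-- Conjugation. -/
def cj (g : GU n F q) (s : SU n F q) : SU n F q := ⟨⟨um g * sm s * um g⁻¹, conj_det g s⟩, conj_pres g s⟩

lemma cj_coe (g : GU n F q) (s : SU n F q) : sm (cj g s) = um g * sm s * um g⁻¹ := rfl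

lemma um_one : um (1 : GU n F q) = 1 := rfl

lemma um_mul (a b : GU n F q) : um (a * b) = um a * um b := rfl

lemma sm_mul (a b : SU n F q) : sm (a * b) = sm a * sm b := rfl

/-- Conjugation by a general unitary matrix on `SU`. -/
def uConj : GU n F q →* MulAut (SU n F q) where
  toFun g :=
    { toFun := cj g
      invFun := cj g⁻¹
      left_inv := fun s => su_ext (by
        rw [cj_coe, cj_coe, inv_inv]
        calc um g⁻¹ * (um g * sm s * um g⁻¹) * um g = (um g⁻¹ * um g) * sm s * (um g⁻¹ * um g) := by simp only [Matrix.mul_assoc]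
          _ = sm s := by rw [um_inv_mul, Matrix.one_mul, Matrix.mul_one])
      right_inv := fun s => su_ext (by
        rw [cj_coe, cj_coe, inv_inv]
        calc um g * (um g⁻¹ * sm s * um g) * um g⁻¹ = (um g * um g⁻¹) * sm s * (um g * um g⁻¹) := by simp only [Matrix.mul_assoc]
          _ = sm s := by rw [um_mul_inv, Matrix.one_mul, Matrix.mul_one])
      map_mul' := fun a b => su_ext (by
        rw [cj_coe, sm_mul, sm_mul, cj_coe, cj_coe]
        calc um g * (sm a * sm b) * um g⁻¹ = um g * sm a * 1 * (sm b * um g⁻¹) := by simp only [Matrix.mul_one, Matrix.mul_assoc]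
          _ = um g * sm a * (um g⁻¹ * um g) * (sm b * um g⁻¹) := by rw [um_inv_mul]
          _ = _ := by simp only [Matrix.mul_assoc]) }
  map_one' := by
    ext s : 1
    apply su_ext
    change um 1 * sm s * um (1 : GU n F q)⁻¹ = sm s
    rw [inv_one, um_one, Matrix.one_mul, Matrix.mul_one]
  map_mul' a b := by
    ext s : 1
    apply su_ext
    change um (a * b) * sm s * um (a * b)⁻¹ = um a * (um b * sm s * um b⁻¹) * um a⁻¹
    rw [_root_.mul_inv_rev, um_mul, um_mul]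
    simp only [Matrix.mul_assoc]

lemma uConj_coe (g : GU n F q) (s : SU n F q) : sm (uConj g s) = um g * sm s * um g⁻¹ := rfl

/-- The entrywise field automorphism. -/
def uField : (F ≃+* F) →* MulAut (SU n F q) where
  toFun σ := RC.suCongr σ n q
  map_one' := by
    ext s : 1
    apply su_ext
    ext i j
    rfl
  map_mul' σ τ := by
    ext s : 1
    apply su_ext
    ext i j
    rfl

lemma uField_coe (σ : F ≃+* F) (s : SU n F q) : sm (uField σ s) = (sm s).map σ := rfl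

/-- The inner-diagonal automorphisms of `PSU`. -/
def cU : GU n F q →* MulAut (PSU n F q) := cenAut.comp uConj

/-- The standard field automorphisms of `PSU`. -/
def fU : (F ≃+* F) →* MulAut (PSU n F q) := cenAut.comp uField

lemma cU_mk (g : GU n F q) (s : SU n F q) : cU g (QuotientGroup.mk s) = QuotientGroup.mk (uConj g s) := rfl

lemma fU_mk (σ : F ≃+* F) (s : SU n F q) : fU σ (QuotientGroup.mk s) = QuotientGroup.mk (uField σ s) := rfl

lemma psu_ext {β γ : MulAut (PSU n F q)} (h : ∀ s : SU n F q, β (QuotientGroup.mk s) = γ (QuotientGroup.mk s)) : β = γ := by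
  ext x
  induction x using QuotientGroup.induction_on with
  | H s => exact h s

lemma eq_fU {σ : F ≃+* F} {β : MulAut (PSU n F q)} (h : IsFieldAutPSUOf σ β) : β = fU σ :=
  psu_ext fun s => h s (uField σ s) rfl

lemma eq_cU_fU {g : GL (Fin n) F} (hg : g ∈ GU n F q) {σ : F ≃+* F} {β : MulAut (PSU n F q)} (h : IsInducedBySemilinearPSU g σ β) :
    β = cU ⟨g, hg⟩ * fU σ :=
  psu_ext fun s => h s (uConj ⟨g, hg⟩ (uField σ s)) rfl

theorem mem_inndiagU_iff {β : MulAut (PSU n F q)} : β ∈ inndiagPSU n F q ↔ ∃ g : GU n F q, β = cU g := by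
  constructor
  · intro h
    refine Subgroup.closure_induction (p := fun β _ => ∃ g : GU n F q, β = cU g) ?_ ?_ ?_ ?_ h
    · rintro β ⟨g, hg, hβ⟩
      exact ⟨⟨g, hg⟩, psu_ext fun s => hβ s (uConj ⟨g, hg⟩ s) rfl⟩
    · exact ⟨1, (map_one _).symm⟩
    · rintro a b _ _ ⟨g, rfl⟩ ⟨g', rfl⟩
      exact ⟨g * g', (map_mul _ _ _).symm⟩
    · rintro a _ ⟨g, rfl⟩
      exact ⟨g⁻¹, (map_inv _ _).symm⟩
  · rintro ⟨g, rfl⟩
    exact Subgroup.subset_closure ⟨g, g.2, fun s s' h => by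
      change QuotientGroup.mk (uConj g s) = QuotientGroup.mk s'
      congr 1
      apply su_ext
      exact h.symm⟩

lemma mp_memU (σ : F ≃+* F) {g : GL (Fin n) F} (hg : g ∈ GU n F q) : mp σ g ∈ GU n F q := by
  intro u v
  obtain ⟨u', rfl⟩ : ∃ u', RC.vecCongr σ u' = u := ⟨RC.vecCongr σ.symm u, by funext i; simp [RC.vecCongr]⟩
  obtain ⟨v', rfl⟩ : ∃ v', RC.vecCongr σ v' = v := ⟨RC.vecCongr σ.symm v, by funext i; simp [RC.vecCongr]⟩
  have e : ∀ w, (Units.coeHom _ (mp σ g)) *ᵥ RC.vecCongr σ w = RC.vecCongr σ ((g : Matrix (Fin n) (Fin n) F) *ᵥ w) := by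
    intro w
    rw [RC.vecCongr_mulVec]
    rfl
  rw [e, e, RC.hermForm_congr, RC.hermForm_congr]
  exact congrArg σ (hg u' v')

/-- The entrywise action of a field automorphism on `GU`. -/
def mpU (σ : F ≃+* F) : GU n F q →* GU n F q :=
  ((mp σ).comp (GU n F q).subtype).codRestrict (GU n F q) (fun g => mp_memU σ g.2)

lemma mpU_coe (σ : F ≃+* F) (g : GU n F q) : ((mpU σ g : GU n F q) : GL (Fin n) F) = mp σ g := rfl

lemma um_mpU_inv (σ : F ≃+* F) (g : GU n F q) : um (mpU σ g)⁻¹ = (um g⁻¹).map σ := by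
  change (((mp σ (g : GL (Fin n) F))⁻¹ : GL (Fin n) F) : Matrix (Fin n) (Fin n) F) = _
  rw [← map_inv]
  rfl

lemma fU_cU (σ : F ≃+* F) (g : GU n F q) : fU σ * cU g = cU (mpU σ g) * fU σ := by
  apply psu_ext
  intro s
  change QuotientGroup.mk (uField σ (uConj g s)) = QuotientGroup.mk (uConj (mpU σ g) (uField σ s))
  congr 1
  apply su_ext
  rw [uField_coe, uConj_coe, uConj_coe, uField_coe, Matrix.map_mul, Matrix.map_mul, um_mpU_inv]
  rfl

lemma nrm_memU (σ : F ≃+* F) {g : GL (Fin n) F} (hg : g ∈ GU n F q) (k : ℕ) : nrm σ g k ∈ GU n F q := by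
  induction k with
  | zero => exact (GU n F q).one_mem
  | succ k ih => exact (GU n F q).mul_mem ih (mp_memU _ hg)

/-- The norm inside the unitary group. -/
def nrmU (σ : F ≃+* F) (g : GU n F q) (k : ℕ) : GU n F q := ⟨nrm σ g k, nrm_memU σ g.2 k⟩

lemma pow_cU_fU (σ : F ≃+* F) (g : GU n F q) (k : ℕ) : (cU g * fU σ) ^ k = cU (nrmU σ g k) * fU (σ ^ k) := by
  induction k with
  | zero =>
    have : nrmU σ g 0 = 1 := rfl
    simp [this]
  | succ k ih =>
    have e : nrmU σ g (k + 1) = g * mpU σ (nrmU σ g k) := by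
      apply Subtype.ext
      exact nrm_succ' σ (g : GL (Fin n) F) k
    rw [pow_succ', ih, e, map_mul, pow_succ', map_mul]
    calc cU g * fU σ * (cU (nrmU σ g k) * fU (σ ^ k)) = cU g * (fU σ * cU (nrmU σ g k)) * fU (σ ^ k) := by
          simp only [mul_assoc]
      _ = _ := by
          rw [fU_cU]
          simp only [mul_assoc]

lemma cU_of_sc {t : GU n F q} {c : Fˣ} (ht : (t : GL (Fin n) F) = sc c) : (cU t : MulAut (PSU n F q)) = 1 := by
  apply psu_ext
  intro s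
  change QuotientGroup.mk (uConj t s) = QuotientGroup.mk s
  congr 1
  apply su_ext
  rw [uConj_coe]
  have h : um t⁻¹ = ((c⁻¹ : Fˣ) : F) • 1 := by
    change (((t : GL (Fin n) F)⁻¹ : GL (Fin n) F) : Matrix (Fin n) (Fin n) F) = _
    rw [ht]
    rfl
  have h2 : um t = (c : F) • 1 := by
    change ((t : GL (Fin n) F) : Matrix (Fin n) (Fin n) F) = _
    rw [ht, sc_coe]
  rw [h, h2, Matrix.smul_mul, Matrix.one_mul, Matrix.smul_mul, Matrix.mul_smul, Matrix.mul_one, smul_smul,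
    ← Units.val_mul, mul_inv_cancel, Units.val_one, one_smul]

section Rep

open Cfsg.Agent.Lib.AutPSU Cfsg.Agent.Lib.Classical Cfsg.Agent.Lib.Classical.UT Cfsg.Agent.Lib.AutPSU.Rep

variable [Fintype F]

/-- A unitary matrix as an additive map. -/
def mulA (g : GU n F q) : (Fin n → F) →+ (Fin n → F) := (Matrix.mulVecLin (um g)).toAddMonoidHom

lemma mulA_apply (g : GU n F q) (x : Fin n → F) : mulA g x = um g *ᵥ x := rfl

lemma ind_cU (hF : Fintype.card F = q ^ 2) (hn : 3 ≤ n) (hs : ¬ (n = 3 ∧ q = 2)) (t : GU n F q) :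
    Ind (repSU hF hn hs) (cU t) 1 (mulA t) := by
  refine ⟨SemiIso.of_form (hermB_nondeg hF n) (fun a x => ?_) (fun x y => ?_), fun s s' h => ?_⟩
  · rw [mulA_apply, mulA_apply, Matrix.mulVec_smul]
    rfl
  · rw [hermB_apply, hermB_apply, mulA_apply, mulA_apply]
    exact t.2 y x
  · change QuotientGroup.mk (uConj t s) = QuotientGroup.mk s'
    congr 1
    apply su_ext
    rw [uConj_coe]
    have key : sm s' * um t = um t * sm s := by
      apply Matrix.mulVec_injective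
      funext y
      have := congrFun (h y) 
      rw [← Matrix.mulVec_mulVec, ← Matrix.mulVec_mulVec]
      have h2 := h y
      change fromSU n F q s' (mulA t y) = mulA t (fromSU n F q s y) at h2
      rw [fromSU_mat, fromSU_mat, mulA_apply, mulA_apply] at h2
      exact h2
    rw [← key, Matrix.mul_assoc, um_mul_inv, Matrix.mul_one]

lemma ind_fU (hF : Fintype.card F = q ^ 2) (hn : 3 ≤ n) (hs : ¬ (n = 3 ∧ q = 2)) (σ : F ≃+* F) :
    Ind (repSU hF hn hs) (fU σ) σ (vecA σ) := by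
  refine ⟨semi_vecA hF σ, fun s s' h => ?_⟩
  change QuotientGroup.mk (uField σ s) = QuotientGroup.mk s'
  congr 1
  apply su_ext
  rw [uField_coe]
  apply Matrix.mulVec_injective
  funext y
  obtain ⟨y', rfl⟩ : ∃ y', vecA σ y' = y := ⟨vecA σ.symm y, vecA_symm σ y⟩
  have h2 := h y'
  change fromSU n F q s' (vecA σ y') = vecA σ (fromSU n F q s y') at h2
  rw [fromSU_mat, fromSU_mat, vecA_apply, vecA_apply, RC.vecCongr_mulVec] at h2
  rw [vecA_apply]
  exact h2.symm

lemma ind_one (hF : Fintype.card F = q ^ 2) (hn : 3 ≤ n) (hs : ¬ (n = 3 ∧ q = 2)) :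
    Ind (repSU hF hn hs) 1 1 (acA (repSU hF hn hs) 1) := by
  have := ind_conj (repSU hF hn hs) 1
  have e : (MulAut.conj (pk (1 : SU n F q)) : MulAut (PSU n F q)) = 1 := by
    rw [pk_one, map_one]
  rw [e] at this
  exact this

lemma exists_sc_of_cU (hF : Fintype.card F = q ^ 2) (hn : 3 ≤ n) (hs : ¬ (n = 3 ∧ q = 2)) {t : GU n F q}
    (h : (cU t : MulAut (PSU n F q)) = 1) : ∃ c : Fˣ, (t : GL (Fin n) F) = sc c := by
  have h1 := ind_cU hF hn hs t
  rw [h] at h1
  obtain ⟨-, l, hl⟩ := Ind.uniq (repSU hF hn hs) (ind_one hF hn hs) h1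
  have hM : um t = l • 1 := by
    apply Matrix.mulVec_injective
    funext v
    have h2 := hl v
    rw [mulA_apply, acA_apply] at h2
    have h3 : (repSU hF hn hs).ac 1 v = v := by
      change fromSU n F q 1 v = v
      rw [map_one]
      rfl
    rw [h3] at h2
    rw [h2, Matrix.smul_mulVec, Matrix.one_mulVec]
  have hl0 : l ≠ 0 := by
    rintro rfl
    have h2 := um_mul_inv t
    rw [hM, zero_smul, Matrix.zero_mul] at h2
    have hn0 : 0 < n := by omega
    have := congrFun (congrFun h2 ⟨0, hn0⟩) ⟨0, hn0⟩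
    simp at this
  refine ⟨Units.mk0 l hl0, Units.ext ?_⟩
  rw [sc_coe]
  exact hM

lemma fU_eq_one (hF : Fintype.card F = q ^ 2) (hn : 3 ≤ n) (hs : ¬ (n = 3 ∧ q = 2)) {σ : F ≃+* F}
    (h : (fU σ : MulAut (PSU n F q)) = 1) : σ = 1 := by
  have h1 := ind_fU hF hn hs σ
  rw [h] at h1
  exact (Ind.uniq (repSU hF hn hs) (ind_one hF hn hs) h1).1.symm

lemma conj_cU (hF : Fintype.card F = q ^ 2) (hn : 3 ≤ n) (hs : ¬ (n = 3 ∧ q = 2)) (α : MulAut (PSU n F q)) (g : GU n F q) :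
    ∃ g' : GU n F q, α * cU g * α⁻¹ = cU g' := by
  obtain ⟨g₁, σ, hg₁, hind⟩ := exists_semilinear hF hn hs α
  rw [eq_cU_fU hg₁ hind]
  refine ⟨⟨g₁, hg₁⟩ * mpU σ g * (⟨g₁, hg₁⟩ : GU n F q)⁻¹, ?_⟩
  rw [map_mul, map_mul, map_inv]
  have := fU_cU σ g
  calc cU ⟨g₁, hg₁⟩ * fU σ * cU g * (cU ⟨g₁, hg₁⟩ * fU σ)⁻¹ = cU ⟨g₁, hg₁⟩ * (fU σ * cU g) * (fU σ)⁻¹ * (cU ⟨g₁, hg₁⟩)⁻¹ := by
        group
    _ = _ := by
        rw [this]
        group

/-- The `q`-th power map as a ring automorphism. -/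
noncomputable def tauQ (hF : Fintype.card F = q ^ 2) : F ≃+* F :=
  RingEquiv.ofRingHom (conjQ hF) (conjQ hF) (RingHom.ext fun x => conjQ_conjQ hF x) (RingHom.ext fun x => conjQ_conjQ hF x)

lemma tauQ_apply (hF : Fintype.card F = q ^ 2) (x : F) : tauQ hF x = x ^ q := rfl

lemma tauQ_sq (hF : Fintype.card F = q ^ 2) : tauQ hF * tauQ hF = 1 := by
  ext x
  exact conjQ_conjQ hF x

lemma tauQ_ne (hF : Fintype.card F = q ^ 2) : tauQ hF ≠ 1 := by
  intro h
  apply conjQ_ne_id hF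
  ext x
  have := congrArg (fun τ : F ≃+* F => τ x) h
  exact this

lemma tauQ_comm (hF : Fintype.card F = q ^ 2) (σ : F ≃+* F) : σ * tauQ hF = tauQ hF * σ := by
  ext x
  change σ (x ^ q) = (σ x) ^ q
  rw [map_pow]

/-- Lang's theorem for the field automorphisms of `PSU`. -/
theorem lang_fieldU (hF : Fintype.card F = q ^ 2) (hn : 3 ≤ n) (hs : ¬ (n = 3 ∧ q = 2)) (σ : F ≃+* F) {r : ℕ} (hr : orderOf σ = r) (hodd : Odd r) (g : GU n F q)
    (h : (cU g * fU σ : MulAut (PSU n F q)) ^ r = 1) :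
    ∃ h' : GU n F q, cU g * fU σ = cU h' * fU σ * (cU h')⁻¹ := by
  have hσr : σ ^ r = 1 := by rw [← hr]; exact pow_orderOf_eq_one σ
  rw [pow_cU_fU, hσr, map_one, mul_one] at h
  obtain ⟨c, hc⟩ := exists_sc_of_cU hF hn hs h
  have hc' : nrm σ (g : GL (Fin n) F) r = sc c := hc
  have hgτ : tau (tauQ hF) (g : GL (Fin n) F) = g := (mem_GU_iff (tauQ_sq hF) (tauQ_apply hF) _).1 g.2
  obtain ⟨h₀, w, hh₀, e⟩ := hilbert90_u (by omega) (tauQ_comm hF σ) (tauQ_ne hF) (tauQ_sq hF) hr hodd _ hgτ hc'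
  have hh₀' : h₀ ∈ GU n F q := (mem_GU_iff (tauQ_sq hF) (tauQ_apply hF) _).2 hh₀
  refine ⟨⟨h₀, hh₀'⟩, ?_⟩
  set hU : GU n F q := ⟨h₀, hh₀'⟩ with hhU
  have h1 : (cU hU * (cU (mpU σ hU))⁻¹ : MulAut (PSU n F q)) = cU g := by
    have ht : ((g⁻¹ * (hU * (mpU σ hU)⁻¹) : GU n F q) : GL (Fin n) F) = sc w⁻¹ := by
      change (g : GL (Fin n) F)⁻¹ * (h₀ * (mp σ h₀)⁻¹) = sc w⁻¹
      have e2 : h₀ * (mp σ h₀)⁻¹ = (sc w)⁻¹ * (g : GL (Fin n) F) := by
        rw [mul_inv_eq_iff_eq_mul, mul_assoc, e, ← mul_assoc, inv_mul_cancel, one_mul]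
      have e3 : (sc w⁻¹ : GL (Fin n) F) = (sc w)⁻¹ := by
        apply eq_inv_of_mul_eq_one_left
        rw [← sc_mul, inv_mul_cancel]
        apply Units.ext
        simp [sc_coe]
      rw [e2, ← e3, sc_comm, inv_mul_cancel_left]
    have h2 := cU_of_sc ht
    rw [map_mul, map_mul, map_inv, map_inv] at h2
    calc cU hU * (cU (mpU σ hU))⁻¹ = cU g * ((cU g)⁻¹ * (cU hU * (cU (mpU σ hU))⁻¹)) := by group
      _ = cU g := by rw [h2, mul_one]
  have h3 : (fU σ * (cU hU)⁻¹ : MulAut (PSU n F q)) = (cU (mpU σ hU))⁻¹ * fU σ := by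
    have := fU_cU σ hU
    rw [eq_inv_mul_iff_mul_eq, ← mul_assoc, ← this]
    group
  rw [mul_assoc, h3, ← mul_assoc, h1]

/-- The characterisation of the elements of prime order of a field coset. -/
theorem order_iff_conj_u (hF : Fintype.card F = q ^ 2) (hn : 3 ≤ n) (hs : ¬ (n = 3 ∧ q = 2)) (x δ : MulAut (PSU n F q)) (hx : IsFieldAutClassPSU x) {r : ℕ} (hr : r.Prime)
    (hxr : orderOf x = r) (hδ : δ ∈ inndiagPSU n F q) :
    orderOf (δ * x) = r ↔ IsConjUnder (inndiagPSU n F q) x (δ * x) := by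
  classical
  constructor
  · intro hy
    have hypow : (δ * x) ^ r = 1 := by rw [← hy]; exact pow_orderOf_eq_one _
    have hxpow : x ^ r = 1 := by rw [← hxr]; exact pow_orderOf_eq_one _
    obtain ⟨g₀, rfl⟩ := mem_inndiagU_iff.1 hδ
    obtain ⟨α, φ, σ, hσ, hodd, hstd, hα⟩ := hx
    have hθ := eq_fU hstd
    subst hθ
    have hσr : σ ^ r = 1 := by
      apply fU_eq_one (n := n) hF hn hs
      rw [map_pow, ← hα, conj_pow, hxpow]
      group
    haveI : Fact r.Prime := ⟨hr⟩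
    have hord : orderOf σ = r := orderOf_eq_prime hσr hσ
    obtain ⟨g, hg⟩ := conj_cU hF hn hs α g₀
    have e : α * (cU g₀ * x) * α⁻¹ = cU g * fU σ := by
      rw [← hα, ← hg]
      group
    have hp1 : (cU g * fU σ : MulAut (PSU n F q)) ^ r = 1 := by
      rw [← e, conj_pow, hypow]
      group
    obtain ⟨h, hh⟩ := lang_fieldU hF hn hs σ hord (hord ▸ hodd) g hp1
    obtain ⟨g', hg'⟩ := conj_cU hF hn hs α⁻¹ h
    refine ⟨cU g', mem_inndiagU_iff.2 ⟨g', rfl⟩, ?_⟩
    have h1 : cU g₀ * x = α⁻¹ * (α * (cU g₀ * x) * α⁻¹) * α := by group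
    rw [h1, e, hh, ← hα, ← hg']
    group
  · rintro ⟨h, -, he⟩
    rw [he, ← hxr]
    exact orderOf_injective (MulAut.conj h).toMonoidHom (MulAut.conj h).injective x

end Rep

end Cfsg.Agent.Lib.Known3.FieldAut
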