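import Mathlib
import Cfsg.Agent.Lib.Known3.FieldAutPSU
import Cfsg.Agent.Lib.Known3.FieldAutPSL2
import Cfsg.Agent.Lib.Classical.HermAbs

/-! The centraliser of a field automorphism of `PSU_n` in the inner-diagonal group, and the splitting of its class. -/

set_option autoImplicit false
set_option linter.unusedVariables false
set_option linter.unusedSectionVars false

namespace Cfsg.Agent.Lib.Known3.FieldAut

open Matrix Module Cfsg
open scoped MatrixGroups
open Cfsg.Agent.Lib.AutPSL (dg dg_coe dg_det dg_mul dg_one i0)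
open Cfsg.Agent.Lib.AutPSU Cfsg.Agent.Lib.Classical Cfsg.Agent.Lib.Classical.UT
open Cfsg.Agent.Lib.AutPSU.Rep (U1 card_U1 U1_norm U1_mk)

variable {F F₀ : Type*} [Field F] [Field F₀] [Fintype F] {n q q₀ : ℕ}

lemma sc_mem_GU {c : Fˣ} (hc : c ^ (q + 1) = 1) : (sc c : GL (Fin n) F) ∈ GU n F q := by
  have hc' : (c : F) ^ q * c = 1 := by
    rw [← pow_succ, ← Units.val_pow_eq_pow_val, hc, Units.val_one]
  intro u v
  change hermForm n F q (((sc c : GL (Fin n) F) : Matrix (Fin n) (Fin n) F) *ᵥ u) (((sc c : GL (Fin n) F) : Matrix (Fin n) (Fin n) F) *ᵥ v) = _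
  rw [sc_coe, Matrix.smul_mulVec, Matrix.one_mulVec, Matrix.smul_mulVec, Matrix.one_mulVec]
  unfold hermForm
  apply Finset.sum_congr rfl
  intro i _
  simp only [Pi.smul_apply, smul_eq_mul, mul_pow]
  linear_combination (u i * v i ^ q) * hc'

lemma pow_eq_one_of_sc_mem (hF : Fintype.card F = q ^ 2) (hn : 1 ≤ n) {c : Fˣ} (h : (sc c : GL (Fin n) F) ∈ GU n F q) :
    c ^ (q + 1) = 1 := by
  have h1 := (mem_GU_iff (tauQ_sq hF) (tauQ_apply hF) _).1 h
  rw [tau_sc] at h1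
  have h2 := sc_inj hn h1
  have h3 : (c⁻¹) ^ q = c := by
    apply Units.ext
    have := congrArg Units.val h2
    simpa [tauQ_apply] using this
  calc c ^ (q + 1) = c ^ q * c := pow_succ c q
    _ = c ^ q * (c⁻¹) ^ q := by rw [h3]
    _ = 1 := by rw [inv_pow, mul_inv_cancel]

/-- The determinant on `GU`, with values in the norm one group. -/
noncomputable def detU (hF : Fintype.card F = q ^ 2) : GU n F q →* U1 F q :=
  (detGU n F q).codRestrict (U1 F q) (fun g => by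
    rw [MonoidHom.mem_ker]
    apply Units.ext
    exact det_pow_eq_one hF _ g.2)

lemma detU_coe (hF : Fintype.card F = q ^ 2) (g : GU n F q) :
    ((detU hF g : U1 F q) : Fˣ) = Matrix.GeneralLinearGroup.det (g : GL (Fin n) F) := rfl

lemma tau_dg (hn : 2 ≤ n) (σ : F ≃+* F) {a : Fˣ} (ha : (σ (a : F))⁻¹ = a) : tau σ (dg hn a) = dg hn a := by
  have h1 : (dg hn a)⁻¹ = dg hn a⁻¹ := by
    apply inv_eq_of_mul_eq_one_right
    rw [← dg_mul, mul_inv_cancel, dg_one]
  apply Units.ext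
  rw [tau_coe, h1, dg_coe, dg_coe, Matrix.diagonal_transpose]
  ext i j
  by_cases hij : i = j
  · subst hij
    by_cases h : i = i0 hn <;> simp [h, ha]
  · simp [Matrix.diagonal_apply_ne _ hij]

lemma dg_mem (hF : Fintype.card F = q ^ 2) (hn : 2 ≤ n) (a : U1 F q) : dg hn (a : Fˣ) ∈ GU n F q := by
  apply (mem_GU_iff (tauQ_sq hF) (tauQ_apply hF) _).2
  apply tau_dg
  rw [tauQ_apply]
  exact inv_eq_of_mul_eq_one_right U1_norm

/-- Diagonal elements of `GU`. -/
noncomputable def dgU (hF : Fintype.card F = q ^ 2) (hn : 2 ≤ n) (a : U1 F q) : GU n F q := ⟨dg hn (a : Fˣ), dg_mem hF hn a⟩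

lemma detU_surj (hF : Fintype.card F = q ^ 2) (hn : 2 ≤ n) : Function.Surjective (detU hF : GU n F q →* U1 F q) := fun a =>
  ⟨dgU hF hn a, Subtype.ext (Units.ext (dg_det hn _))⟩

/-- The inclusion of `SU` in `GU`. -/
def toGU : SU n F q →* GU n F q where
  toFun s := ⟨Matrix.SpecialLinearGroup.toGL s.1, s.2⟩
  map_one' := by
    apply Subtype.ext
    exact map_one (Matrix.SpecialLinearGroup.toGL)
  map_mul' a b := by
    apply Subtype.ext
    exact map_mul (Matrix.SpecialLinearGroup.toGL) _ _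

lemma um_toGU (s : SU n F q) : um (toGU s) = sm s := rfl

lemma cU_toGU (s : SU n F q) : (cU (toGU s) : MulAut (PSU n F q)) = MulAut.conj (QuotientGroup.mk s) := by
  apply psu_ext
  intro t
  change QuotientGroup.mk (uConj (toGU s) t) = QuotientGroup.mk (s * t * s⁻¹)
  congr 1

lemma inn_le_inndiagU : Inn (PSU n F q) ≤ inndiagPSU n F q := by
  rintro _ ⟨x, rfl⟩
  induction x using QuotientGroup.induction_on with
  | H s => exact mem_inndiagU_iff.2 ⟨_, (cU_toGU s).symm⟩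

lemma inndiagU_eq_range : inndiagPSU n F q = (cU : GU n F q →* MulAut (PSU n F q)).range := by
  ext β
  rw [mem_inndiagU_iff]
  constructor
  · rintro ⟨g, rfl⟩
    exact ⟨g, rfl⟩
  · rintro ⟨g, rfl⟩
    exact ⟨g, rfl⟩

lemma cU_mem_inn_iff (hF : Fintype.card F = q ^ 2) (hn : 3 ≤ n) (hs : ¬ (n = 3 ∧ q = 2)) (g : GU n F q) :
    (cU g : MulAut (PSU n F q)) ∈ Inn (PSU n F q) ↔ detU hF g ∈ (powMonoidHom n : U1 F q →* U1 F q).range := by
  constructor
  · rintro ⟨x, hx⟩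
    induction x using QuotientGroup.induction_on with
    | H s =>
      have h1 : (cU (g * (toGU s)⁻¹) : MulAut (PSU n F q)) = 1 := by
        rw [map_mul, map_inv, cU_toGU, ← hx, mul_inv_cancel]
      obtain ⟨c, hc⟩ := exists_sc_of_cU hF hn hs h1
      have hcmem : (sc c : GL (Fin n) F) ∈ GU n F q := hc ▸ (g * (toGU s)⁻¹).2
      have hcU : c ∈ U1 F q := by
        rw [MonoidHom.mem_ker]
        exact pow_eq_one_of_sc_mem hF (by omega) hcmem
      refine ⟨⟨c, hcU⟩, Subtype.ext ?_⟩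
      change c ^ n = Matrix.GeneralLinearGroup.det (g : GL (Fin n) F)
      have h2 : (g : GL (Fin n) F) = sc c * ((toGU s : GU n F q) : GL (Fin n) F) := by
        rw [← hc]
        change (g : GL (Fin n) F) = (g : GL (Fin n) F) * ((toGU s : GU n F q) : GL (Fin n) F)⁻¹ * _
        group
      have h3 : Matrix.GeneralLinearGroup.det ((toGU s : GU n F q) : GL (Fin n) F) = 1 := by
        apply Units.ext
        exact s.1.2
      rw [h2, map_mul, det_sc, h3, mul_one]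
  · rintro ⟨⟨c, hc⟩, hcg⟩
    have hc' : Matrix.GeneralLinearGroup.det (g : GL (Fin n) F) = c ^ n := (congrArg Subtype.val hcg).symm
    have hsc : (sc c : GL (Fin n) F) ∈ GU n F q := sc_mem_GU (MonoidHom.mem_ker.1 hc)
    let gs : GU n F q := (⟨sc c, hsc⟩ : GU n F q)⁻¹ * g
    have hinv : ((sc c : GL (Fin n) F))⁻¹ = sc c⁻¹ := by
      apply inv_eq_of_mul_eq_one_right
      rw [← sc_mul, mul_inv_cancel, sc_one_eq]
    have hdet : (um gs).det = 1 := by
      have h1 : Matrix.GeneralLinearGroup.det ((gs : GU n F q) : GL (Fin n) F) = 1 := by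
        change Matrix.GeneralLinearGroup.det ((sc c : GL (Fin n) F)⁻¹ * (g : GL (Fin n) F)) = 1
        rw [hinv, map_mul, det_sc, hc', inv_pow, inv_mul_cancel]
      exact congrArg Units.val h1
    let s : SU n F q := ⟨⟨um gs, hdet⟩, gs.2⟩
    refine ⟨QuotientGroup.mk s, ?_⟩
    rw [← cU_toGU]
    have h2 : toGU s = gs := Subtype.ext (Units.ext rfl)
    rw [h2, map_mul, map_inv, cU_of_sc (t := (⟨sc c, hsc⟩ : GU n F q)) rfl, inv_one, one_mul]

lemma comm_of_fixedU (σ : F ≃+* F) {g : GU n F q} (h : mp σ (g : GL (Fin n) F) = g) : Commute (cU g : MulAut (PSU n F q)) (fU σ) := by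
  show cU g * fU σ = fU σ * cU g
  rw [fU_cU]
  have : mpU σ g = g := Subtype.ext h
  rw [this]

/-- If `g` induces an automorphism commuting with the field automorphism, it is fixed up to a scalar of norm one. -/
lemma fixed_of_commU [Fintype F₀] (hF : Fintype.card F = q ^ 2) (hn : 3 ≤ n) (hs : ¬ (n = 3 ∧ q = 2)) (σ : F ≃+* F) {r : ℕ} (hr : orderOf σ = r) (hr0 : r ≠ 0)
    (e : F₀ →+* F) (he : Function.Injective e) (hfix : ∀ x, σ x = x ↔ x ∈ e.range) (hpow : ∀ a, e (a ^ q₀) = (e a) ^ q)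
    (hF₀ : Fintype.card F₀ = q₀ ^ 2) {g : GU n F q} (h : Commute (cU g : MulAut (PSU n F q)) (fU σ)) :
    ∃ c : Fˣ, c ^ (q + 1) = 1 ∧ mp σ (sc c * (g : GL (Fin n) F)) = sc c * (g : GL (Fin n) F) := by
  have hn1 : 1 ≤ n := by omega
  have h1 : (cU g : MulAut (PSU n F q)) = cU (mpU σ g) := by
    have h2 := h.eq
    rw [fU_cU] at h2
    exact mul_right_cancel h2
  have h2 : (cU (g⁻¹ * mpU σ g) : MulAut (PSU n F q)) = 1 := by
    rw [map_mul, map_inv, ← h1, inv_mul_cancel]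
  obtain ⟨c, hc⟩ := exists_sc_of_cU hF hn hs h2
  have hcU : c ^ (q + 1) = 1 := pow_eq_one_of_sc_mem hF hn1 (hc ▸ (g⁻¹ * mpU σ g).2)
  have hc' : (g : GL (Fin n) F)⁻¹ * mp σ (g : GL (Fin n) F) = sc c := hc
  have h3 : mp σ (g : GL (Fin n) F) = (g : GL (Fin n) F) * sc c := by
    rw [← hc']
    group
  have hσr : σ ^ r = 1 := by rw [← hr]; exact pow_orderOf_eq_one σ
  have h4 := mp_pow_of_eq σ h3 r
  rw [hσr, mp_id] at h4
  have h5 : sc (nu σ r c) = (1 : GL (Fin n) F) := by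
    have := mul_left_cancel (a := (g : GL (Fin n) F)) (b := sc (nu σ r c)) (c := 1) (by rw [← h4, mul_one])
    exact this
  have h6 : nu σ r c = 1 := by
    rw [← sc_one_eq] at h5
    exact sc_inj hn1 h5
  obtain ⟨z, hz⟩ := hilbert90_units σ hr hr0 c h6
  have hzfix : mp σ (sc z * (g : GL (Fin n) F)) = sc z * (g : GL (Fin n) F) := by
    rw [map_mul, mp_sc, h3, ← sc_comm c, ← mul_assoc, ← sc_mul, mul_comm (Units.map _ z), hz]
  -- the scalar `z` has fixed norm
  have hμσ : (σ (z : F)) ^ (q + 1) = (z : F) ^ (q + 1) := by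
    have h7 := congrArg Units.val (congrArg (fun x : Fˣ => x ^ (q + 1)) hz)
    simp only [mul_pow, hcU, one_mul, Units.val_pow_eq_pow_val] at h7
    exact h7
  have hμfix : σ ((z : F) ^ (q + 1)) = (z : F) ^ (q + 1) := by rw [map_pow, hμσ]
  obtain ⟨μ₀, hμ₀⟩ := (hfix _).1 hμfix
  have hμ₀0 : μ₀ ≠ 0 := by
    rintro rfl
    rw [map_zero] at hμ₀
    exact pow_ne_zero _ z.ne_zero hμ₀.symm
  have hμq : ((z : F) ^ (q + 1)) ^ q = (z : F) ^ (q + 1) := by
    rw [pow_succ, mul_pow, pow_q_pow_q hF, mul_comm]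
  have hμ₀q : conjQ hF₀ μ₀ = μ₀ := by
    apply he
    rw [conjQ_apply, hpow, hμ₀, hμq]
  obtain ⟨x₀, hx₀, hx₀μ⟩ := Witt.norm_surj_sigma (conjQ hF₀) (conjQ_ne_id hF₀) (conjQ_conjQ hF₀) μ₀⁻¹ (inv_ne_zero hμ₀0) (by rw [map_inv₀, hμ₀q])
  have hu0 : e x₀ ≠ 0 := fun h => hx₀ (he (by rw [h, map_zero]))
  let u : Fˣ := Units.mk0 (e x₀) hu0
  have hufix : Units.map (σ : F →* F) u = u := by
    apply Units.ext
    exact (hfix _).2 ⟨x₀, rfl⟩
  have hun : u ^ (q + 1) * z ^ (q + 1) = 1 := by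
    apply Units.ext
    simp only [Units.val_mul, Units.val_pow_eq_pow_val, Units.val_one, u, Units.val_mk0]
    have h8 : (e x₀) ^ (q + 1) = e μ₀⁻¹ := by
      rw [← hx₀μ, map_mul, conjQ_apply, hpow, pow_succ, mul_comm]
    rw [h8, map_inv₀, hμ₀, inv_mul_cancel₀ (pow_ne_zero _ z.ne_zero)]
  refine ⟨u * z, by rw [mul_pow, hun], ?_⟩
  rw [sc_mul, mul_assoc, map_mul, mp_sc, hzfix, hufix]

lemma tau_map (e : F₀ →+* F) {τ₀ : F₀ ≃+* F₀} {τ : F ≃+* F} (h : ∀ a, e (τ₀ a) = τ (e a)) (g : GL (Fin n) F₀) :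
    tau τ (Matrix.GeneralLinearGroup.map e g) = Matrix.GeneralLinearGroup.map e (tau τ₀ g) := by
  have h1 : (((Matrix.GeneralLinearGroup.map e g)⁻¹ : GL (Fin n) F) : Matrix (Fin n) (Fin n) F) = ((g⁻¹ : GL (Fin n) F₀) : Matrix (Fin n) (Fin n) F₀).map e := by
    rw [← map_inv]
    rfl
  apply Units.ext
  rw [tau_coe, h1]
  change _ = ((tau τ₀ g : GL (Fin n) F₀) : Matrix (Fin n) (Fin n) F₀).map e
  rw [tau_coe]
  ext i j
  simp only [Matrix.map_apply, Matrix.transpose_apply]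
  exact (h _).symm

lemma map_sc (e : F₀ →+* F) (c : F₀ˣ) : Matrix.GeneralLinearGroup.map e (sc c : GL (Fin n) F₀) = sc (Units.map (e : F₀ →* F) c) := by
  apply Units.ext
  rw [sc_coe]
  change ((sc c : GL (Fin n) F₀) : Matrix (Fin n) (Fin n) F₀).map e = _
  rw [sc_coe]
  ext i j
  by_cases hij : i = j
  · subst hij
    simp
  · simp [Matrix.one_apply_ne hij]

lemma scalar_of_map_sc (hn : 1 ≤ n) (e : F₀ →+* F) (he : Function.Injective e) {g : GL (Fin n) F₀} {c : Fˣ}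
    (hc : Matrix.GeneralLinearGroup.map e g = sc c) : ∃ c₀ : F₀ˣ, g = sc c₀ := by
  let a : Fin n := ⟨0, hn⟩
  have hent : ∀ i j, e ((g : Matrix (Fin n) (Fin n) F₀) i j) = (c : F) * (1 : Matrix (Fin n) (Fin n) F) i j := by
    intro i j
    have := congrArg (fun M : GL (Fin n) F => (M : Matrix (Fin n) (Fin n) F) i j) hc
    simpa [sc_coe] using this
  have hne : (g : Matrix (Fin n) (Fin n) F₀) a a ≠ 0 := by
    intro h0
    have := hent a a
    rw [h0, map_zero, Matrix.one_apply_eq, mul_one] at this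
    exact c.ne_zero this.symm
  refine ⟨Units.mk0 _ hne, Units.ext ?_⟩
  rw [sc_coe]
  ext i j
  apply he
  rw [hent]
  have h3 := hent a a
  rw [Matrix.one_apply_eq, mul_one] at h3
  simp only [Matrix.smul_apply, smul_eq_mul, Units.val_mk0, map_mul, h3]
  congr 1
  by_cases hij : i = j
  · subst hij
    simp
  · simp [Matrix.one_apply_ne hij]

/-- The centraliser of a field automorphism of `PSU` in the inner-diagonal group. -/
theorem centralizer_fU_equiv [Fintype F₀] (hF : Fintype.card F = q ^ 2) (hn : 3 ≤ n) (hs : ¬ (n = 3 ∧ q = 2)) (σ : F ≃+* F) {r : ℕ} (hr : orderOf σ = r) (hr0 : r ≠ 0)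
    (e : F₀ →+* F) (he : Function.Injective e) (hfix : ∀ x, σ x = x ↔ x ∈ e.range) (hpow : ∀ a, e (a ^ q₀) = (e a) ^ q)
    (hF₀ : Fintype.card F₀ = q₀ ^ 2) :
    Nonempty (↥(inndiagPSU n F q ⊓ Subgroup.centralizer {(fU σ : MulAut (PSU n F q))}) ≃* PGU n F₀ q₀) := by
  have hn1 : 1 ≤ n := by omega
  have hfix' : ∀ x : F₀, σ (e x) = e x := fun x => (hfix _).2 ⟨x, rfl⟩
  have hτ : ∀ a, e (tauQ hF₀ a) = tauQ hF (e a) := hpow
  have memGU : ∀ g₀ : GU n F₀ q₀, Matrix.GeneralLinearGroup.map e (g₀ : GL (Fin n) F₀) ∈ GU n F q := by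
    intro g₀
    apply (mem_GU_iff (tauQ_sq hF) (tauQ_apply hF) _).2
    rw [tau_map e hτ, (mem_GU_iff (tauQ_sq hF₀) (tauQ_apply hF₀) _).1 g₀.2]
  let ι : GU n F₀ q₀ →* GU n F q :=
    { toFun := fun g => ⟨Matrix.GeneralLinearGroup.map e (g : GL (Fin n) F₀), memGU g⟩
      map_one' := Subtype.ext (map_one _)
      map_mul' := fun a b => Subtype.ext (map_mul _ _ _) }
  have hιfix : ∀ g, mp σ ((ι g : GU n F q) : GL (Fin n) F) = (ι g : GU n F q) := by
    intro g
    apply Units.ext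
    ext i j
    exact hfix' _
  let Φ : GU n F₀ q₀ →* ↥(inndiagPSU n F q ⊓ Subgroup.centralizer {(fU σ : MulAut (PSU n F q))}) :=
    ((cU : GU n F q →* MulAut (PSU n F q)).comp ι).codRestrict _ (fun g => by
      refine ⟨mem_inndiagU_iff.2 ⟨_, rfl⟩, Subgroup.mem_centralizer_singleton_iff.2 ?_⟩
      exact comm_of_fixedU σ (hιfix g))
  have hsurj : Function.Surjective Φ := by
    rintro ⟨y, hy1, hy2⟩
    obtain ⟨g, rfl⟩ := mem_inndiagU_iff.1 hy1
    obtain ⟨c, hc, hcfix⟩ := fixed_of_commU hF hn hs σ hr hr0 e he hfix hpow hF₀ (Subgroup.mem_centralizer_singleton_iff.1 hy2)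
    obtain ⟨g₀, hg₀⟩ := exists_map_eq σ e he hfix _ hcfix
    have hmem : (sc c * (g : GL (Fin n) F)) ∈ GU n F q := (GU n F q).mul_mem (sc_mem_GU hc) g.2
    have hg₀mem : g₀ ∈ GU n F₀ q₀ := by
      apply (mem_GU_iff (tauQ_sq hF₀) (tauQ_apply hF₀) _).2
      have h1 := (mem_GU_iff (tauQ_sq hF) (tauQ_apply hF) _).1 hmem
      rw [← hg₀, tau_map e hτ] at h1
      apply Units.ext
      ext i j
      apply he
      have := congrArg (fun M : GL (Fin n) F => (M : Matrix (Fin n) (Fin n) F) i j) h1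
      exact this
    refine ⟨⟨g₀, hg₀mem⟩, Subtype.ext ?_⟩
    change cU (ι ⟨g₀, hg₀mem⟩) = cU g
    have h2 : ι ⟨g₀, hg₀mem⟩ = (⟨sc c, sc_mem_GU hc⟩ : GU n F q) * g := Subtype.ext hg₀
    rw [h2, map_mul, cU_of_sc (t := (⟨sc c, sc_mem_GU hc⟩ : GU n F q)) rfl, one_mul]
  have hker : Φ.ker = (Geo.scalars (Fin n) F₀).subgroupOf (GU n F₀ q₀) := by
    ext g
    rw [MonoidHom.mem_ker, Subgroup.mem_subgroupOf, Geo.mem_scalars_iff]
    constructor
    · intro h
      have h1 : cU (ι g) = (1 : MulAut (PSU n F q)) := congrArg Subtype.val h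
      obtain ⟨c, hc⟩ := exists_sc_of_cU hF hn hs h1
      obtain ⟨c₀, hc₀⟩ := scalar_of_map_sc hn1 e he hc
      exact ⟨c₀, by rw [hc₀, sc_coe]⟩
    · rintro ⟨c, hc⟩
      apply Subtype.ext
      change cU (ι g) = 1
      have hg : (g : GL (Fin n) F₀) = sc c := by
        apply Units.ext
        rw [hc, sc_coe]
      exact cU_of_sc (c := Units.map (e : F₀ →* F) c) (by
        change Matrix.GeneralLinearGroup.map e (g : GL (Fin n) F₀) = _
        rw [hg, map_sc])
  exact ⟨((QuotientGroup.quotientMulEquivOfEq hker).symm.trans (QuotientGroup.quotientKerEquivOfSurjective Φ hsurj)).symm⟩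

/-- The count for the standard field automorphism. -/
theorem split_fU [Fintype F₀] (hF : Fintype.card F = q ^ 2) (hn : 3 ≤ n) (hs : ¬ (n = 3 ∧ q = 2)) (σ : F ≃+* F) {r : ℕ} (hr : orderOf σ = r) (hr0 : r ≠ 0)
    (e : F₀ →+* F) (he : Function.Injective e) (hfix : ∀ x, σ x = x ↔ x ∈ e.range) (hpow : ∀ a, e (a ^ q₀) = (e a) ^ q)
    (hF₀ : Fintype.card F₀ = q₀ ^ 2) :
    splitClassCount (inndiagPSU n F q) (Inn (PSU n F q)) (fU σ) =
      ((powMonoidHom n : U1 F q →* U1 F q).range ⊔ (fixU σ).subgroupOf (U1 F q)).index := by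
  have hn2 : 2 ≤ n := by omega
  apply SplitCount.split_count (cU : GU n F q →* MulAut (PSU n F q)) (detU hF) (detU_surj hF hn2) _ _ inndiagU_eq_range inn_le_inndiagU
  · exact cU_mem_inn_iff hF hn hs
  · intro g hg
    obtain ⟨c, hc, hcfix⟩ := fixed_of_commU hF hn hs σ hr hr0 e he hfix hpow hF₀ hg
    let g' : GU n F q := (⟨sc c, sc_mem_GU hc⟩ : GU n F q) * g
    have hcU : c ∈ U1 F q := MonoidHom.mem_ker.2 hc
    have h1 : detU hF g' ∈ (fixU σ).subgroupOf (U1 F q) := by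
      rw [Subgroup.mem_subgroupOf]
      change σ ((um g').det) = (um g').det
      have h4 : ((mp σ (g' : GL (Fin n) F) : GL (Fin n) F) : Matrix (Fin n) (Fin n) F).det = σ (um g').det := by
        rw [mp_coe]
        exact (RingHom.map_det (σ : F →+* F) _).symm
      rw [← h4]
      change ((mp σ (sc c * (g : GL (Fin n) F)) : GL (Fin n) F) : Matrix (Fin n) (Fin n) F).det = _
      rw [hcfix]
      rfl
    have h2 : detU hF g = (⟨c, hcU⟩⁻¹ : U1 F q) ^ n * detU hF g' := by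
      apply Subtype.ext
      change Matrix.GeneralLinearGroup.det (g : GL (Fin n) F) = c⁻¹ ^ n * Matrix.GeneralLinearGroup.det (sc c * (g : GL (Fin n) F))
      rw [map_mul, det_sc, inv_pow, inv_mul_cancel_left]
    change detU hF g ∈ _
    rw [h2]
    exact Subgroup.mul_mem _ ((le_sup_left : _ ≤ (powMonoidHom n : U1 F q →* U1 F q).range ⊔ (fixU σ).subgroupOf (U1 F q)) ⟨(⟨c, hcU⟩⁻¹ : U1 F q), rfl⟩)
      ((le_sup_right : _ ≤ (powMonoidHom n : U1 F q →* U1 F q).range ⊔ (fixU σ).subgroupOf (U1 F q)) h1)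
  · intro a ha
    refine ⟨dgU hF hn2 a, comm_of_fixedU σ (mp_dg hn2 σ ha), Subtype.ext (Units.ext (dg_det hn2 _))⟩

lemma card_fixU1 [Fintype F₀] (hF₀ : Fintype.card F₀ = q₀ ^ 2) (σ : F ≃+* F)
    (e : F₀ →+* F) (he : Function.Injective e) (hfix : ∀ x, σ x = x ↔ x ∈ e.range) (hpow : ∀ a, e (a ^ q₀) = (e a) ^ q) :
    Nat.card ((fixU σ).subgroupOf (U1 F q)) = q₀ + 1 := by
  have hm1 : ∀ a : U1 F₀ q₀, Units.map (e : F₀ →* F) (a : F₀ˣ) ∈ U1 F q := by
    intro a
    rw [MonoidHom.mem_ker]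
    apply Units.ext
    simp only [powMonoidHom_apply, Units.val_pow_eq_pow_val, Units.val_one, Units.coe_map, MonoidHom.coe_coe]
    have h1 : ((a : F₀ˣ) : F₀) ^ q₀ * (a : F₀ˣ) = 1 := U1_norm
    rw [pow_succ, ← hpow, ← map_mul, h1, map_one]
  have hm2 : ∀ a : U1 F₀ q₀, (⟨Units.map (e : F₀ →* F) (a : F₀ˣ), hm1 a⟩ : U1 F q) ∈ (fixU σ).subgroupOf (U1 F q) := by
    intro a
    rw [Subgroup.mem_subgroupOf]
    exact (hfix _).2 ⟨_, rfl⟩
  rw [← card_U1 hF₀]
  symm
  apply Nat.card_eq_of_bijective (fun a : U1 F₀ q₀ => (⟨⟨Units.map (e : F₀ →* F) (a : F₀ˣ), hm1 a⟩, hm2 a⟩ : (fixU σ).subgroupOf (U1 F q)))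
  constructor
  · intro a b hab
    apply Subtype.ext
    apply Units.ext
    apply he
    have := congrArg (fun x : (fixU σ).subgroupOf (U1 F q) => (((x : U1 F q) : Fˣ) : F)) hab
    exact this
  · rintro ⟨⟨x, hx⟩, hx2⟩
    rw [Subgroup.mem_subgroupOf] at hx2
    obtain ⟨y, hy⟩ := (hfix _).1 hx2
    have hy0 : y ≠ 0 := by
      rintro rfl
      rw [map_zero] at hy
      exact x.ne_zero hy.symm
    have hy1 : Units.mk0 y hy0 ∈ U1 F₀ q₀ := by
      apply U1_mk
      apply he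
      have h1 : (x : F) ^ q * x = 1 := by
        have : x ^ (q + 1) = 1 := MonoidHom.mem_ker.1 hx
        have h2 := congrArg Units.val this
        simpa [pow_succ] using h2
      rw [map_mul, hpow, hy, h1, map_one]
    refine ⟨⟨_, hy1⟩, Subtype.ext (Subtype.ext (Units.ext ?_))⟩
    exact hy

/-- The main theorem on field automorphisms of `PSU`. -/
theorem field_psu_main {p f : ℕ} [hp : Fact p.Prime] (hq : q = p ^ f) (hf : 1 ≤ f) (hF : Fintype.card F = q ^ 2) (hn : 3 ≤ n) (hs : ¬ (n = 3 ∧ q = 2))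
    (x : MulAut (PSU n F q)) (hx : IsFieldAutClassPSU x) {r : ℕ} (hr : r.Prime) (hro : Odd r) (hxr : orderOf x = r)
    [Fintype F₀] (hF₀ : Fintype.card F₀ = p ^ (2 * (f / r))) :
    r ∣ f ∧ Nonempty (↥(inndiagPSU n F q ⊓ Subgroup.centralizer {x}) ≃* PGU n F₀ (p ^ (f / r))) ∧
      splitClassCount (inndiagPSU n F q) (Inn (PSU n F q)) x = Nat.gcd n ((q + 1) / (p ^ (f / r) + 1)) := by
  classical
  have hxpow : x ^ r = 1 := by rw [← hxr]; exact pow_orderOf_eq_one _
  obtain ⟨α, φ, σ, hσ, hodd, hstd, hαx⟩ := hx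
  have hθ := eq_fU hstd
  subst hθ
  have hσr : σ ^ r = 1 := by
    apply fU_eq_one (n := n) hF hn hs
    rw [map_pow, ← hαx, conj_pow, hxpow]
    group
  haveI : Fact r.Prime := ⟨hr⟩
  have hord : orderOf σ = r := orderOf_eq_prime hσr hσ
  have hF' : Fintype.card F = p ^ (2 * f) := by
    rw [hF, hq, ← pow_mul, mul_comm]
  -- `r` divides `f`
  have hdvd : r ∣ f := by
    obtain ⟨E⟩ := Cfsg.Agent.Lib.AutPSL.exists_gal_iso hF' (by omega : 1 ≤ 2 * f)
    haveI : NeZero (2 * f) := ⟨by omega⟩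
    have h1 : Nat.card (F ≃+* F) = 2 * f := by
      rw [Nat.card_congr E.toEquiv, Nat.card_congr Multiplicative.toAdd, Nat.card_zmod]
    have h2 : r ∣ 2 * f := by
      rw [← hord, ← h1]
      haveI : Finite (F ≃+* F) := Nat.finite_of_card_ne_zero (by omega)
      exact orderOf_dvd_natCard σ
    exact (Nat.Coprime.dvd_mul_left (Nat.coprime_two_right.2 hro)).1 h2
  have hdiv : 2 * f / r = 2 * (f / r) := Nat.mul_div_assoc 2 hdvd
  obtain ⟨-, e, he, hfix⟩ := FieldFix.exists_fix_embed hF' σ hr hord F₀ (by rw [hF₀, hdiv])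
  obtain ⟨k, hk⟩ := hdvd
  have hfk : f / r = k := by
    rw [hk]
    exact Nat.mul_div_cancel_left _ hr.pos
  rw [hfk] at hF₀ ⊢
  obtain ⟨t, ht⟩ := hro
  have hq₀ : q = ((p ^ k) ^ 2) ^ t * (p ^ k) := by
    rw [hq, hk, ht]
    ring
  have hF₀' : Fintype.card F₀ = (p ^ k) ^ 2 := by
    rw [hF₀, ← pow_mul, mul_comm]
  have hpow : ∀ a, e (a ^ (p ^ k)) = (e a) ^ q := by
    intro a
    conv_rhs => rw [hq₀, pow_mul, ← map_pow, ← hF₀', FiniteField.pow_card_pow]
    rw [map_pow]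
  have hnorm : ∀ (β : MulAut (PSU n F q)), ∀ h ∈ inndiagPSU n F q, β * h * β⁻¹ ∈ inndiagPSU n F q := by
    intro β h hh
    obtain ⟨g, rfl⟩ := mem_inndiagU_iff.1 hh
    obtain ⟨g', hg'⟩ := conj_cU hF hn hs β g
    exact mem_inndiagU_iff.2 ⟨g', hg'⟩
  have hInn : ∀ (β : MulAut (PSU n F q)), ∀ h ∈ Inn (PSU n F q), β * h * β⁻¹ ∈ Inn (PSU n F q) := by
    intro β h hh
    exact (innNormal (PSU n F q)).conj_mem h hh β
  refine ⟨⟨k, hk⟩, ?_, ?_⟩
  · obtain ⟨E⟩ := centralizer_fU_equiv (n := n) hF hn hs σ hord hr.ne_zero e he hfix hpow hF₀'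
    have T : ↥(inndiagPSU n F q ⊓ Subgroup.centralizer {x}) ≃* ↥(inndiagPSU n F q ⊓ Subgroup.centralizer {(fU σ : MulAut (PSU n F q))}) :=
      { toFun := fun y => ⟨α * y.1 * α⁻¹, hnorm α _ y.2.1, Subgroup.mem_centralizer_singleton_iff.2 (by
          rw [← hαx]
          have := Subgroup.mem_centralizer_singleton_iff.1 y.2.2
          calc α * y.1 * α⁻¹ * (α * x * α⁻¹) = α * (y.1 * x) * α⁻¹ := by group
            _ = α * (x * y.1) * α⁻¹ := by rw [this]
            _ = _ := by group)⟩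
        invFun := fun y => ⟨α⁻¹ * y.1 * α, by
          have := hnorm α⁻¹ _ y.2.1
          rwa [inv_inv] at this, Subgroup.mem_centralizer_singleton_iff.2 (by
          have h1 : y.1 * (α * x * α⁻¹) = (α * x * α⁻¹) * y.1 := by
            rw [hαx]
            exact Subgroup.mem_centralizer_singleton_iff.1 y.2.2
          have h2 : α⁻¹ * (y.1 * (α * x * α⁻¹)) * α = α⁻¹ * ((α * x * α⁻¹) * y.1) * α := by rw [h1]
          calc α⁻¹ * y.1 * α * x = α⁻¹ * (y.1 * (α * x * α⁻¹)) * α := by group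
            _ = α⁻¹ * ((α * x * α⁻¹) * y.1) * α := h2
            _ = _ := by group)⟩
        left_inv := fun y => Subtype.ext (by
          change α⁻¹ * (α * y.1 * α⁻¹) * α = y.1
          group)
        right_inv := fun y => Subtype.ext (by
          change α * (α⁻¹ * y.1 * α) * α⁻¹ = y.1
          group)
        map_mul' := fun a b => Subtype.ext (by
          change α * (a.1 * b.1) * α⁻¹ = (α * a.1 * α⁻¹) * (α * b.1 * α⁻¹)
          group) }
    exact ⟨T.trans E⟩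
  · have h1 := SplitCount.split_conj (inndiagPSU n F q) (Inn (PSU n F q)) x α (hnorm α) (by
      intro h hh
      have := hnorm α⁻¹ _ hh
      rwa [inv_inv] at this) (hInn α) (by
      intro h hh
      have := hInn α⁻¹ _ hh
      rwa [inv_inv] at this)
    rw [← h1, hαx, split_fU hF hn hs σ hord hr.ne_zero e he hfix hpow hF₀']
    obtain ⟨ω, hω⟩ := IsCyclic.exists_generator (α := U1 F q)
    rw [SplitCount.index_sup_cyclic ω hω, IsCyclic.index_powMonoidHom_range, card_U1 hF]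
    have h2 := Subgroup.card_mul_index ((fixU σ).subgroupOf (U1 F q))
    rw [card_fixU1 hF₀' σ e he hfix hpow, card_U1 hF] at h2
    have h3 : (q + 1) / (p ^ k + 1) = ((fixU σ).subgroupOf (U1 F q)).index := by
      rw [← h2]
      exact Nat.mul_div_cancel_left _ (by positivity)
    rw [h3]
    have hdvd2 : ((fixU σ).subgroupOf (U1 F q)).index ∣ q + 1 := ⟨_, by rw [← h2, mul_comm]⟩
    rw [Nat.gcd_assoc, Nat.gcd_eq_right ((Nat.gcd_dvd_right _ _).trans hdvd2)]

end Cfsg.Agent.Lib.Known3.FieldAut
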