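import Mathlib
import Cfsg.Agent.Lib.Known3.FieldAutPSU2

/-! Descent of twisted-fixed elements of `GU`. -/

set_option autoImplicit false
set_option linter.unusedVariables false
set_option linter.unusedSectionVars false

namespace Cfsg.Agent.Lib.Known3.FieldAut

open Matrix Module Cfsg
open scoped MatrixGroups
open Cfsg.Agent.Lib.AutPSU Cfsg.Agent.Lib.Classical Cfsg.Agent.Lib.Classical.UT
open Cfsg.Agent.Lib.AutPSU.Rep (U1 card_U1 U1_norm U1_mk)

variable {F F₀ : Type*} [Field F] [Field F₀] [Fintype F] {n q q₀ : ℕ}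

/-- An element of `GU` fixed up to a scalar is fixed after multiplying by a scalar of norm one. -/
lemma fixed_of_twist [Fintype F₀] (hF : Fintype.card F = q ^ 2) (hn1 : 1 ≤ n) (σ : F ≃+* F) {r : ℕ} (hr : orderOf σ = r) (hr0 : r ≠ 0)
    (e : F₀ →+* F) (he : Function.Injective e) (hfix : ∀ x, σ x = x ↔ x ∈ e.range) (hpow : ∀ a, e (a ^ q₀) = (e a) ^ q)
    (hF₀ : Fintype.card F₀ = q₀ ^ 2) {g : GU n F q} {c : Fˣ} (h3 : mp σ (g : GL (Fin n) F) = (g : GL (Fin n) F) * sc c) :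
    ∃ c' : Fˣ, c' ^ (q + 1) = 1 ∧ mp σ (sc c' * (g : GL (Fin n) F)) = sc c' * (g : GL (Fin n) F) := by
  have hcmem : (sc c : GL (Fin n) F) ∈ GU n F q := by
    have h1 : (sc c : GL (Fin n) F) = ((g⁻¹ * mpU σ g : GU n F q) : GL (Fin n) F) := by
      change _ = (g : GL (Fin n) F)⁻¹ * mp σ (g : GL (Fin n) F)
      rw [h3, inv_mul_cancel_left]
    rw [h1]
    exact (g⁻¹ * mpU σ g).2
  have hcU : c ^ (q + 1) = 1 := pow_eq_one_of_sc_mem hF hn1 hcmem
  have hσr : σ ^ r = 1 := by rw [← hr]; exact pow_orderOf_eq_one σ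
  have h4 := mp_pow_of_eq σ h3 r
  rw [hσr, mp_id] at h4
  have h5 : sc (nu σ r c) = (1 : GL (Fin n) F) := by
    have := mul_left_cancel (a := (g : GL (Fin n) F)) (b := sc (nu σ r c)) (c := 1) (by rw [← h4, mul_one])
    exact this
  have h6 : nu σ r c = 1 := by
    rw [← sc_one_eq] at h5
    exact sc_inj hn1 h5
  obtain ⟨z, hz⟩ := hilbert90_units σ hr hr0 c h6
  have hzfix : mp σ (sc z * (g : GL (Fin n) F)) = sc z * (g : GL (Fin n) F) := by
    rw [map_mul, mp_sc, h3, ← sc_comm c, ← mul_assoc, ← sc_mul, mul_comm (Units.map _ z), hz]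
  have hμσ : (σ (z : F)) ^ (q + 1) = (z : F) ^ (q + 1) := by
    have h7 := congrArg Units.val (congrArg (fun x : Fˣ => x ^ (q + 1)) hz)
    simp only [mul_pow, hcU, one_mul, Units.val_pow_eq_pow_val] at h7
    exact h7
  have hμfix : σ ((z : F) ^ (q + 1)) = (z : F) ^ (q + 1) := by rw [map_pow, hμσ]
  obtain ⟨μ₀, hμ₀⟩ := (hfix _).1 hμfix
  have hμ₀0 : μ₀ ≠ 0 := by
    rintro rfl
    rw [map_zero] at hμ₀
    exact pow_ne_zero _ z.ne_zero hμ₀.symm
  have hμq : ((z : F) ^ (q + 1)) ^ q = (z : F) ^ (q + 1) := by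
    rw [pow_succ, mul_pow, pow_q_pow_q hF, mul_comm]
  have hμ₀q : conjQ hF₀ μ₀ = μ₀ := by
    apply he
    rw [conjQ_apply, hpow, hμ₀, hμq]
  obtain ⟨x₀, hx₀, hx₀μ⟩ := Witt.norm_surj_sigma (conjQ hF₀) (conjQ_ne_id hF₀) (conjQ_conjQ hF₀) μ₀⁻¹ (inv_ne_zero hμ₀0) (by rw [map_inv₀, hμ₀q])
  have hu0 : e x₀ ≠ 0 := fun h => hx₀ (he (by rw [h, map_zero]))
  let u : Fˣ := Units.mk0 (e x₀) hu0
  have hufix : Units.map (σ : F →* F) u = u := by
    apply Units.ext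
    exact (hfix _).2 ⟨x₀, rfl⟩
  have hun : u ^ (q + 1) * z ^ (q + 1) = 1 := by
    apply Units.ext
    simp only [Units.val_mul, Units.val_pow_eq_pow_val, Units.val_one, u, Units.val_mk0]
    have h8 : (e x₀) ^ (q + 1) = e μ₀⁻¹ := by
      rw [← hx₀μ, map_mul, conjQ_apply, hpow, pow_succ, mul_comm]
    rw [h8, map_inv₀, hμ₀, inv_mul_cancel₀ (pow_ne_zero _ z.ne_zero)]
  refine ⟨u * z, by rw [mul_pow, hun], ?_⟩
  rw [sc_mul, mul_assoc, map_mul, mp_sc, hzfix, hufix]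

/-- The count of the elements of `GU` fixed by a field automorphism up to scalars. -/
theorem card_twisted [Fintype F₀] (hF : Fintype.card F = q ^ 2) (hn1 : 1 ≤ n) (σ : F ≃+* F) {r : ℕ} (hr : orderOf σ = r) (hr0 : r ≠ 0)
    (e : F₀ →+* F) (he : Function.Injective e) (hfix : ∀ x, σ x = x ↔ x ∈ e.range) (hpow : ∀ a, e (a ^ q₀) = (e a) ^ q)
    (hF₀ : Fintype.card F₀ = q₀ ^ 2) :
    (q₀ + 1) * Nat.card {g : GU n F q // ∃ c : F, c ≠ 0 ∧ ((g : GL (Fin n) F) : Matrix (Fin n) (Fin n) F).map σ = c • ((g : GL (Fin n) F) : Matrix (Fin n) (Fin n) F)} =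
      (q + 1) * Nat.card (GU n F₀ q₀) := by
  classical
  have hfix' : ∀ x : F₀, σ (e x) = e x := fun x => (hfix _).2 ⟨x, rfl⟩
  have hτ : ∀ a, e (tauQ hF₀ a) = tauQ hF (e a) := hpow
  have memGU : ∀ g₀ : GU n F₀ q₀, Matrix.GeneralLinearGroup.map e (g₀ : GL (Fin n) F₀) ∈ GU n F q := by
    intro g₀
    apply (mem_GU_iff (tauQ_sq hF) (tauQ_apply hF) _).2
    rw [tau_map e hτ, (mem_GU_iff (tauQ_sq hF₀) (tauQ_apply hF₀) _).1 g₀.2]
  let ι : GU n F₀ q₀ →* GU n F q :=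
    { toFun := fun g => ⟨Matrix.GeneralLinearGroup.map e (g : GL (Fin n) F₀), memGU g⟩
      map_one' := Subtype.ext (map_one _)
      map_mul' := fun a b => Subtype.ext (map_mul _ _ _) }
  have hscmem : ∀ z : U1 F q, (sc (z : Fˣ) : GL (Fin n) F) ∈ GU n F q := fun z => sc_mem_GU (MonoidHom.mem_ker.1 z.2)
  let Φ : U1 F q × GU n F₀ q₀ →* GU n F q :=
    { toFun := fun x => ⟨sc (x.1 : Fˣ), hscmem x.1⟩ * ι x.2
      map_one' := by
        apply Subtype.ext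
        change sc (1 : Fˣ) * ((ι 1 : GU n F q) : GL (Fin n) F) = 1
        rw [map_one, sc_one_eq]
        simp
      map_mul' := fun a b => by
        apply Subtype.ext
        change sc ((a.1 : Fˣ) * (b.1 : Fˣ)) * ((ι (a.2 * b.2) : GU n F q) : GL (Fin n) F) =
          sc (a.1 : Fˣ) * ((ι a.2 : GU n F q) : GL (Fin n) F) * (sc (b.1 : Fˣ) * ((ι b.2 : GU n F q) : GL (Fin n) F))
        rw [map_mul, sc_mul]
        change _ * (((ι a.2 : GU n F q) : GL (Fin n) F) * ((ι b.2 : GU n F q) : GL (Fin n) F)) = _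
        have := sc_comm (b.1 : Fˣ) ((ι a.2 : GU n F q) : GL (Fin n) F)
        calc sc (a.1 : Fˣ) * sc (b.1 : Fˣ) * (((ι a.2 : GU n F q) : GL (Fin n) F) * ((ι b.2 : GU n F q) : GL (Fin n) F))
            = sc (a.1 : Fˣ) * (sc (b.1 : Fˣ) * ((ι a.2 : GU n F q) : GL (Fin n) F)) * ((ι b.2 : GU n F q) : GL (Fin n) F) := by
              simp only [mul_assoc]
          _ = _ := by
              rw [this]
              simp only [mul_assoc] }
  have hιfix : ∀ g, mp σ ((ι g : GU n F q) : GL (Fin n) F) = (ι g : GU n F q) := by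
    intro g
    apply Units.ext
    ext i j
    exact hfix' _
  -- the set is the range
  have hcardS : Nat.card {g : GU n F q // ∃ c : F, c ≠ 0 ∧ ((g : GL (Fin n) F) : Matrix (Fin n) (Fin n) F).map σ = c • ((g : GL (Fin n) F) : Matrix (Fin n) (Fin n) F)} = Nat.card Φ.range := by
    apply Nat.card_congr
    refine Equiv.subtypeEquivRight (fun g => ?_)
    constructor
    · rintro ⟨c, hc0, hc⟩
      have h3 : mp σ (g : GL (Fin n) F) = (g : GL (Fin n) F) * sc (Units.mk0 c hc0) := by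
        apply Units.ext
        rw [mp_coe, hc, Units.val_mul, sc_coe, Matrix.mul_smul, Matrix.mul_one]
        rfl
      obtain ⟨c', hc', hcfix⟩ := fixed_of_twist hF hn1 σ hr hr0 e he hfix hpow hF₀ h3
      obtain ⟨g₀, hg₀⟩ := exists_map_eq σ e he hfix _ hcfix
      have hmem : (sc c' * (g : GL (Fin n) F)) ∈ GU n F q := (GU n F q).mul_mem (sc_mem_GU hc') g.2
      have hg₀mem : g₀ ∈ GU n F₀ q₀ := by
        apply (mem_GU_iff (tauQ_sq hF₀) (tauQ_apply hF₀) _).2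
        have h1 := (mem_GU_iff (tauQ_sq hF) (tauQ_apply hF) _).1 hmem
        rw [← hg₀, tau_map e hτ] at h1
        apply Units.ext
        ext i j
        apply he
        have := congrArg (fun M : GL (Fin n) F => (M : Matrix (Fin n) (Fin n) F) i j) h1
        exact this
      have hinvU : c'⁻¹ ∈ U1 F q := by
        apply (U1 F q).inv_mem
        exact MonoidHom.mem_ker.2 hc'
      refine ⟨(⟨c'⁻¹, hinvU⟩, ⟨g₀, hg₀mem⟩), Subtype.ext ?_⟩
      change sc c'⁻¹ * Matrix.GeneralLinearGroup.map e g₀ = (g : GL (Fin n) F)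
      rw [hg₀, ← mul_assoc, ← sc_mul, inv_mul_cancel, sc_one_eq, one_mul]
    · rintro ⟨⟨z, g₀⟩, rfl⟩
      have hz0 : ((z : Fˣ) : F) ≠ 0 := (z : Fˣ).ne_zero
      refine ⟨(σ ((z : Fˣ) : F)) * ((z : Fˣ) : F)⁻¹, mul_ne_zero ((map_ne_zero σ).2 hz0) (inv_ne_zero hz0), ?_⟩
      change ((sc (z : Fˣ) * ((ι g₀ : GU n F q) : GL (Fin n) F) : GL (Fin n) F) : Matrix (Fin n) (Fin n) F).map σ =
        _ • ((sc (z : Fˣ) * ((ι g₀ : GU n F q) : GL (Fin n) F) : GL (Fin n) F) : Matrix (Fin n) (Fin n) F)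
      have h1 := hιfix g₀
      have h2 : ((mp σ ((ι g₀ : GU n F q) : GL (Fin n) F) : GL (Fin n) F) : Matrix (Fin n) (Fin n) F) = ((ι g₀ : GU n F q) : GL (Fin n) F) := by rw [h1]
      rw [mp_coe] at h2
      rw [Units.val_mul, sc_coe, Matrix.smul_mul, Matrix.one_mul]
      ext i j
      have h3 := congrFun (congrFun h2 i) j
      simp only [Matrix.map_apply, Matrix.smul_apply, smul_eq_mul, map_mul] at h3 ⊢
      rw [h3]
      field_simp
  -- the kernel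
  have hcardK : Nat.card Φ.ker = q₀ + 1 := by
    rw [← card_U1 hF₀]
    symm
    have hm1 : ∀ a : U1 F₀ q₀, (Units.map (e : F₀ →* F) (a : F₀ˣ))⁻¹ ∈ U1 F q := by
      intro a
      apply (U1 F q).inv_mem
      rw [MonoidHom.mem_ker]
      apply Units.ext
      simp only [powMonoidHom_apply, Units.val_pow_eq_pow_val, Units.val_one, Units.coe_map, MonoidHom.coe_coe]
      have h1 : ((a : F₀ˣ) : F₀) ^ q₀ * (a : F₀ˣ) = 1 := U1_norm
      rw [pow_succ, ← hpow, ← map_mul, h1, map_one]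
    have hm2 : ∀ a : U1 F₀ q₀, (sc (a : F₀ˣ) : GL (Fin n) F₀) ∈ GU n F₀ q₀ := fun a => sc_mem_GU (MonoidHom.mem_ker.1 a.2)
    have hm3 : ∀ a : U1 F₀ q₀, ((⟨_, hm1 a⟩, ⟨sc (a : F₀ˣ), hm2 a⟩) : U1 F q × GU n F₀ q₀) ∈ Φ.ker := by
      intro a
      rw [MonoidHom.mem_ker]
      apply Subtype.ext
      change sc (Units.map (e : F₀ →* F) (a : F₀ˣ))⁻¹ * Matrix.GeneralLinearGroup.map e (sc (a : F₀ˣ) : GL (Fin n) F₀) = 1
      rw [map_sc, ← sc_mul, inv_mul_cancel, sc_one_eq]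
    apply Nat.card_eq_of_bijective (fun a : U1 F₀ q₀ => (⟨_, hm3 a⟩ : Φ.ker))
    constructor
    · intro a b hab
      apply Subtype.ext
      have h1 := congrArg (fun x : Φ.ker => ((x.1.2 : GU n F₀ q₀) : GL (Fin n) F₀)) hab
      exact sc_inj hn1 h1
    · rintro ⟨⟨z, g₀⟩, hx⟩
      rw [MonoidHom.mem_ker] at hx
      have h1 : sc (z : Fˣ) * Matrix.GeneralLinearGroup.map e (g₀ : GL (Fin n) F₀) = 1 := congrArg Subtype.val hx
      have h2 : Matrix.GeneralLinearGroup.map e (g₀ : GL (Fin n) F₀) = sc (z : Fˣ)⁻¹ := by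
        apply mul_left_cancel (a := sc (z : Fˣ))
        rw [h1, ← sc_mul, mul_inv_cancel, sc_one_eq]
      obtain ⟨c₀, hc₀⟩ := scalar_of_map_sc hn1 e he h2
      have hc₀mem : (sc c₀ : GL (Fin n) F₀) ∈ GU n F₀ q₀ := hc₀ ▸ g₀.2
      have hc₀U : c₀ ∈ U1 F₀ q₀ := MonoidHom.mem_ker.2 (pow_eq_one_of_sc_mem hF₀ hn1 hc₀mem)
      refine ⟨⟨c₀, hc₀U⟩, Subtype.ext (Prod.ext (Subtype.ext ?_) (Subtype.ext hc₀.symm))⟩
      change (Units.map (e : F₀ →* F) c₀)⁻¹ = (z : Fˣ)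
      rw [hc₀, map_sc] at h2
      have h3 := sc_inj hn1 h2
      rw [h3, inv_inv]
  have h1 := Subgroup.card_mul_index Φ.ker
  rw [Subgroup.index_ker, hcardK, Nat.card_prod, card_U1 hF] at h1
  rw [hcardS]
  exact h1

end Cfsg.Agent.Lib.Known3.FieldAut
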