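import Mathlib
import Cfsg.Agent.Lib.Known3.FieldAutPSL3
import Cfsg.Agent.Lib.Known3.QuadIso
import Cfsg.Agent.Lib.AutPO.LangPlus
import Cfsg.Agent.Lib.AutPO.LangOdd

/-! The involutory graph automorphisms of `PSL_n`: they correspond to forms. -/

set_option autoImplicit false
set_option linter.unusedVariables false
set_option linter.unusedSectionVars false

namespace Cfsg.Agent.Lib.Known3.Graph

open Matrix Module Cfsg
open scoped MatrixGroups
open Cfsg.Agent.Lib.AutPSL Cfsg.Agent.Lib.Known3.FieldAut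

variable {F : Type*} [Field F] {n : ℕ}

/-- The graph automorphism attached to a Gram matrix. -/
def gg (G : GL (Fin n) F) : MulAut (PSLn n F) := conjP G⁻¹ * gamP

lemma gamGL_coe (g : GL (Fin n) F) : ((gamGL g : GL (Fin n) F) : Matrix (Fin n) (Fin n) F) = ((g⁻¹ : GL (Fin n) F) : Matrix (Fin n) (Fin n) F)ᵀ := rfl

lemma gamGL_inv_coe (g : GL (Fin n) F) : ((gamGL g⁻¹ : GL (Fin n) F) : Matrix (Fin n) (Fin n) F) = (g : Matrix (Fin n) (Fin n) F)ᵀ := by
  rw [gamGL_coe, inv_inv]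

lemma gg_mul_conjP (G h : GL (Fin n) F) : gg G * conjP h = conjP (G⁻¹ * gamGL h) * gamP := by
  rw [gg, mul_assoc, gamP_conjP, ← mul_assoc, ← conjP_mul]

lemma conjP_mul_gg (G h : GL (Fin n) F) : conjP h * gg G = conjP (h * G⁻¹) * gamP := by
  rw [gg, ← mul_assoc, ← conjP_mul]

lemma mat_inv_mul (g : GL (Fin n) F) : ((g⁻¹ : GL (Fin n) F) : Matrix (Fin n) (Fin n) F) * (g : Matrix (Fin n) (Fin n) F) = 1 := by
  rw [← Units.val_mul, inv_mul_cancel, Units.val_one]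

lemma mat_mul_inv (g : GL (Fin n) F) : (g : Matrix (Fin n) (Fin n) F) * ((g⁻¹ : GL (Fin n) F) : Matrix (Fin n) (Fin n) F) = 1 := by
  rw [← Units.val_mul, mul_inv_cancel, Units.val_one]

lemma sc_inv' (c : Fˣ) : ((sc c : GL (Fin n) F))⁻¹ = sc c⁻¹ := by
  apply inv_eq_of_mul_eq_one_right
  rw [← sc_mul, mul_inv_cancel]
  apply Units.ext
  simp [sc_coe]

/-- `gg G` and `gg G'` agree iff the Gram matrices are proportional. -/
lemma gg_eq_iff (hn : 2 ≤ n) (G G' : GL (Fin n) F) : gg G = gg G' ↔ ∃ c : Fˣ, (G' : Matrix (Fin n) (Fin n) F) = (c : F) • (G : Matrix (Fin n) (Fin n) F) := by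
  constructor
  · intro h
    have h1 : conjP G⁻¹ = (conjP G'⁻¹ : MulAut (PSLn n F)) := mul_right_cancel h
    have h2 : conjP (G * G'⁻¹) = (1 : MulAut (PSLn n F)) := by
      rw [conjP_mul, ← h1, ← conjP_mul, mul_inv_cancel, conjP_one]
    obtain ⟨c, hc⟩ := exists_sc_of_conjP hn h2
    refine ⟨c⁻¹, ?_⟩
    have h3 : G = sc c * G' := by rw [← hc]; group
    rw [h3, Units.val_mul, sc_coe, smul_mul_assoc, one_mul, smul_smul, ← Units.val_mul, inv_mul_cancel, Units.val_one, one_smul]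
  · rintro ⟨c, hc⟩
    have h3 : G' = sc c * G := Units.ext (by rw [hc, Units.val_mul, sc_coe, smul_mul_assoc, one_mul])
    rw [h3, gg, gg, _root_.mul_inv_rev, conjP_mul (G⁻¹), sc_inv', conjP_sc, mul_one]

/-- The similarity group of a Gram matrix. -/
def Sim (G : GL (Fin n) F) : Subgroup (GL (Fin n) F) where
  carrier := {h | ∃ z : Fˣ, (h : Matrix (Fin n) (Fin n) F)ᵀ * G * h = (z : F) • (G : Matrix (Fin n) (Fin n) F)}
  mul_mem' := by
    rintro a b ⟨x, hx⟩ ⟨y, hy⟩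
    refine ⟨x * y, ?_⟩
    rw [Units.val_mul, Matrix.transpose_mul]
    calc (b : Matrix (Fin n) (Fin n) F)ᵀ * (a : Matrix (Fin n) (Fin n) F)ᵀ * G * (a * b) = (b : Matrix (Fin n) (Fin n) F)ᵀ * ((a : Matrix (Fin n) (Fin n) F)ᵀ * G * a) * b := by
          simp only [Matrix.mul_assoc]
      _ = _ := by
          rw [hx, Matrix.mul_smul, Matrix.smul_mul, hy, smul_smul, Units.val_mul]
  one_mem' := ⟨1, by simp⟩
  inv_mem' := by
    rintro a ⟨x, hx⟩
    refine ⟨x⁻¹, ?_⟩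
    have h1 := mat_inv_mul a
    have h2 := mat_mul_inv a
    have h3 : ((a⁻¹ : GL (Fin n) F) : Matrix (Fin n) (Fin n) F)ᵀ * (a : Matrix (Fin n) (Fin n) F)ᵀ = 1 := by
      rw [← Matrix.transpose_mul, h2, Matrix.transpose_one]
    calc ((a⁻¹ : GL (Fin n) F) : Matrix (Fin n) (Fin n) F)ᵀ * G * ((a⁻¹ : GL (Fin n) F) : Matrix (Fin n) (Fin n) F)
        = ((x⁻¹ : Fˣ) : F) • (((a⁻¹ : GL (Fin n) F) : Matrix (Fin n) (Fin n) F)ᵀ * ((x : F) • (G : Matrix (Fin n) (Fin n) F)) * ((a⁻¹ : GL (Fin n) F) : Matrix (Fin n) (Fin n) F)) := by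
          rw [Matrix.mul_smul, Matrix.smul_mul, smul_smul, ← Units.val_mul, inv_mul_cancel, Units.val_one, one_smul]
      _ = ((x⁻¹ : Fˣ) : F) • (((a⁻¹ : GL (Fin n) F) : Matrix (Fin n) (Fin n) F)ᵀ * ((a : Matrix (Fin n) (Fin n) F)ᵀ * G * a) * ((a⁻¹ : GL (Fin n) F) : Matrix (Fin n) (Fin n) F)) := by rw [hx]
      _ = ((x⁻¹ : Fˣ) : F) • ((((a⁻¹ : GL (Fin n) F) : Matrix (Fin n) (Fin n) F)ᵀ * (a : Matrix (Fin n) (Fin n) F)ᵀ) * G * ((a : Matrix (Fin n) (Fin n) F) * ((a⁻¹ : GL (Fin n) F) : Matrix (Fin n) (Fin n) F))) := by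
          simp only [Matrix.mul_assoc]
      _ = _ := by rw [h3, h2, Matrix.one_mul, Matrix.mul_one]

lemma mem_Sim {G h : GL (Fin n) F} : h ∈ Sim G ↔ ∃ z : Fˣ, (h : Matrix (Fin n) (Fin n) F)ᵀ * G * h = (z : F) • (G : Matrix (Fin n) (Fin n) F) := Iff.rfl

/-- The commutation criterion. -/
lemma comm_iff (hn : 2 ≤ n) (G h : GL (Fin n) F) : Commute (conjP h : MulAut (PSLn n F)) (gg G) ↔ h ∈ Sim G := by
  have h3 : ((h⁻¹ : GL (Fin n) F) : Matrix (Fin n) (Fin n) F)ᵀ * (h : Matrix (Fin n) (Fin n) F)ᵀ = 1 := by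
    rw [← Matrix.transpose_mul, mat_mul_inv, Matrix.transpose_one]
  have h4 : (h : Matrix (Fin n) (Fin n) F)ᵀ * ((h⁻¹ : GL (Fin n) F) : Matrix (Fin n) (Fin n) F)ᵀ = 1 := by
    rw [← Matrix.transpose_mul, mat_inv_mul, Matrix.transpose_one]
  constructor
  · intro hc
    have hc' : conjP h * gg G = gg G * conjP h := hc
    rw [conjP_mul_gg, gg_mul_conjP] at hc'
    have h1 : conjP (h * G⁻¹) = (conjP (G⁻¹ * gamGL h) : MulAut (PSLn n F)) := mul_right_cancel hc'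
    have h2 : conjP ((h * G⁻¹) * (G⁻¹ * gamGL h)⁻¹) = (1 : MulAut (PSLn n F)) := by
      rw [conjP_mul, h1, ← conjP_mul, mul_inv_cancel, conjP_one]
    obtain ⟨c, hc2⟩ := exists_sc_of_conjP hn h2
    have h5 : h * G⁻¹ = sc c * (G⁻¹ * gamGL h) := by rw [← hc2]; group
    have h6 := congrArg (fun M : GL (Fin n) F => (M : Matrix (Fin n) (Fin n) F)) h5
    simp only [Units.val_mul, sc_coe, gamGL_coe, smul_mul_assoc, one_mul] at h6
    refine ⟨c, ?_⟩
    have h7 : (h : Matrix (Fin n) (Fin n) F) = (c : F) • (((G⁻¹ : GL (Fin n) F) : Matrix (Fin n) (Fin n) F) * ((h⁻¹ : GL (Fin n) F) : Matrix (Fin n) (Fin n) F)ᵀ * G) := by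
      rw [← smul_mul_assoc, ← h6, Matrix.mul_assoc, mat_inv_mul, Matrix.mul_one]
    calc (h : Matrix (Fin n) (Fin n) F)ᵀ * G * h = (h : Matrix (Fin n) (Fin n) F)ᵀ * G * ((c : F) • (((G⁻¹ : GL (Fin n) F) : Matrix (Fin n) (Fin n) F) * ((h⁻¹ : GL (Fin n) F) : Matrix (Fin n) (Fin n) F)ᵀ * G)) :=
          congrArg (fun X => (h : Matrix (Fin n) (Fin n) F)ᵀ * G * X) h7
      _ = (c : F) • ((h : Matrix (Fin n) (Fin n) F)ᵀ * ((G : Matrix (Fin n) (Fin n) F) * ((G⁻¹ : GL (Fin n) F) : Matrix (Fin n) (Fin n) F)) * ((h⁻¹ : GL (Fin n) F) : Matrix (Fin n) (Fin n) F)ᵀ * G) := by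
          rw [Matrix.mul_smul]
          simp only [Matrix.mul_assoc]
      _ = _ := by
          rw [mat_mul_inv, Matrix.mul_one, h4, Matrix.one_mul]
  · rintro ⟨z, hz⟩
    show conjP h * gg G = gg G * conjP h
    rw [conjP_mul_gg, gg_mul_conjP]
    have h5 : h * G⁻¹ = sc z * (G⁻¹ * gamGL h) := by
      apply Units.ext
      simp only [Units.val_mul, sc_coe, gamGL_coe, smul_mul_assoc, one_mul]
      calc (h : Matrix (Fin n) (Fin n) F) * ((G⁻¹ : GL (Fin n) F) : Matrix (Fin n) (Fin n) F)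
          = (((G⁻¹ : GL (Fin n) F) : Matrix (Fin n) (Fin n) F) * G) * (h * ((G⁻¹ : GL (Fin n) F) : Matrix (Fin n) (Fin n) F)) := by
            rw [mat_inv_mul, Matrix.one_mul]
        _ = ((G⁻¹ : GL (Fin n) F) : Matrix (Fin n) (Fin n) F) * (((h⁻¹ : GL (Fin n) F) : Matrix (Fin n) (Fin n) F)ᵀ * (h : Matrix (Fin n) (Fin n) F)ᵀ) * G * (h * ((G⁻¹ : GL (Fin n) F) : Matrix (Fin n) (Fin n) F)) := by
            rw [h3, Matrix.mul_one]
        _ = ((G⁻¹ : GL (Fin n) F) : Matrix (Fin n) (Fin n) F) * ((h⁻¹ : GL (Fin n) F) : Matrix (Fin n) (Fin n) F)ᵀ * ((h : Matrix (Fin n) (Fin n) F)ᵀ * G * h) * ((G⁻¹ : GL (Fin n) F) : Matrix (Fin n) (Fin n) F) := by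
            simp only [Matrix.mul_assoc]
        _ = (z : F) • (((G⁻¹ : GL (Fin n) F) : Matrix (Fin n) (Fin n) F) * ((h⁻¹ : GL (Fin n) F) : Matrix (Fin n) (Fin n) F)ᵀ * ((G : Matrix (Fin n) (Fin n) F) * ((G⁻¹ : GL (Fin n) F) : Matrix (Fin n) (Fin n) F))) := by
            rw [hz, Matrix.mul_smul, Matrix.smul_mul]
            simp only [Matrix.mul_assoc]
        _ = _ := by
            rw [mat_mul_inv, Matrix.mul_one]
    rw [h5, conjP_mul, conjP_sc, one_mul]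

/-- The centraliser in the inner-diagonal group. -/
theorem cent_equiv (hn : 2 ≤ n) (G : GL (Fin n) F) :
    Nonempty (↥(inndiagPSL n F ⊓ Subgroup.centralizer {(gg G : MulAut (PSLn n F))}) ≃* projQuot (Sim G)) := by
  have hn1 : 1 ≤ n := by omega
  let ψ : Sim G →* MulAut (PSLn n F) :=
    { toFun := fun g => conjP (g : GL (Fin n) F)
      map_one' := conjP_one
      map_mul' := fun a b => conjP_mul _ _ }
  let Φ : Sim G →* ↥(inndiagPSL n F ⊓ Subgroup.centralizer {(gg G : MulAut (PSLn n F))}) :=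
    ψ.codRestrict _ (fun g => by
      refine ⟨mem_inndiag_iff.2 ⟨_, rfl⟩, Subgroup.mem_centralizer_singleton_iff.2 ?_⟩
      exact (comm_iff hn G _).2 g.2)
  have hsurj : Function.Surjective Φ := by
    rintro ⟨y, hy1, hy2⟩
    obtain ⟨g, rfl⟩ := mem_inndiag_iff.1 hy1
    exact ⟨⟨g, (comm_iff hn G g).1 (Subgroup.mem_centralizer_singleton_iff.1 hy2)⟩, rfl⟩
  have hker : Φ.ker = (Geo.scalars (Fin n) F).subgroupOf (Sim G) := by
    ext g
    rw [MonoidHom.mem_ker, Subgroup.mem_subgroupOf, Geo.mem_scalars_iff]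
    constructor
    · intro h
      have h1 : conjP (g : GL (Fin n) F) = (1 : MulAut (PSLn n F)) := congrArg Subtype.val h
      obtain ⟨c, hc⟩ := exists_sc_of_conjP hn h1
      exact ⟨c, by rw [hc, sc_coe]⟩
    · rintro ⟨c, hc⟩
      apply Subtype.ext
      change conjP (g : GL (Fin n) F) = 1
      exact conjP_eq_one_of_scalar _ hc
  exact ⟨((QuotientGroup.quotientMulEquivOfEq hker).symm.trans (QuotientGroup.quotientKerEquivOfSurjective Φ hsurj)).symm⟩

/-- The twisted form. -/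
def tw (k G : GL (Fin n) F) : GL (Fin n) F := (gamGL k)⁻¹ * G * k

lemma tw_coe (k G : GL (Fin n) F) : ((tw k G : GL (Fin n) F) : Matrix (Fin n) (Fin n) F) = (k : Matrix (Fin n) (Fin n) F)ᵀ * G * k := rfl

lemma conjP_tw (k G : GL (Fin n) F) : conjP k⁻¹ * gg G * conjP k = gg (tw k G) := by
  have h1 : (tw k G)⁻¹ = k⁻¹ * G⁻¹ * gamGL k := by
    rw [tw]
    group
  rw [gg, gg, h1, mul_assoc (conjP k⁻¹), mul_assoc (conjP G⁻¹), gamP_conjP, conjP_mul, conjP_mul]
  simp only [mul_assoc]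

/-- Conjugacy under the inner-diagonal group. -/
theorem isConj_iff (hn : 2 ≤ n) (G G' : GL (Fin n) F) :
    IsConjUnder (inndiagPSL n F) (gg G) (gg G') ↔ ∃ (k : GL (Fin n) F) (c : Fˣ), (G' : Matrix (Fin n) (Fin n) F) = (c : F) • ((k : Matrix (Fin n) (Fin n) F)ᵀ * G * k) := by
  constructor
  · rintro ⟨h, hh, he⟩
    obtain ⟨g, rfl⟩ := mem_inndiag_iff.1 hh
    have h1 : gg G' = gg (tw g⁻¹ G) := by
      rw [he, ← conjP_tw, inv_inv, conjP_inv]
    obtain ⟨c, hc⟩ := (gg_eq_iff hn _ _).1 h1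
    obtain ⟨d, hd⟩ : ∃ d : Fˣ, (tw g⁻¹ G : Matrix (Fin n) (Fin n) F) = (d : F) • (G' : Matrix (Fin n) (Fin n) F) := ⟨c, hc⟩
    refine ⟨g⁻¹, d⁻¹, ?_⟩
    rw [← tw_coe, hd, smul_smul, ← Units.val_mul, inv_mul_cancel, Units.val_one, one_smul]
  · rintro ⟨k, c, hc⟩
    refine ⟨conjP k⁻¹, mem_inndiag_iff.2 ⟨_, rfl⟩, ?_⟩
    have h1 : gg G' = gg (tw k G) := by
      apply (gg_eq_iff hn _ _).2
      refine ⟨c⁻¹, ?_⟩
      rw [tw_coe, hc, smul_smul, ← Units.val_mul, inv_mul_cancel, Units.val_one, one_smul]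
    rw [h1, ← conjP_tw, conjP_inv, inv_inv]

lemma gg_isGraph (hn : 3 ≤ n) (G : GL (Fin n) F) : IsGraphAutClassPSL (gg G : MulAut (PSLn n F)) :=
  ⟨hn, _, _, isInnerDiag_conjP _, isInvTr_gamP, rfl⟩

lemma exists_gg {β : MulAut (PSLn n F)} (h : IsGraphAutClassPSL β) : ∃ G : GL (Fin n) F, β = gg G := by
  obtain ⟨_, δ, γ, hδ, hγ, rfl⟩ := h
  obtain ⟨g, rfl⟩ := mem_inndiag_iff.1 (Subgroup.subset_closure hδ : δ ∈ inndiagPSL n F)
  rw [eq_gamP hγ]
  exact ⟨g⁻¹, by rw [gg, inv_inv]⟩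

lemma gg_ne_one (hn : 3 ≤ n) (G : GL (Fin n) F) : (gg G : MulAut (PSLn n F)) ≠ 1 := by
  intro h
  apply uniq_graph hn (1 : GL (Fin n) F) G⁻¹ (1 : F ≃+* F) 1
  rw [fieldP_one, conjP_one, mul_one, mul_one]
  exact h.symm

lemma gg_sq (G : GL (Fin n) F) : gg G * gg G = (conjP (G⁻¹ * gamGL G⁻¹) : MulAut (PSLn n F)) := by
  rw [gg, mul_assoc, ← mul_assoc gamP, gamP_conjP, mul_assoc, gamP_gamP, mul_one, conjP_mul]

/-- The order two criterion. -/
theorem order_two_iff (hn : 3 ≤ n) (G : GL (Fin n) F) :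
    orderOf (gg G : MulAut (PSLn n F)) = 2 ↔ ∃ c : Fˣ, (G : Matrix (Fin n) (Fin n) F)ᵀ = (c : F) • (G : Matrix (Fin n) (Fin n) F) := by
  have hn2 : 2 ≤ n := by omega
  constructor
  · intro h
    have h1 : gg G * gg G = (1 : MulAut (PSLn n F)) := by
      rw [← sq, ← h, pow_orderOf_eq_one]
    rw [gg_sq] at h1
    obtain ⟨c, hc⟩ := exists_sc_of_conjP hn2 h1
    refine ⟨c, ?_⟩
    have h2 : (G : Matrix (Fin n) (Fin n) F)ᵀ = (G : Matrix (Fin n) (Fin n) F) * ((G⁻¹ * gamGL G⁻¹ : GL (Fin n) F) : Matrix (Fin n) (Fin n) F) := by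
      rw [Units.val_mul, ← Matrix.mul_assoc, mat_mul_inv, Matrix.one_mul, gamGL_inv_coe]
    rw [h2, hc, sc_coe, Matrix.mul_smul, Matrix.mul_one]
  · rintro ⟨c, hc⟩
    apply orderOf_eq_prime
    · rw [sq, gg_sq]
      apply conjP_eq_one_of_scalar _ (c := (c : F))
      rw [Units.val_mul, gamGL_inv_coe, hc, Matrix.mul_smul, mat_inv_mul]
    · exact gg_ne_one hn G

/-- Gram matrices of involutions are symmetric or skew. -/
lemma sym_or_skew (hn : 1 ≤ n) (G : GL (Fin n) F) {c : Fˣ} (hc : (G : Matrix (Fin n) (Fin n) F)ᵀ = (c : F) • (G : Matrix (Fin n) (Fin n) F)) :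
    (G : Matrix (Fin n) (Fin n) F)ᵀ = G ∨ (G : Matrix (Fin n) (Fin n) F)ᵀ = -(G : Matrix (Fin n) (Fin n) F) := by
  have h1 : (G : Matrix (Fin n) (Fin n) F) = ((c : F) * c) • (G : Matrix (Fin n) (Fin n) F) := by
    have h2 := congrArg Matrix.transpose hc
    rw [Matrix.transpose_transpose, Matrix.transpose_smul, hc, smul_smul] at h2
    exact h2
  have h3 : (c : F) * c = 1 := by
    have hne : (G : Matrix (Fin n) (Fin n) F) ≠ 0 := by
      intro h0
      haveI : Nonempty (Fin n) := ⟨⟨0, hn⟩⟩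
      have h9 := mat_mul_inv G
      rw [h0, Matrix.zero_mul] at h9
      exact zero_ne_one h9
    by_contra hne1
    have h4 : ((c : F) * c - 1) • (G : Matrix (Fin n) (Fin n) F) = 0 := by
      rw [sub_smul, one_smul, ← h1, sub_self]
    rcases smul_eq_zero.1 h4 with h5 | h5
    · exact hne1 (sub_eq_zero.1 h5)
    · exact hne h5
  have h6 : ((c : F) - 1) * (c + 1) = 0 := by linear_combination h3
  rcases mul_eq_zero.1 h6 with h7 | h7
  · left
    rw [hc, sub_eq_zero.1 h7, one_smul]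
  · right
    have h8 : (c : F) = -1 := by linear_combination h7
    rw [hc, h8, neg_one_smul]

/-! ### Forms -/

/-- The bilinear form with Gram matrix `G`. -/
def bf (G : Matrix (Fin n) (Fin n) F) (u v : Fin n → F) : F := u ⬝ᵥ (G *ᵥ v)

lemma bf_mulVec (G h : Matrix (Fin n) (Fin n) F) (u v : Fin n → F) :
    bf G (h *ᵥ u) (h *ᵥ v) = bf (hᵀ * G * h) u v := by
  simp only [bf]
  rw [Matrix.mul_assoc, ← Matrix.mulVec_mulVec, ← Matrix.mulVec_mulVec, Matrix.dotProduct_mulVec u, Matrix.vecMul_transpose]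

lemma mat_ext_dot {A B : Matrix (Fin n) (Fin n) F} (h : ∀ u v, bf A u v = bf B u v) : A = B := by
  ext i j
  have h1 := h (Pi.single i 1) (Pi.single j 1)
  simpa [bf, Matrix.mulVec_single_one, single_dotProduct] using h1

lemma bf_add_left (G : Matrix (Fin n) (Fin n) F) (u u' v : Fin n → F) : bf G (u + u') v = bf G u v + bf G u' v := by
  simp [bf, add_dotProduct]

lemma bf_add_right (G : Matrix (Fin n) (Fin n) F) (u v v' : Fin n → F) : bf G u (v + v') = bf G u v + bf G u v' := by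
  simp [bf, mulVec_add, dotProduct_add]

lemma bf_symm {G : Matrix (Fin n) (Fin n) F} (hG : Gᵀ = G) (u v : Fin n → F) : bf G u v = bf G v u := by
  simp only [bf]
  rw [Matrix.dotProduct_mulVec, dotProduct_comm, ← Matrix.mulVec_transpose, hG]

lemma mem_Sim_iff_bf {G h : GL (Fin n) F} :
    h ∈ Sim G ↔ ∃ z : Fˣ, ∀ u v, bf G ((h : Matrix (Fin n) (Fin n) F) *ᵥ u) ((h : Matrix (Fin n) (Fin n) F) *ᵥ v) = (z : F) * bf G u v := by
  constructor
  · rintro ⟨z, hz⟩
    refine ⟨z, fun u v => ?_⟩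
    rw [bf_mulVec, hz]
    simp [bf, Matrix.smul_mulVec, dotProduct_smul]
  · rintro ⟨z, hz⟩
    refine ⟨z, mat_ext_dot fun u v => ?_⟩
    rw [← bf_mulVec, hz]
    simp [bf, Matrix.smul_mulVec, dotProduct_smul]

lemma mem_Sim_iff_quad (h2 : (2 : F) ≠ 0) {G h : GL (Fin n) F} (hG : (G : Matrix (Fin n) (Fin n) F)ᵀ = G) :
    h ∈ Sim G ↔ ∃ z : Fˣ, ∀ v, bf G ((h : Matrix (Fin n) (Fin n) F) *ᵥ v) ((h : Matrix (Fin n) (Fin n) F) *ᵥ v) = (z : F) * bf G v v := by
  rw [mem_Sim_iff_bf]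
  constructor
  · rintro ⟨z, hz⟩
    exact ⟨z, fun v => hz v v⟩
  · rintro ⟨z, hz⟩
    refine ⟨z, fun u v => ?_⟩
    have h1 := hz (u + v)
    rw [Matrix.mulVec_add, bf_add_left, bf_add_right, bf_add_right, hz u, hz v, bf_add_left, bf_add_right, bf_add_right,
      bf_symm hG (h.1 *ᵥ v) (h.1 *ᵥ u), bf_symm hG v u] at h1
    have h3 : 2 * (bf G (h.1 *ᵥ u) (h.1 *ᵥ v) - (z : F) * bf G u v) = 0 := by
      linear_combination h1
    exact sub_eq_zero.1 ((mul_eq_zero.1 h3).resolve_left h2)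

/-! ### Change of basis -/

section congr

variable {ι κ : Type} [Fintype ι] [DecidableEq ι] [Fintype κ] [DecidableEq κ]

/-- The matrix of a linear equivalence. -/
noncomputable abbrev TT (e : (ι → F) ≃ₗ[F] (κ → F)) : Matrix κ ι F := LinearMap.toMatrix' (e : (ι → F) →ₗ[F] (κ → F))

/-- The matrix of the inverse of a linear equivalence. -/
noncomputable abbrev TS (e : (ι → F) ≃ₗ[F] (κ → F)) : Matrix ι κ F := LinearMap.toMatrix' (e.symm : (κ → F) →ₗ[F] (ι → F))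

lemma TS_TT (e : (ι → F) ≃ₗ[F] (κ → F)) : TS e * TT e = 1 := by
  rw [TS, TT, ← LinearMap.toMatrix'_comp, LinearEquiv.comp_coe, LinearEquiv.self_trans_symm]
  simp

lemma TT_TS (e : (ι → F) ≃ₗ[F] (κ → F)) : TT e * TS e = 1 := by
  rw [TS, TT, ← LinearMap.toMatrix'_comp, LinearEquiv.comp_coe, LinearEquiv.symm_trans_self]
  simp

/-- Conjugation of matrix groups by a linear equivalence. -/
noncomputable def glC (e : (ι → F) ≃ₗ[F] (κ → F)) : GL ι F ≃* GL κ F where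
  toFun g :=
    { val := TT e * (g : Matrix ι ι F) * TS e
      inv := TT e * ((g⁻¹ : GL ι F) : Matrix ι ι F) * TS e
      val_inv := by
        calc _ = TT e * ((g : Matrix ι ι F) * (TS e * TT e) * ((g⁻¹ : GL ι F) : Matrix ι ι F)) * TS e := by
              simp only [Matrix.mul_assoc]
          _ = 1 := by
              rw [TS_TT, Matrix.mul_one, ← Units.val_mul, mul_inv_cancel, Units.val_one, Matrix.mul_one, TT_TS]
      inv_val := by
        calc _ = TT e * (((g⁻¹ : GL ι F) : Matrix ι ι F) * (TS e * TT e) * (g : Matrix ι ι F)) * TS e := by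
              simp only [Matrix.mul_assoc]
          _ = 1 := by
              rw [TS_TT, Matrix.mul_one, ← Units.val_mul, inv_mul_cancel, Units.val_one, Matrix.mul_one, TT_TS] }
  invFun g :=
    { val := TS e * (g : Matrix κ κ F) * TT e
      inv := TS e * ((g⁻¹ : GL κ F) : Matrix κ κ F) * TT e
      val_inv := by
        calc _ = TS e * ((g : Matrix κ κ F) * (TT e * TS e) * ((g⁻¹ : GL κ F) : Matrix κ κ F)) * TT e := by
              simp only [Matrix.mul_assoc]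
          _ = 1 := by
              rw [TT_TS, Matrix.mul_one, ← Units.val_mul, mul_inv_cancel, Units.val_one, Matrix.mul_one, TS_TT]
      inv_val := by
        calc _ = TS e * (((g⁻¹ : GL κ F) : Matrix κ κ F) * (TT e * TS e) * (g : Matrix κ κ F)) * TT e := by
              simp only [Matrix.mul_assoc]
          _ = 1 := by
              rw [TT_TS, Matrix.mul_one, ← Units.val_mul, inv_mul_cancel, Units.val_one, Matrix.mul_one, TS_TT] }
  left_inv g := by
    apply Units.ext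
    change TS e * (TT e * (g : Matrix ι ι F) * TS e) * TT e = g
    calc _ = (TS e * TT e) * (g : Matrix ι ι F) * (TS e * TT e) := by
          simp only [Matrix.mul_assoc]
      _ = _ := by rw [TS_TT, Matrix.one_mul, Matrix.mul_one]
  right_inv g := by
    apply Units.ext
    change TT e * (TS e * (g : Matrix κ κ F) * TT e) * TS e = g
    calc _ = (TT e * TS e) * (g : Matrix κ κ F) * (TT e * TS e) := by
          simp only [Matrix.mul_assoc]
      _ = _ := by rw [TT_TS, Matrix.one_mul, Matrix.mul_one]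
  map_mul' a b := by
    apply Units.ext
    change TT e * ((a * b : GL ι F) : Matrix ι ι F) * TS e = (TT e * (a : Matrix ι ι F) * TS e) * (TT e * (b : Matrix ι ι F) * TS e)
    rw [Units.val_mul]
    calc _ = TT e * ((a : Matrix ι ι F) * 1 * (b : Matrix ι ι F)) * TS e := by rw [Matrix.mul_one]
      _ = _ := by rw [← TS_TT e]; simp only [Matrix.mul_assoc]

lemma glC_coe (e : (ι → F) ≃ₗ[F] (κ → F)) (g : GL ι F) :
    ((glC e g : GL κ F) : Matrix κ κ F) = TT e * (g : Matrix ι ι F) * TS e := rfl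

lemma glC_mulVec (e : (ι → F) ≃ₗ[F] (κ → F)) (g : GL ι F) (v : ι → F) :
    ((glC e g : GL κ F) : Matrix κ κ F) *ᵥ (e v) = e ((g : Matrix ι ι F) *ᵥ v) := by
  rw [glC_coe, ← Matrix.mulVec_mulVec, ← Matrix.mulVec_mulVec, TT, TS, LinearMap.toMatrix'_mulVec, LinearMap.toMatrix'_mulVec]
  simp

lemma glC_scalars (e : (ι → F) ≃ₗ[F] (κ → F)) (g : GL ι F) : g ∈ Geo.scalars ι F ↔ glC e g ∈ Geo.scalars κ F := by
  rw [Geo.mem_scalars_iff, Geo.mem_scalars_iff]
  constructor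
  · rintro ⟨c, hc⟩
    refine ⟨c, ?_⟩
    rw [glC_coe, hc, Matrix.mul_smul, Matrix.smul_mul, Matrix.mul_one, TT_TS]
  · rintro ⟨c, hc⟩
    refine ⟨c, ?_⟩
    have h3 : (g : Matrix ι ι F) = TS e * ((glC e g : GL κ F) : Matrix κ κ F) * TT e := by
      rw [glC_coe]
      calc _ = (TS e * TT e) * (g : Matrix ι ι F) * (TS e * TT e) := by rw [TS_TT, Matrix.one_mul, Matrix.mul_one]
        _ = _ := by simp only [Matrix.mul_assoc]
    rw [h3, hc, Matrix.mul_smul, Matrix.smul_mul, Matrix.mul_one, TS_TT]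

/-- Projective quotients are compatible with change of basis. -/
noncomputable def projC (e : (ι → F) ≃ₗ[F] (κ → F)) (H₁ : Subgroup (GL ι F)) (H₂ : Subgroup (GL κ F)) (h : ∀ g, g ∈ H₁ ↔ glC e g ∈ H₂) :
    projQuot H₁ ≃* projQuot H₂ := by
  let E : H₁ ≃* H₂ :=
    { toFun := fun x => ⟨glC e x.1, (h _).1 x.2⟩
      invFun := fun y => ⟨(glC e).symm y.1, (h _).2 (by simpa using y.2)⟩
      left_inv := fun x => Subtype.ext (by simp)
      right_inv := fun y => Subtype.ext (by simp)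
      map_mul' := fun a b => Subtype.ext (map_mul (glC e) _ _) }
  refine QuotientGroup.congr _ _ E ?_
  ext y
  rw [Subgroup.mem_map]
  constructor
  · rintro ⟨x, hx, rfl⟩
    rw [Subgroup.mem_subgroupOf] at hx ⊢
    exact (glC_scalars e _).1 hx
  · intro hy
    rw [Subgroup.mem_subgroupOf] at hy
    refine ⟨E.symm y, ?_, by simp⟩
    rw [Subgroup.mem_subgroupOf]
    apply (glC_scalars e _).2
    have h5 : glC e ((E.symm y : H₁) : GL ι F) = y.1 := (glC e).apply_symm_apply y.1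
    rw [h5]
    exact hy

/-- Transfer to a bilinear form. -/
lemma mem_sim_bilin {n : ℕ} (G : GL (Fin n) F) (e : (Fin n → F) ≃ₗ[F] (κ → F)) (B : (κ → F) → (κ → F) → F) (lam : F) (hlam : lam ≠ 0)
    (he : ∀ u v, B (e u) (e v) = lam * bf (G : Matrix (Fin n) (Fin n) F) u v) (g : GL (Fin n) F) :
    g ∈ Sim G ↔ glC e g ∈ Geo.similarityGroup B := by
  rw [mem_Sim_iff_bf]
  constructor
  · rintro ⟨z, hz⟩
    refine ⟨z, fun x y => ?_⟩
    obtain ⟨u, rfl⟩ := e.surjective x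
    obtain ⟨v, rfl⟩ := e.surjective y
    rw [glC_mulVec, glC_mulVec, he, he, hz]
    ring
  · rintro ⟨z, hz⟩
    refine ⟨z, fun u v => ?_⟩
    have h1 := hz (e u) (e v)
    rw [glC_mulVec, glC_mulVec, he, he] at h1
    apply mul_left_cancel₀ hlam
    rw [h1]
    ring

/-- Transfer to a quadratic form. -/
lemma mem_sim_quad {n : ℕ} (h2 : (2 : F) ≠ 0) (G : GL (Fin n) F) (hG : (G : Matrix (Fin n) (Fin n) F)ᵀ = G) (e : (Fin n → F) ≃ₗ[F] (κ → F)) (Q : (κ → F) → F) (lam : F) (hlam : lam ≠ 0)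
    (he : ∀ v, Q (e v) = lam * bf (G : Matrix (Fin n) (Fin n) F) v v) (g : GL (Fin n) F) :
    g ∈ Sim G ↔ glC e g ∈ Geo.quadSimilarityGroup Q := by
  rw [mem_Sim_iff_quad h2 hG]
  constructor
  · rintro ⟨z, hz⟩
    refine ⟨z, fun x => ?_⟩
    obtain ⟨u, rfl⟩ := e.surjective x
    rw [glC_mulVec, he, he, hz]
    ring
  · rintro ⟨z, hz⟩
    refine ⟨z, fun u => ?_⟩
    have h1 := hz (e u)
    rw [glC_mulVec, he, he] at h1
    apply mul_left_cancel₀ hlam
    rw [h1]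
    ring

end congr

/-- The centraliser, identified with the projective similarity group of a bilinear form. -/
theorem cent_similarity {κ : Type} [Fintype κ] [DecidableEq κ] (hn : 2 ≤ n) (G : GL (Fin n) F) (e : (Fin n → F) ≃ₗ[F] (κ → F)) (B : (κ → F) → (κ → F) → F) (lam : F) (hlam : lam ≠ 0)
    (he : ∀ u v, B (e u) (e v) = lam * bf (G : Matrix (Fin n) (Fin n) F) u v) :
    Nonempty (↥(inndiagPSL n F ⊓ Subgroup.centralizer {(gg G : MulAut (PSLn n F))}) ≃* projQuot (Geo.similarityGroup B)) := by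
  obtain ⟨E⟩ := cent_equiv hn G
  exact ⟨E.trans (projC e _ _ (mem_sim_bilin G e B lam hlam he))⟩

/-- The centraliser, identified with the projective similarity group of a quadratic form. -/
theorem cent_quad {κ : Type} [Fintype κ] [DecidableEq κ] (hn : 2 ≤ n) (h2 : (2 : F) ≠ 0) (G : GL (Fin n) F) (hG : (G : Matrix (Fin n) (Fin n) F)ᵀ = G) (e : (Fin n → F) ≃ₗ[F] (κ → F)) (Q : (κ → F) → F) (lam : F) (hlam : lam ≠ 0)
    (he : ∀ v, Q (e v) = lam * bf (G : Matrix (Fin n) (Fin n) F) v v) :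
    Nonempty (↥(inndiagPSL n F ⊓ Subgroup.centralizer {(gg G : MulAut (PSLn n F))}) ≃* PGO F Q) := by
  obtain ⟨E⟩ := cent_equiv hn G
  exact ⟨E.trans (projC e _ _ (mem_sim_quad h2 G hG e Q lam hlam he))⟩

end Cfsg.Agent.Lib.Known3.Graph
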