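import Mathlib
import Cfsg.Agent.Lib.Known3.GraphPSL
import Cfsg.Agent.Lib.Known3.OmegaCalc

/-! Discriminants of quadratic forms, the type of the dot product. -/

set_option autoImplicit false
set_option linter.unusedVariables false
set_option linter.unusedSectionVars false

namespace Cfsg.Agent.Lib.Known3.Graph

open Matrix Module Cfsg
open scoped MatrixGroups
open Cfsg.Agent.Lib.AutPSL Cfsg.Agent.Lib.Known3.FieldAut Cfsg.Agent.Lib.Known3.QuadIso Cfsg.Agent.Lib.Classical.Abs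

local notation "P" => QuadraticMap.polarBilin

variable {F : Type*} [Field F] {n : ℕ}

/-- The quadratic form attached to a Gram matrix. -/
noncomputable def Qg (G : Matrix (Fin n) (Fin n) F) : QuadraticForm F (Fin n → F) := (Matrix.toBilin' G).toQuadraticMap

lemma Qg_apply (G : Matrix (Fin n) (Fin n) F) (v : Fin n → F) : Qg G v = bf G v v := by
  simp [Qg, bf, Matrix.toBilin'_apply']

lemma Qg_polar {G : Matrix (Fin n) (Fin n) F} (hG : Gᵀ = G) (u v : Fin n → F) : P (Qg G) u v = 2 * bf G u v := by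
  change QuadraticMap.polar (⇑(Qg G)) u v = _
  simp only [QuadraticMap.polar, Qg_apply]
  rw [bf_add_left, bf_add_right, bf_add_right, bf_symm hG v u]
  ring

lemma Qg_nondeg (h2 : (2 : F) ≠ 0) {G : GL (Fin n) F} (hG : (G : Matrix (Fin n) (Fin n) F)ᵀ = G) : (P (Qg (G : Matrix (Fin n) (Fin n) F))).Nondegenerate := by
  have key : ∀ x : Fin n → F, (∀ y, P (Qg (G : Matrix (Fin n) (Fin n) F)) x y = 0) → x = 0 := by
    intro x hx
    funext i
    have h1 := hx (((G⁻¹ : GL (Fin n) F) : Matrix (Fin n) (Fin n) F) *ᵥ Pi.single i 1)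
    rw [Qg_polar hG] at h1
    have h3 := (mul_eq_zero.1 h1).resolve_left h2
    simp only [bf] at h3
    rw [Matrix.mulVec_mulVec, mat_mul_inv, Matrix.one_mulVec, dotProduct_single, mul_one] at h3
    exact h3
  refine ⟨key, fun y hy => key y fun x => ?_⟩
  rw [Qg_polar hG, bf_symm hG y x, ← Qg_polar hG]
  exact hy x

section det

variable {ι κ : Type*} [Fintype ι] [DecidableEq ι] [Fintype κ] [DecidableEq κ]

lemma mat_ext_dot' {A B : Matrix ι ι F} (h : ∀ u v : ι → F, u ⬝ᵥ (A *ᵥ v) = u ⬝ᵥ (B *ᵥ v)) : A = B := by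
  ext i j
  have h1 := h (Pi.single i 1) (Pi.single j 1)
  simpa [Matrix.mulVec_single_one, single_dotProduct] using h1

/-- The determinants of Gram matrices of isometric forms differ by a square. -/
theorem det_ratio (Gr₁ : Matrix ι ι F) (Gr₂ : Matrix κ κ F) (θ : (ι → F) ≃ₗ[F] (κ → F)) (e : κ ≃ ι)
    (h : ∀ u v, u ⬝ᵥ (Gr₁ *ᵥ v) = (θ u) ⬝ᵥ (Gr₂ *ᵥ (θ v))) :
    ∃ d : F, Gr₁.det = d ^ 2 * Gr₂.det := by
  let T : Matrix κ ι F := LinearMap.toMatrix' (θ : (ι → F) →ₗ[F] (κ → F))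
  have hT : ∀ u, T *ᵥ u = θ u := fun u => by simp [T, LinearMap.toMatrix'_mulVec]
  have h1 : Gr₁ = Tᵀ * Gr₂ * T := by
    apply mat_ext_dot'
    intro u v
    rw [h, ← hT, ← hT, Matrix.mul_assoc, ← Matrix.mulVec_mulVec, ← Matrix.mulVec_mulVec, Matrix.dotProduct_mulVec u, Matrix.vecMul_transpose]
  let T' : Matrix κ κ F := T.submatrix id e
  have h3 : Gr₁.submatrix e e = T'ᵀ * Gr₂ * T' := by
    rw [h1]
    ext i j
    simp [T', Matrix.mul_apply, Matrix.transpose_apply]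
  refine ⟨T'.det, ?_⟩
  have h4 : (Gr₁.submatrix e e).det = Gr₁.det := Matrix.det_submatrix_equiv_self e Gr₁
  rw [← h4, h3, Matrix.det_mul, Matrix.det_mul, Matrix.det_transpose]
  ring

end det

/-- The hyperbolic Gram matrix. -/
def Hy (m : ℕ) : Matrix (Fin m ⊕ Fin m) (Fin m ⊕ Fin m) F := Matrix.fromBlocks (0 : Matrix (Fin m) (Fin m) F) 1 1 (0 : Matrix (Fin m) (Fin m) F)

lemma Hy_det (m : ℕ) : (Hy m : Matrix (Fin m ⊕ Fin m) (Fin m ⊕ Fin m) F).det = (-1) ^ m := by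
  have h1 : (Hy m : Matrix (Fin m ⊕ Fin m) (Fin m ⊕ Fin m) F) * Matrix.fromBlocks (1 : Matrix (Fin m) (Fin m) F) 1 0 1 = Matrix.fromBlocks (0 : Matrix (Fin m) (Fin m) F) 1 1 1 := by
    rw [Hy, Matrix.fromBlocks_multiply]
    simp
  have h2 : (Matrix.fromBlocks (1 : Matrix (Fin m) (Fin m) F) (1 : Matrix (Fin m) (Fin m) F) 0 1).det = 1 := by
    rw [Matrix.det_fromBlocks_zero₂₁]
    simp
  have h3 : (Matrix.fromBlocks (0 : Matrix (Fin m) (Fin m) F) (1 : Matrix (Fin m) (Fin m) F) 1 1).det = (-1) ^ m := by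
    rw [Matrix.det_fromBlocks_one₂₂]
    simp [Matrix.det_neg]
  have h4 := congrArg Matrix.det h1
  rw [Matrix.det_mul, h2, h3, mul_one] at h4
  exact h4

lemma Hy_dot (m : ℕ) (u v : Fin m ⊕ Fin m → F) :
    u ⬝ᵥ ((Hy m : Matrix (Fin m ⊕ Fin m) (Fin m ⊕ Fin m) F) *ᵥ v) = P (Qplus m F) u v := by
  rw [polar_Qplus]
  simp only [Hy, dotProduct, Fintype.sum_sum_type, Matrix.mulVec, Matrix.fromBlocks_apply₁₁, Matrix.fromBlocks_apply₁₂, Matrix.fromBlocks_apply₂₁, Matrix.fromBlocks_apply₂₂]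
  simp [Matrix.one_apply, Finset.sum_add_distrib]

/-- The Gram matrix of the minus form. -/
def Hm (k : ℕ) (a b : F) : Matrix ((Fin k ⊕ Fin k) ⊕ Fin 2) ((Fin k ⊕ Fin k) ⊕ Fin 2) F :=
  Matrix.fromBlocks (Hy k) 0 0 !![2, a; a, 2 * b]

lemma Hm_det (k : ℕ) (a b : F) : (Hm k a b).det = (-1) ^ k * (4 * b - a ^ 2) := by
  rw [Hm, Matrix.det_fromBlocks_zero₁₂, Hy_det, Matrix.det_fin_two_of]
  ring

lemma Hm_dot (k : ℕ) (a b : F) (u v : (Fin k ⊕ Fin k) ⊕ Fin 2 → F) :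
    u ⬝ᵥ ((Hm k a b) *ᵥ v) = P (Qminus k F a b) u v := by
  rw [polar_Qminus]
  simp only [Hm, Hy, dotProduct, Fintype.sum_sum_type, Matrix.mulVec, Matrix.fromBlocks_apply₁₁, Matrix.fromBlocks_apply₁₂, Matrix.fromBlocks_apply₂₁, Matrix.fromBlocks_apply₂₂]
  simp [Matrix.one_apply, Finset.sum_add_distrib, Fin.sum_univ_two]
  ring

/-- A form isometric to the plus form has discriminant `(-1)^m` up to squares. -/
theorem disc_plus (h2 : (2 : F) ≠ 0) {m : ℕ} {G : Matrix (Fin (2 * m)) (Fin (2 * m)) F} (hG : Gᵀ = G) (θ : (Fin (2 * m) → F) ≃ₗ[F] (Fin m ⊕ Fin m → F))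
    (hθ : ∀ v, Cfsg.quadFormPlus m F (θ v) = Qg G v) : ∃ d : F, (2 : F) ^ (2 * m) * G.det = d ^ 2 * (-1) ^ m := by
  classical
  have e : (Fin m ⊕ Fin m) ≃ Fin (2 * m) := (finSumFinEquiv).trans (finCongr (two_mul m).symm)
  obtain ⟨d, hd⟩ := det_ratio ((2 : F) • G) (Hy m) θ e (fun u v => by
    rw [Hy_dot]
    have h1 : P (Qg G) u v = P (Qplus m F) (θ u) (θ v) := by
      change QuadraticMap.polar (⇑(Qg G)) u v = QuadraticMap.polar (⇑(Qplus m F)) (θ u) (θ v)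
      simp only [QuadraticMap.polar, Qplus_apply]
      rw [← map_add]
      simp only [hθ]
    rw [← h1, Qg_polar hG]
    simp [bf, Matrix.smul_mulVec, dotProduct_smul])
  refine ⟨d, ?_⟩
  rw [Matrix.det_smul, Fintype.card_fin, Hy_det] at hd
  exact hd

/-- A form isometric to the minus form has discriminant `(-1)^k (4b - a²)` up to squares. -/
theorem disc_minus (h2 : (2 : F) ≠ 0) {k : ℕ} (hn : n = 2 * k + 2) (a b : F) {G : Matrix (Fin n) (Fin n) F} (hG : Gᵀ = G) (θ : (Fin n → F) ≃ₗ[F] ((Fin k ⊕ Fin k) ⊕ Fin 2 → F))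
    (hθ : ∀ v, Cfsg.quadFormMinus k F a b (θ v) = Qg G v) : ∃ d : F, (2 : F) ^ n * G.det = d ^ 2 * ((-1) ^ k * (4 * b - a ^ 2)) := by
  classical
  subst hn
  have e : ((Fin k ⊕ Fin k) ⊕ Fin 2) ≃ Fin (2 * k + 2) :=
    (Equiv.sumCongr ((finSumFinEquiv).trans (finCongr (two_mul k).symm)) (Equiv.refl _)).trans finSumFinEquiv
  obtain ⟨d, hd⟩ := det_ratio ((2 : F) • G) (Hm k a b) θ e (fun u v => by
    rw [Hm_dot]
    have h1 : P (Qg G) u v = P (Qminus k F a b) (θ u) (θ v) := by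
      change QuadraticMap.polar (⇑(Qg G)) u v = QuadraticMap.polar (⇑(Qminus k F a b)) (θ u) (θ v)
      simp only [QuadraticMap.polar, Qminus_apply]
      rw [← map_add]
      simp only [hθ]
    rw [← h1, Qg_polar hG]
    simp [bf, Matrix.smul_mulVec, dotProduct_smul])
  refine ⟨d, ?_⟩
  rw [Matrix.det_smul, Fintype.card_fin, Hm_det] at hd
  exact hd

lemma gg_one : gg (1 : GL (Fin n) F) = gamP := by
  rw [gg, inv_one, conjP_one, one_mul]

lemma isSquare_neg_one_pow {m : ℕ} [Fintype F] (hodd : Odd (Fintype.card F)) :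
    Even (m * ((Fintype.card F - 1) / 2)) ↔ IsSquare ((-1 : F) ^ m) := by
  have h2 : ringChar F ≠ 2 := by
    intro h
    have := FiniteField.even_card_of_char_two h
    exact (Nat.not_even_iff_odd.2 hodd) (Nat.even_iff.2 this)
  obtain ⟨t, ht⟩ := hodd
  have h3 : (Fintype.card F - 1) / 2 = t := by omega
  rw [h3]
  rcases Nat.even_or_odd m with hm | hm
  · rw [hm.neg_one_pow]
    simp [hm.mul_right]
  · rw [hm.neg_one_pow, FiniteField.isSquare_neg_one_iff, Nat.even_mul]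
    constructor
    · rintro (h | h)
      · exact absurd h (Nat.not_even_iff_odd.2 hm)
      · obtain ⟨s, hs⟩ := h
        omega
    · intro h
      right
      rw [Nat.even_iff]
      omega

/-- The type of the dot product. -/
theorem dot_type [Fintype F] (hodd : Odd (Fintype.card F)) {m : ℕ} (hm : 1 ≤ m) :
    (Even (m * ((Fintype.card F - 1) / 2)) → ∃ θ : (Fin (2 * m) → F) ≃ₗ[F] (Fin m ⊕ Fin m → F), ∀ v, Cfsg.quadFormPlus m F (θ v) = bf (1 : Matrix (Fin (2 * m)) (Fin (2 * m)) F) v v) ∧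
    (¬ Even (m * ((Fintype.card F - 1) / 2)) → ∃ (ζ : F) (θ : (Fin (2 * m) → F) ≃ₗ[F] ((Fin (m - 1) ⊕ Fin (m - 1)) ⊕ Fin 2 → F)), (∀ t : F, t ^ 2 + t + ζ ≠ 0) ∧
      ∀ v, Cfsg.quadFormMinus (m - 1) F 1 ζ (θ v) = bf (1 : Matrix (Fin (2 * m)) (Fin (2 * m)) F) v v) := by
  have h2 : (2 : F) ≠ 0 := Cfsg.Agent.Lib.Known3.OmegaCalc.two_ne_of_odd rfl hodd
  have hS : (1 : Matrix (Fin (2 * m)) (Fin (2 * m)) F)ᵀ = 1 := Matrix.transpose_one
  have hnd := Qg_nondeg (n := 2 * m) h2 (G := 1) (by simpa using hS)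
  simp only [Units.val_one] at hnd
  have hV : finrank F (Fin (2 * m) → F) = 2 * m := by simp
  have hdich := isometry_even hm hV (Qg (1 : Matrix (Fin (2 * m)) (Fin (2 * m)) F)) hnd
  simp only [Qg_apply] at hdich
  constructor
  · intro he
    rcases hdich with ⟨θ, hθ⟩ | ⟨ζ, θ, hζ, hθ⟩
    · exact ⟨θ, hθ⟩
    · exfalso
      obtain ⟨ε, hε⟩ := (isSquare_neg_one_pow hodd).1 he
      obtain ⟨d, hd⟩ := disc_minus h2 (k := m - 1) (by omega : 2 * m = 2 * (m - 1) + 2) 1 ζ (G := (1 : Matrix (Fin (2 * m)) (Fin (2 * m)) F)) hS θ (by simpa only [Qg_apply] using hθ)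
      rw [Matrix.det_one, mul_one] at hd
      have hm1 : (-1 : F) ^ m = -((-1 : F) ^ (m - 1)) := by
        conv_lhs => rw [(by omega : m = (m - 1) + 1), pow_succ]
        ring
      have hm2 : (-1 : F) ^ (m - 1) = -(ε * ε) := by
        rw [← hε, hm1, neg_neg]
      have h3 : (2 : F) ^ m * (2 : F) ^ m = (d * ε) ^ 2 * (1 - 4 * ζ) := by
        have e1 : (2 : F) ^ m * (2 : F) ^ m = (2 : F) ^ (2 * m) := by rw [two_mul, pow_add]
        rw [e1, hd, hm2]
        ring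
      have h4 : (2 : F) ^ m ≠ 0 := pow_ne_zero _ h2
      have h5 : d * ε ≠ 0 := by
        intro h0
        rw [h0] at h3
        simp only [ne_eq, OfNat.ofNat_ne_zero, not_false_eq_true, zero_pow, zero_mul, mul_eq_zero, or_self] at h3
        exact h4 h3
      have h6 : ((2 : F) ^ m) ^ 2 = (d * ε) ^ 2 * (1 - 4 * ζ) := by rw [sq, h3]
      have hs : ((2 : F) ^ m / (d * ε)) ^ 2 = 1 - 4 * ζ := by
        rw [div_pow, h6]
        exact mul_div_cancel_left₀ _ (pow_ne_zero 2 h5)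
      generalize (2 : F) ^ m / (d * ε) = s at hs
      apply hζ ((s - 1) / 2)
      field_simp
      linear_combination hs
  · intro he
    rcases hdich with ⟨θ, hθ⟩ | ⟨ζ, θ, hζ, hθ⟩
    · exfalso
      apply he
      apply (isSquare_neg_one_pow hodd).2
      obtain ⟨d, hd⟩ := disc_plus h2 (G := (1 : Matrix (Fin (2 * m)) (Fin (2 * m)) F)) hS θ (by simpa only [Qg_apply] using hθ)
      rw [Matrix.det_one, mul_one] at hd
      have h4 : (2 : F) ^ m ≠ 0 := pow_ne_zero _ h2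
      have e1 : (2 : F) ^ m * (2 : F) ^ m = (2 : F) ^ (2 * m) := by rw [two_mul, pow_add]
      have h5 : d ≠ 0 := by
        intro h0
        rw [h0, ← e1] at hd
        simp at hd
        exact h2 hd.1
      refine ⟨(2 : F) ^ m / d, ?_⟩
      field_simp
      rw [← sq] at e1
      rw [e1, hd]
      ring
    · exact ⟨ζ, θ, hζ, hθ⟩

end Cfsg.Agent.Lib.Known3.Graph
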