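import Mathlib
import Cfsg.Agent.Lib.Known3.GraphDisc
import Cfsg.Agent.Lib.Classical.SympStd

/-! Standard representatives of the involutory graph automorphisms of `PSL_n`. -/

set_option autoImplicit false
set_option linter.unusedVariables false
set_option linter.unusedSectionVars false

namespace Cfsg.Agent.Lib.Known3.Graph

open Matrix Module Cfsg
open scoped MatrixGroups
open Cfsg.Agent.Lib.AutPSL Cfsg.Agent.Lib.Known3.FieldAut Cfsg.Agent.Lib.Known3.QuadIso Cfsg.Agent.Lib.Classical.Abs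

local notation "P" => QuadraticMap.polarBilin

variable {F : Type*} [Field F] {n : ℕ}

lemma bf_smul (c : F) (G : Matrix (Fin n) (Fin n) F) (u v : Fin n → F) : bf (c • G) u v = c * bf G u v := by
  simp [bf, Matrix.smul_mulVec, dotProduct_smul]

/-- The invertible matrix of a linear automorphism. -/
noncomputable def lk (φ : (Fin n → F) ≃ₗ[F] (Fin n → F)) : GL (Fin n) F where
  val := TT φ
  inv := TS φ
  val_inv := TT_TS φ
  inv_val := TS_TT φ

lemma lk_mulVec (φ : (Fin n → F) ≃ₗ[F] (Fin n → F)) (v : Fin n → F) : ((lk φ : GL (Fin n) F) : Matrix (Fin n) (Fin n) F) *ᵥ v = φ v := by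
  change TT φ *ᵥ v = φ v
  simp [TT, LinearMap.toMatrix'_mulVec]

/-- Conjugacy from a relation between the bilinear forms. -/
theorem conj_of_bf (hn : 2 ≤ n) (G G' : GL (Fin n) F) (φ : (Fin n → F) ≃ₗ[F] (Fin n → F)) (c : Fˣ)
    (h : ∀ u v, bf (G : Matrix (Fin n) (Fin n) F) u v = (c : F) * bf (G' : Matrix (Fin n) (Fin n) F) (φ u) (φ v)) :
    IsConjUnder (inndiagPSL n F) (gg G') (gg G) := by
  rw [isConj_iff hn]
  refine ⟨lk φ, c, mat_ext_dot fun u v => ?_⟩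
  rw [h, ← lk_mulVec φ u, ← lk_mulVec φ v, bf_mulVec]
  simp [bf, Matrix.smul_mulVec, dotProduct_smul]

/-- Conjugacy from a relation between quadratic forms. -/
theorem conj_of_quad (hn : 2 ≤ n) (h2 : (2 : F) ≠ 0) (G G' : GL (Fin n) F) (hG : (G : Matrix (Fin n) (Fin n) F)ᵀ = G) (hG' : (G' : Matrix (Fin n) (Fin n) F)ᵀ = G')
    (φ : (Fin n → F) ≃ₗ[F] (Fin n → F)) (c : Fˣ)
    (h : ∀ v, bf (G : Matrix (Fin n) (Fin n) F) v v = (c : F) * bf (G' : Matrix (Fin n) (Fin n) F) (φ v) (φ v)) :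
    IsConjUnder (inndiagPSL n F) (gg G') (gg G) := by
  apply conj_of_bf hn G G' φ c
  intro u v
  have h1 := h (u + v)
  rw [map_add, bf_add_left, bf_add_right, bf_add_right, bf_add_left, bf_add_right, bf_add_right, h u, h v,
    bf_symm hG v u, bf_symm hG' (φ v) (φ u)] at h1
  have h3 : 2 * (bf (G : Matrix (Fin n) (Fin n) F) u v - (c : F) * bf (G' : Matrix (Fin n) (Fin n) F) (φ u) (φ v)) = 0 := by
    linear_combination h1
  exact sub_eq_zero.1 ((mul_eq_zero.1 h3).resolve_left h2)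

/-- The linear automorphism of an invertible matrix. -/
noncomputable def mvE (k : GL (Fin n) F) : (Fin n → F) ≃ₗ[F] (Fin n → F) :=
  LinearEquiv.ofLinear (Matrix.toLin' (k : Matrix (Fin n) (Fin n) F)) (Matrix.toLin' ((k⁻¹ : GL (Fin n) F) : Matrix (Fin n) (Fin n) F))
    (by rw [← Matrix.toLin'_mul, mat_mul_inv, Matrix.toLin'_one]) (by rw [← Matrix.toLin'_mul, mat_inv_mul, Matrix.toLin'_one])

lemma mvE_apply (k : GL (Fin n) F) (v : Fin n → F) : mvE k v = (k : Matrix (Fin n) (Fin n) F) *ᵥ v := rfl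

section std

variable {ι : Type} [Fintype ι] [DecidableEq ι]

/-- A matrix pulled back along an equivalence of index sets. -/
noncomputable def pb (e : ι ≃ Fin n) (J : Matrix ι ι F) (hJ : J.det ≠ 0) : GL (Fin n) F :=
  Matrix.GeneralLinearGroup.mkOfDetNeZero (J.submatrix e.symm e.symm) (by rw [Matrix.det_submatrix_equiv_self]; exact hJ)

lemma pb_coe (e : ι ≃ Fin n) (J : Matrix ι ι F) (hJ : J.det ≠ 0) :
    ((pb e J hJ : GL (Fin n) F) : Matrix (Fin n) (Fin n) F) = J.submatrix e.symm e.symm := rfl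

/-- The reindexing map on vectors. -/
noncomputable def rx (e : ι ≃ Fin n) : (Fin n → F) ≃ₗ[F] (ι → F) := LinearEquiv.funCongrLeft F F e

lemma rx_apply (e : ι ≃ Fin n) (v : Fin n → F) (i : ι) : rx e v i = v (e i) := rfl

lemma bf_pb (e : ι ≃ Fin n) (J : Matrix ι ι F) (hJ : J.det ≠ 0) (u v : Fin n → F) :
    bf ((pb e J hJ : GL (Fin n) F) : Matrix (Fin n) (Fin n) F) u v = (rx e u) ⬝ᵥ (J *ᵥ (rx e v)) := by
  rw [pb_coe]
  simp only [bf, dotProduct, Matrix.mulVec, rx_apply, Matrix.submatrix_apply]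
  rw [← Equiv.sum_comp e]
  refine Finset.sum_congr rfl fun a _ => ?_
  congr 1
  rw [← Equiv.sum_comp e]
  simp

lemma pb_transpose (e : ι ≃ Fin n) (J : Matrix ι ι F) (hJ : J.det ≠ 0) :
    ((pb e J hJ : GL (Fin n) F) : Matrix (Fin n) (Fin n) F)ᵀ = Jᵀ.submatrix e.symm e.symm := by
  rw [pb_coe, Matrix.transpose_submatrix]

end std

lemma Hy_transpose (m : ℕ) : (Hy m : Matrix (Fin m ⊕ Fin m) (Fin m ⊕ Fin m) F)ᵀ = Hy m := by
  rw [Hy, Matrix.fromBlocks_transpose]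
  simp

lemma Hm_transpose (k : ℕ) (a b : F) : (Hm k a b)ᵀ = Hm k a b := by
  rw [Hm, Matrix.fromBlocks_transpose, Hy_transpose]
  have h1 : (!![2, a; a, 2 * b] : Matrix (Fin 2) (Fin 2) F)ᵀ = !![2, a; a, 2 * b] := by
    ext i j
    fin_cases i <;> fin_cases j <;> simp
  rw [h1, Matrix.transpose_zero, Matrix.transpose_zero]

lemma J_det_ne (m : ℕ) : (Matrix.J (Fin m) F).det ≠ 0 := by
  have h := Matrix.isUnit_det_J (Fin m) F
  exact h.ne_zero

lemma Hy_det_ne (m : ℕ) : (Hy m : Matrix (Fin m ⊕ Fin m) (Fin m ⊕ Fin m) F).det ≠ 0 := by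
  rw [Hy_det]
  exact pow_ne_zero _ (neg_ne_zero.2 one_ne_zero)

lemma Hm_det_ne (h2 : (2 : F) ≠ 0) (k : ℕ) (a b : F) (hab : ∀ z₁ z₂ : F, z₁ ^ 2 + a * z₁ * z₂ + b * z₂ ^ 2 = 0 → z₁ = 0 ∧ z₂ = 0) : (Hm k a b).det ≠ 0 := by
  rw [Hm_det]
  apply mul_ne_zero (pow_ne_zero _ (neg_ne_zero.2 one_ne_zero))
  intro h
  have h1 := hab a (-2) (by linear_combination h)
  exact h2 (by simpa using h1.2)

lemma exists_anis [Finite F] : ∃ ζ : F, ∀ t : F, t ^ 2 + t + ζ ≠ 0 := by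
  have hninj : ¬ Function.Injective (fun t : F => t ^ 2 + t) := by
    intro h
    have h1 : (fun t : F => t ^ 2 + t) 0 = (fun t : F => t ^ 2 + t) (-1) := by simp
    have h3 := h h1
    exact one_ne_zero (neg_eq_zero.1 h3.symm)
  have hnsurj : ¬ Function.Surjective (fun t : F => t ^ 2 + t) := fun h => hninj (Finite.injective_iff_surjective.2 h)
  simp only [Function.Surjective, not_forall, not_exists] at hnsurj
  obtain ⟨c, hc⟩ := hnsurj
  refine ⟨-c, fun t h => hc t ?_⟩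
  linear_combination h

/-- A non-degenerate skew form is symplectic. -/
theorem skew_std (h2 : (2 : F) ≠ 0) {m : ℕ} (hn : n = 2 * m) (G : GL (Fin n) F) (hG : (G : Matrix (Fin n) (Fin n) F)ᵀ = -(G : Matrix (Fin n) (Fin n) F)) :
    ∃ θ : (Fin n → F) ≃ₗ[F] (Fin m ⊕ Fin m → F), ∀ u v, Cfsg.sympForm m F (θ u) (θ v) = bf (G : Matrix (Fin n) (Fin n) F) u v := by
  have hb : ∀ u v, Matrix.toBilin' (G : Matrix (Fin n) (Fin n) F) u v = bf (G : Matrix (Fin n) (Fin n) F) u v := fun u v => by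
    simp [bf, Matrix.toBilin'_apply']
  have hanti : ∀ u v, bf (G : Matrix (Fin n) (Fin n) F) u v = - bf (G : Matrix (Fin n) (Fin n) F) v u := by
    intro u v
    simp only [bf]
    rw [Matrix.dotProduct_mulVec, dotProduct_comm, ← Matrix.mulVec_transpose, hG, Matrix.neg_mulVec, dotProduct_neg]
  have hA : (Matrix.toBilin' (G : Matrix (Fin n) (Fin n) F)).IsAlt := by
    intro x
    rw [hb]
    have h1 := hanti x x
    have h3 : 2 * bf (G : Matrix (Fin n) (Fin n) F) x x = 0 := by linear_combination h1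
    exact (mul_eq_zero.1 h3).resolve_left h2
  have key : ∀ x : Fin n → F, (∀ y, bf (G : Matrix (Fin n) (Fin n) F) x y = 0) → x = 0 := by
    intro x hx
    funext i
    have h3 := hx (((G⁻¹ : GL (Fin n) F) : Matrix (Fin n) (Fin n) F) *ᵥ Pi.single i 1)
    simp only [bf] at h3
    rw [Matrix.mulVec_mulVec, mat_mul_inv, Matrix.one_mulVec, dotProduct_single, mul_one] at h3
    exact h3
  have hB : (Matrix.toBilin' (G : Matrix (Fin n) (Fin n) F)).Nondegenerate := by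
    refine ⟨fun x hx => key x fun y => by rw [← hb]; exact hx y, fun y hy => key y fun x => ?_⟩
    rw [hanti, ← hb, hy x, neg_zero]
  obtain ⟨θ, hθ⟩ := Cfsg.Agent.Lib.Classical.exists_symp_isometry _ hB hA m (by simp [hn])
  exact ⟨θ, fun u v => by rw [hθ, hb]⟩

/-- The polar form on the diagonal. -/
lemma polar_self' {ι : Type*} (Q : QuadraticForm F (ι → F)) (x : ι → F) : P Q x x = 2 * Q x := by
  change QuadraticMap.polar (⇑Q) x x = _
  rw [QuadraticMap.polar_self]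
  simp [two_smul, two_mul]

/-- The main theorem for `n` even, `q` odd. -/
theorem even_main [Fintype F] (hodd : Odd (Fintype.card F)) {m : ℕ} (hm : 2 ≤ m) (hnm : n = 2 * m) :
    ∃ (γ₁ γ₂ γ₃ : MulAut (PSLn n F)) (a b : F), (∀ z₁ z₂ : F, z₁ ^ 2 + a * z₁ * z₂ + b * z₂ ^ 2 = 0 → z₁ = 0 ∧ z₂ = 0) ∧ IsGraphAutClassPSL γ₁ ∧ orderOf γ₁ = 2 ∧ IsGraphAutClassPSL γ₂ ∧ orderOf γ₂ = 2 ∧ IsGraphAutClassPSL γ₃ ∧ orderOf γ₃ = 2 ∧ ¬ IsConjUnder (inndiagPSL n F) γ₁ γ₂ ∧ ¬ IsConjUnder (inndiagPSL n F) γ₁ γ₃ ∧ ¬ IsConjUnder (inndiagPSL n F) γ₂ γ₃ ∧ (∀ γ : MulAut (PSLn n F), IsGraphAutClassPSL γ → orderOf γ = 2 → IsConjUnder (inndiagPSL n F) γ₁ γ ∨ IsConjUnder (inndiagPSL n F) γ₂ γ ∨ IsConjUnder (inndiagPSL n F) γ₃ γ) ∧ Nonempty (↥(inndiagPSL n F ⊓ Subgroup.centralizer {γ₁}) ≃* PGSp m F) ∧ Nonempty (↥(inndiagPSL n F ⊓ Subgroup.centralizer {γ₂}) ≃* PGO F (quadFormPlus m F)) ∧ Nonempty (↥(inndiagPSL n F ⊓ Subgroup.centralizer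 {γ₃}) ≃* PGO F (quadFormMinus (m - 1) F a b)) := by
  classical
  have h2 : (2 : F) ≠ 0 := Cfsg.Agent.Lib.Known3.OmegaCalc.two_ne_of_odd rfl hodd
  have hn3 : 3 ≤ n := by omega
  have hn2 : 2 ≤ n := by omega
  have hn1 : 1 ≤ n := by omega
  haveI : Nonempty (Fin n) := ⟨⟨0, hn1⟩⟩
  obtain ⟨ζ, hζ⟩ := exists_anis (F := F)
  have hab : ∀ z₁ z₂ : F, z₁ ^ 2 + 1 * z₁ * z₂ + ζ * z₂ ^ 2 = 0 → z₁ = 0 ∧ z₂ = 0 := anisotropic_of ζ hζ
  let e₁ : Fin m ⊕ Fin m ≃ Fin n := (finSumFinEquiv).trans (finCongr (by omega))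
  let e₃ : (Fin (m - 1) ⊕ Fin (m - 1)) ⊕ Fin 2 ≃ Fin n :=
    (Equiv.sumCongr ((finSumFinEquiv).trans (finCongr (by omega : m - 1 + (m - 1) = 2 * (m - 1)))) (Equiv.refl _)).trans (finSumFinEquiv.trans (finCongr (by omega)))
  let G₁ : GL (Fin n) F := pb e₁ (Matrix.J (Fin m) F) (J_det_ne m)
  let G₂ : GL (Fin n) F := pb e₁ (Hy m) (Hy_det_ne m)
  let G₃ : GL (Fin n) F := pb e₃ (Hm (m - 1) 1 ζ) (Hm_det_ne h2 _ _ _ hab)
  have hG₁ : (G₁ : Matrix (Fin n) (Fin n) F)ᵀ = -(G₁ : Matrix (Fin n) (Fin n) F) := by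
    change ((pb e₁ (Matrix.J (Fin m) F) (J_det_ne m) : GL (Fin n) F) : Matrix (Fin n) (Fin n) F)ᵀ = -((pb e₁ (Matrix.J (Fin m) F) (J_det_ne m) : GL (Fin n) F) : Matrix (Fin n) (Fin n) F)
    rw [pb_transpose, pb_coe, Matrix.J_transpose]
    ext i j
    simp
  have hG₂ : (G₂ : Matrix (Fin n) (Fin n) F)ᵀ = (G₂ : Matrix (Fin n) (Fin n) F) := by
    change ((pb e₁ (Hy m) (Hy_det_ne m) : GL (Fin n) F) : Matrix (Fin n) (Fin n) F)ᵀ = ((pb e₁ (Hy m) (Hy_det_ne m) : GL (Fin n) F) : Matrix (Fin n) (Fin n) F)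
    rw [pb_transpose, pb_coe, Hy_transpose]
  have hG₃ : (G₃ : Matrix (Fin n) (Fin n) F)ᵀ = (G₃ : Matrix (Fin n) (Fin n) F) := by
    change ((pb e₃ (Hm (m - 1) 1 ζ) (Hm_det_ne h2 _ _ _ hab) : GL (Fin n) F) : Matrix (Fin n) (Fin n) F)ᵀ = ((pb e₃ (Hm (m - 1) 1 ζ) (Hm_det_ne h2 _ _ _ hab) : GL (Fin n) F) : Matrix (Fin n) (Fin n) F)
    rw [pb_transpose, pb_coe, Hm_transpose]
  have hb₁ : ∀ u v, bf (G₁ : Matrix (Fin n) (Fin n) F) u v = Cfsg.sympForm m F (rx e₁ u) (rx e₁ v) := fun u v => bf_pb _ _ _ _ _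
  have hb₂ : ∀ v, bf (G₂ : Matrix (Fin n) (Fin n) F) v v = 2 * Cfsg.quadFormPlus m F (rx e₁ v) := fun v => by
    change bf ((pb e₁ (Hy m) (Hy_det_ne m) : GL (Fin n) F) : Matrix (Fin n) (Fin n) F) v v = _
    rw [bf_pb, Hy_dot, polar_self', Qplus_apply]
  have hb₃ : ∀ v, bf (G₃ : Matrix (Fin n) (Fin n) F) v v = 2 * Cfsg.quadFormMinus (m - 1) F 1 ζ (rx e₃ v) := fun v => by
    change bf ((pb e₃ (Hm (m - 1) 1 ζ) (Hm_det_ne h2 _ _ _ hab) : GL (Fin n) F) : Matrix (Fin n) (Fin n) F) v v = _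
    rw [bf_pb, Hm_dot, polar_self', Qminus_apply]
  have hord₁ : orderOf (gg G₁ : MulAut (PSLn n F)) = 2 :=
    (order_two_iff hn3 G₁).2 ⟨-1, by simpa using hG₁⟩
  have hord₂ : orderOf (gg G₂ : MulAut (PSLn n F)) = 2 :=
    (order_two_iff hn3 G₂).2 ⟨1, by simpa using hG₂⟩
  have hord₃ : orderOf (gg G₃ : MulAut (PSLn n F)) = 2 :=
    (order_two_iff hn3 G₃).2 ⟨1, by simpa using hG₃⟩
  have hu2 : (2 : F)⁻¹ ≠ 0 := inv_ne_zero h2
  have hne_skew : ∀ (S : GL (Fin n) F), (S : Matrix (Fin n) (Fin n) F)ᵀ = (S : Matrix (Fin n) (Fin n) F) → ¬ IsConjUnder (inndiagPSL n F) (gg G₁) (gg S) := by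
    intro S hS hc
    obtain ⟨k, c, hk⟩ := (isConj_iff hn2 _ _).1 hc
    have h3 : (S : Matrix (Fin n) (Fin n) F)ᵀ = -(S : Matrix (Fin n) (Fin n) F) := by
      rw [hk, Matrix.transpose_smul, Matrix.transpose_mul, Matrix.transpose_mul, hG₁, Matrix.transpose_transpose, Matrix.mul_assoc, Matrix.neg_mul, Matrix.mul_neg, smul_neg]
    rw [hS] at h3
    have h4 : (2 : F) • (S : Matrix (Fin n) (Fin n) F) = 0 := by
      rw [two_smul]
      nth_rw 1 [h3]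
      simp
    rcases smul_eq_zero.1 h4 with h5 | h5
    · exact h2 h5
    · have h9 := mat_mul_inv S
      rw [h5, Matrix.zero_mul] at h9
      exact zero_ne_one h9
  refine ⟨gg G₁, gg G₂, gg G₃, 1, ζ, hab, gg_isGraph hn3 _, hord₁, gg_isGraph hn3 _, hord₂, gg_isGraph hn3 _, hord₃, hne_skew _ hG₂, hne_skew _ hG₃, ?_, ?_, ?_, ?_, ?_⟩
  · -- plus and minus are not similar
    intro hc
    obtain ⟨k, c, hk⟩ := (isConj_iff hn2 _ _).1 hc
    obtain ⟨U, hU, hUdim⟩ := Cfsg.Agent.Lib.Known3.Witt.exists_singular_plus (F := F) m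
    let g : (Fin m ⊕ Fin m → F) ≃ₗ[F] ((Fin (m - 1) ⊕ Fin (m - 1)) ⊕ Fin 2 → F) :=
      (rx e₁).symm.trans ((mvE k⁻¹).trans (rx e₃))
    have hg : ∀ x, Cfsg.quadFormMinus (m - 1) F 1 ζ (g x) = (c : F) * Cfsg.quadFormPlus m F x := by
      intro x
      set v : Fin n → F := ((k⁻¹ : GL (Fin n) F) : Matrix (Fin n) (Fin n) F) *ᵥ ((rx e₁).symm x) with hv
      have h5 : g x = rx e₃ v := rfl
      have h6 : (k : Matrix (Fin n) (Fin n) F) *ᵥ v = (rx e₁).symm x := by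
        rw [hv, Matrix.mulVec_mulVec, mat_mul_inv, Matrix.one_mulVec]
      have h7 : bf (G₃ : Matrix (Fin n) (Fin n) F) v v = (c : F) * bf (G₂ : Matrix (Fin n) (Fin n) F) ((k : Matrix (Fin n) (Fin n) F) *ᵥ v) ((k : Matrix (Fin n) (Fin n) F) *ᵥ v) := by
        rw [hk, bf_smul, bf_mulVec (G₂ : Matrix (Fin n) (Fin n) F) (k : Matrix (Fin n) (Fin n) F) v v]
      rw [hb₃, hb₂, h6, (rx e₁).apply_symm_apply] at h7
      rw [h5]
      have h8 : 2 * (Cfsg.quadFormMinus (m - 1) F 1 ζ (rx e₃ v) - (c : F) * Cfsg.quadFormPlus m F x) = 0 := by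
        linear_combination h7
      exact sub_eq_zero.1 ((mul_eq_zero.1 h8).resolve_left h2)
    have h1 := Cfsg.Agent.Lib.Known3.Witt.finrank_le_of_singular_minus (m - 1) 1 ζ hab (U.map (g : (Fin m ⊕ Fin m → F) →ₗ[F] _)) (by
      rintro _ ⟨u, hu, rfl⟩
      change Cfsg.quadFormMinus (m - 1) F 1 ζ (g u) = 0
      rw [hg, hU u hu, mul_zero])
    rw [LinearEquiv.finrank_map_eq, hUdim] at h1
    omega
  · -- completeness
    intro γ hγ hγ2
    obtain ⟨G, rfl⟩ := exists_gg hγ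
    obtain ⟨c, hc⟩ := (order_two_iff hn3 G).1 hγ2
    rcases sym_or_skew hn1 G hc with hS | hS
    · right
      have hnd := Qg_nondeg h2 hS
      have hV : finrank F (Fin n → F) = 2 * m := by simp [hnm]
      rcases isometry_even (by omega) hV _ hnd with ⟨θ, hθ⟩ | ⟨ζ', θ, hζ', hθ⟩
      · left
        apply conj_of_quad hn2 h2 G G₂ hS hG₂ (θ.trans (rx e₁).symm) (Units.mk0 _ hu2)
        intro v
        simp only [Qg_apply] at hθ
        rw [hb₂, show rx e₁ ((θ.trans (rx e₁).symm) v) = θ v from (rx e₁).apply_symm_apply (θ v), hθ, Units.val_mk0, inv_mul_cancel_left₀ h2]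
      · right
        obtain ⟨e', he'⟩ := Cfsg.Agent.Lib.AutPO.minus_isometric (m - 1) 1 ζ' 1 ζ (anisotropic_of ζ' hζ') hab
        apply conj_of_quad hn2 h2 G G₃ hS hG₃ ((θ.trans e').trans (rx e₃).symm) (Units.mk0 _ hu2)
        intro v
        simp only [Qg_apply] at hθ
        rw [hb₃, show rx e₃ (((θ.trans e').trans (rx e₃).symm) v) = e' (θ v) from (rx e₃).apply_symm_apply (e' (θ v)), he', hθ, Units.val_mk0, inv_mul_cancel_left₀ h2]
    · left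
      obtain ⟨θ, hθ⟩ := skew_std h2 hnm G hS
      apply conj_of_bf hn2 G G₁ (θ.trans (rx e₁).symm) 1
      intro u v
      rw [hb₁, Units.val_one, one_mul, ← hθ, show rx e₁ ((θ.trans (rx e₁).symm) u) = θ u from (rx e₁).apply_symm_apply (θ u), show rx e₁ ((θ.trans (rx e₁).symm) v) = θ v from (rx e₁).apply_symm_apply (θ v)]
  · exact cent_similarity hn2 G₁ (rx e₁) (Cfsg.sympForm m F) 1 one_ne_zero (fun u v => by rw [hb₁, one_mul])
  · exact cent_quad hn2 h2 G₂ hG₂ (rx e₁) (quadFormPlus m F) _ hu2 (fun v => by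
      rw [hb₂, inv_mul_cancel_left₀ h2])
  · exact cent_quad hn2 h2 G₃ hG₃ (rx e₃) (quadFormMinus (m - 1) F 1 ζ) _ hu2 (fun v => by
      rw [hb₃, inv_mul_cancel_left₀ h2])

end Cfsg.Agent.Lib.Known3.Graph
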