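import Mathlib
import Cfsg.Agent.Lib.Known3.GraphForms
import Cfsg.Agent.Lib.Classical.IsoBridge
import Cfsg.Agent.S0304

/-! Graph automorphisms of `PSL_n` in characteristic two. -/

set_option autoImplicit false
set_option linter.unusedVariables false
set_option linter.unusedSectionVars false

namespace Cfsg.Agent.Lib.Known3.Graph

open Matrix Module Cfsg
open scoped MatrixGroups
open Cfsg.Agent.Lib.AutPSL Cfsg.Agent.Lib.Known3.FieldAut Cfsg.Agent.Lib.Known3.QuadIso Cfsg.Agent.Lib.Classical.Abs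
open Cfsg.Agent.Lib.Classical (sympForm_self sympForm_flip sympForm_add_left sympForm_add_right sympForm_smul_left sympForm_smul_right sympForm_eq_zero_iff mem_symplecticGroup_iff_preserves exists_symp_isometry sympTransvection_mulVec sympTransvection_mem)

variable {F : Type*} [Field F]

/-- A projective quotient is described by a complement to the scalars. -/
theorem proj_of_hom {ι : Type} [Fintype ι] [DecidableEq ι] {X : Type*} [Group X] (H : Subgroup (GL ι F)) (f : X →* GL ι F) (hf : ∀ x, f x ∈ H)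
    (hinj : ∀ x, f x ∈ Geo.scalars ι F → x = 1)
    (hsurj : ∀ h ∈ H, ∃ (d : Fˣ) (x : X), (h : Matrix ι ι F) = (d : F) • ((f x : GL ι F) : Matrix ι ι F)) :
    Nonempty (projQuot H ≃* X) := by
  let f' : X →* H := f.codRestrict H hf
  let φ : X →* projQuot H := (QuotientGroup.mk' _).comp f'
  have hφi : Function.Injective φ := by
    rw [injective_iff_map_eq_one]
    intro x hx
    apply hinj
    have h1 : f' x ∈ (Geo.scalars ι F).subgroupOf H := (QuotientGroup.eq_one_iff _).1 hx
    exact Subgroup.mem_subgroupOf.1 h1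
  have hφs : Function.Surjective φ := by
    intro y
    obtain ⟨h, rfl⟩ := QuotientGroup.mk_surjective y
    obtain ⟨d, x, hx⟩ := hsurj h.1 h.2
    refine ⟨x, ?_⟩
    apply (QuotientGroup.eq).2
    rw [Subgroup.mem_subgroupOf, Geo.mem_scalars_iff]
    refine ⟨d, ?_⟩
    have h3 : ((h : GL ι F) : Matrix ι ι F) = (d : F) • ((f x : GL ι F) : Matrix ι ι F) := hx
    change (((f x)⁻¹ * h.1 : GL ι F) : Matrix ι ι F) = _
    rw [Units.val_mul, h3, Matrix.mul_smul, ← Units.val_mul, inv_mul_cancel, Units.val_one]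
  exact ⟨(MulEquiv.ofBijective φ ⟨hφi, hφs⟩).symm⟩

section char2

variable [Fintype F] [CharP F 2] {n : ℕ}

lemma two_eq' : (2 : F) = 0 := by exact_mod_cast CharP.cast_eq_zero F 2

/-- The square root in a finite field of characteristic two. -/
noncomputable def rt : F ≃+* F := (frobeniusEquiv F 2).symm

lemma rt_sq (a : F) : (rt a) ^ 2 = a := by
  have := frobenius_apply_frobeniusEquiv_symm F 2 a
  simpa [rt, frobenius_def] using this

lemma rt_pow (a : F) : rt (a ^ 2) = a := by
  have := frobeniusEquiv_symm_apply_frobenius F 2 a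
  simpa [rt, frobenius_def] using this

lemma sq_inj' {a b : F} (h : a ^ 2 = b ^ 2) : a = b := by
  have := congrArg rt h
  rwa [rt_pow, rt_pow] at this

lemma exists_sqrt (c : Fˣ) : ∃ d : Fˣ, (d : F) ^ 2 = c := by
  have h : rt (c : F) ≠ 0 := by
    intro h0
    have := rt_sq (c : F)
    rw [h0] at this
    exact c.ne_zero (by rw [← this]; simp)
  exact ⟨Units.mk0 _ h, rt_sq _⟩

/-- The linear functional attached to a symmetric form in characteristic two. -/
noncomputable def ell (G : Matrix (Fin n) (Fin n) F) (hG : Gᵀ = G) : (Fin n → F) →ₗ[F] F where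
  toFun x := rt (bf G x x)
  map_add' x y := by
    rw [← map_add]
    congr 1
    rw [bf_add_left, bf_add_right, bf_add_right, bf_symm hG y x]
    have h2 := two_eq' (F := F)
    linear_combination (bf G x y) * h2
  map_smul' c x := by
    have h : bf G (c • x) (c • x) = c ^ 2 * bf G x x := by
      simp only [bf, Matrix.mulVec_smul, dotProduct_smul, smul_dotProduct, smul_eq_mul]
      ring
    simp only [RingHom.id_apply, smul_eq_mul]
    rw [h, map_mul, rt_pow]

lemma ell_sq (G : Matrix (Fin n) (Fin n) F) (hG : Gᵀ = G) (x : Fin n → F) : (ell G hG x) ^ 2 = bf G x x := rt_sq _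

lemma exists_u (G : GL (Fin n) F) (hG : (G : Matrix (Fin n) (Fin n) F)ᵀ = G) :
    ∃ u : Fin n → F, ∀ x, bf (G : Matrix (Fin n) (Fin n) F) u x = ell _ hG x := by
  let L : Fin n → F := fun i => ell _ hG (Pi.single i 1)
  refine ⟨((G⁻¹ : GL (Fin n) F) : Matrix (Fin n) (Fin n) F)ᵀ *ᵥ L, fun x => ?_⟩
  simp only [bf]
  rw [Matrix.mulVec_transpose, ← Matrix.dotProduct_mulVec, Matrix.mulVec_mulVec, mat_inv_mul, Matrix.one_mulVec]
  have h1 := LinearMap.pi_apply_eq_sum_univ (ell _ hG) x
  rw [h1]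
  simp only [dotProduct, L, smul_eq_mul]
  refine Finset.sum_congr rfl fun i _ => ?_
  rw [mul_comm]
  congr 2
  funext j
  simp [Pi.single_apply, eq_comm]

lemma bf_smul_left (c : F) (G : Matrix (Fin n) (Fin n) F) (a b : Fin n → F) : bf G (c • a) b = c * bf G a b := by
  simp [bf, smul_dotProduct]

lemma bf_smul_right (c : F) (G : Matrix (Fin n) (Fin n) F) (a b : Fin n → F) : bf G a (c • b) = c * bf G a b := by
  simp [bf, Matrix.mulVec_smul, dotProduct_smul]

lemma bf_sub_left (G : Matrix (Fin n) (Fin n) F) (a a' b : Fin n → F) : bf G (a - a') b = bf G a b - bf G a' b := by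
  simp [bf, sub_dotProduct]

lemma bf_sub_right (G : Matrix (Fin n) (Fin n) F) (a b b' : Fin n → F) : bf G a (b - b') = bf G a b - bf G a b' := by
  simp [bf, Matrix.mulVec_sub, dotProduct_sub]

lemma bf_nondeg (G : GL (Fin n) F) (x : Fin n → F) (hx : ∀ y, bf (G : Matrix (Fin n) (Fin n) F) x y = 0) : x = 0 := by
  funext i
  have h3 := hx (((G⁻¹ : GL (Fin n) F) : Matrix (Fin n) (Fin n) F) *ᵥ Pi.single i 1)
  simp only [bf] at h3
  rw [Matrix.mulVec_mulVec, mat_mul_inv, Matrix.one_mulVec, dotProduct_single, mul_one] at h3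
  exact h3

lemma ell_u_cases (G : GL (Fin n) F) (hG : (G : Matrix (Fin n) (Fin n) F)ᵀ = G) {u : Fin n → F} (hu : ∀ x, bf (G : Matrix (Fin n) (Fin n) F) u x = ell _ hG x) :
    ell _ hG u = 0 ∨ ell _ hG u = 1 := by
  have h1 := ell_sq _ hG u
  rw [hu] at h1
  have h3 : ell _ hG u * (ell _ hG u - 1) = 0 := by linear_combination h1
  rcases mul_eq_zero.1 h3 with h | h
  · exact Or.inl h
  · exact Or.inr (sub_eq_zero.1 h)

/-- An alternating non-degenerate form lives in even dimension. -/
theorem alt_even {V : Type*} [AddCommGroup V] [Module F V] [FiniteDimensional F V] (B : LinearMap.BilinForm F V) (hB : B.Nondegenerate) (hA : B.IsAlt) :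
    Even (finrank F V) := by
  obtain ⟨m', k, b, h1, h2, h3, h4⟩ := Cfsg.Agent.S0752.result B hA
  have hk : k = 0 := by
    by_contra hk
    have hpos : 0 < k := Nat.pos_of_ne_zero hk
    have h0 := hB.1 (b (Sum.inr ⟨0, hpos⟩)) (h4 ⟨0, hpos⟩)
    exact b.ne_zero _ h0
  subst hk
  have := Module.finrank_eq_card_basis b
  simp at this
  rw [this]
  exact ⟨m', by ring⟩

/-- The alternating form attached to a symmetric form. -/
noncomputable def altL (G : Matrix (Fin n) (Fin n) F) (hG : Gᵀ = G) : LinearMap.BilinForm F (Fin n → F) :=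
  Matrix.toBilin' G + (LinearMap.mul F F).compl₁₂ (ell G hG) (ell G hG)

lemma altL_apply (G : Matrix (Fin n) (Fin n) F) (hG : Gᵀ = G) (x y : Fin n → F) : altL G hG x y = bf G x y + ell G hG x * ell G hG y := by
  simp [altL, bf, Matrix.toBilin'_apply']

lemma altL_alt (G : Matrix (Fin n) (Fin n) F) (hG : Gᵀ = G) : (altL G hG).IsAlt := by
  intro x
  rw [altL_apply, ← ell_sq G hG]
  have h2 := two_eq' (F := F)
  linear_combination (ell G hG x) ^ 2 * h2

/-- In even characteristic the functional has value `0` on the characteristic vector if the dimension is odd ... -/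
lemma even_of_ell_u_zero (G : GL (Fin n) F) (hG : (G : Matrix (Fin n) (Fin n) F)ᵀ = G) {u : Fin n → F} (hu : ∀ x, bf (G : Matrix (Fin n) (Fin n) F) u x = ell _ hG x)
    (h0 : ell _ hG u = 0) : Even n ∧ (altL (G : Matrix (Fin n) (Fin n) F) hG).Nondegenerate := by
  have hA := altL_alt (G : Matrix (Fin n) (Fin n) F) hG
  have key : ∀ x, (∀ y, altL (G : Matrix (Fin n) (Fin n) F) hG x y = 0) → x = 0 := by
    intro x hx
    have h1 : x + ell _ hG x • u = 0 := by
      apply bf_nondeg G
      intro y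
      have h3 := hx y
      rw [altL_apply] at h3
      rw [bf_add_left, bf_smul_left, hu, h3]
    have h3 := congrArg (ell _ hG) h1
    rw [map_add, map_smul, h0, smul_zero, add_zero, map_zero] at h3
    rw [h3, zero_smul, add_zero] at h1
    exact h1
  have hB : (altL (G : Matrix (Fin n) (Fin n) F) hG).Nondegenerate := by
    refine ⟨key, fun y hy => key y fun x => ?_⟩
    have h3 := hy x
    rw [altL_apply] at h3 ⊢
    rw [bf_symm hG, mul_comm]
    exact h3
  have := alt_even _ hB hA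
  simp at this
  exact ⟨this, hB⟩

lemma restrict_apply' (G : Matrix (Fin n) (Fin n) F) (W : Submodule F (Fin n → F)) (a b : W) :
    ((Matrix.toBilin' G).restrict W) a b = bf G a b := by
  change Matrix.toBilin' G (a : Fin n → F) (b : Fin n → F) = _
  rw [Matrix.toBilin'_apply']
  rfl

/-- The kernel of the functional, with the restricted form. -/
lemma ker_props (G : GL (Fin n) F) (hG : (G : Matrix (Fin n) (Fin n) F)ᵀ = G) {u : Fin n → F} (hu : ∀ x, bf (G : Matrix (Fin n) (Fin n) F) u x = ell _ hG x)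
    (h1 : ell _ hG u = 1) :
    let W := LinearMap.ker (ell _ hG)
    let BW := (Matrix.toBilin' (G : Matrix (Fin n) (Fin n) F)).restrict W
    BW.Nondegenerate ∧ BW.IsAlt ∧ finrank F W + 1 = n := by
  intro W BW
  have hmem : ∀ x, x - ell _ hG x • u ∈ W := by
    intro x
    rw [LinearMap.mem_ker, map_sub, map_smul, h1, smul_eq_mul, mul_one, sub_self]
  have hBW : ∀ a b : W, BW a b = bf (G : Matrix (Fin n) (Fin n) F) a b := fun a b => restrict_apply' _ _ _ _
  have key : ∀ x : W, (∀ y : W, BW x y = 0) → x = 0 := by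
    intro x hx
    have hx0 : ell _ hG (x : Fin n → F) = 0 := x.2
    apply Subtype.ext
    apply bf_nondeg G
    intro y
    have h3 := hx ⟨_, hmem y⟩
    rw [hBW] at h3
    have h4 : y = (y - ell _ hG y • u) + ell _ hG y • u := by abel
    rw [h4, bf_add_right, h3, zero_add]
    simp only [bf, Matrix.mulVec_smul, dotProduct_smul, smul_eq_mul]
    have h5 := bf_symm hG (x : Fin n → F) u
    rw [hu, hx0] at h5
    simp only [bf] at h5
    rw [h5, mul_zero]
  refine ⟨⟨key, fun y hy => key y fun x => ?_⟩, ?_, ?_⟩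
  · have h3 := hy x
    rw [hBW] at h3 ⊢
    rw [bf_symm hG]
    exact h3
  · intro x
    rw [hBW, ← ell_sq _ hG]
    have hx0 : ell _ hG (x : Fin n → F) = 0 := x.2
    rw [hx0]
    simp
  · have h3 := LinearMap.finrank_range_add_finrank_ker (ell _ hG)
    have h4 : LinearMap.range (ell (G : Matrix (Fin n) (Fin n) F) hG) = ⊤ := by
      rw [LinearMap.range_eq_top]
      intro c
      exact ⟨c • u, by rw [map_smul, h1, smul_eq_mul, mul_one]⟩
    rw [h4] at h3
    simp at h3
    change finrank F (LinearMap.ker (ell (G : Matrix (Fin n) (Fin n) F) hG)) + 1 = n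
    omega

/-- The standard symmetric form on an odd dimensional space in characteristic two. -/
def B0 (m : ℕ) (F : Type*) [Field F] (x y : Unit ⊕ (Fin m ⊕ Fin m) → F) : F :=
  x (Sum.inl ()) * y (Sum.inl ()) + Cfsg.sympForm m F (fun i => x (Sum.inr i)) (fun i => y (Sum.inr i))

/-- Classification in odd dimension, assembling the parts. -/
theorem odd_std_aux {m : ℕ} (G : GL (Fin n) F) (hG : (G : Matrix (Fin n) (Fin n) F)ᵀ = G) {u : Fin n → F} (hu : ∀ x, bf (G : Matrix (Fin n) (Fin n) F) u x = ell _ hG x)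
    (h1 : ell _ hG u = 1) (W : Submodule F (Fin n → F)) (hW : ∀ x, x ∈ W ↔ ell _ hG x = 0) (θW : W ≃ₗ[F] (Fin m ⊕ Fin m → F))
    (hθW : ∀ a b : W, Cfsg.sympForm m F (θW a) (θW b) = bf (G : Matrix (Fin n) (Fin n) F) a b) :
    ∃ θ : (Fin n → F) ≃ₗ[F] (Unit ⊕ (Fin m ⊕ Fin m) → F), ∀ x y, B0 m F (θ x) (θ y) = bf (G : Matrix (Fin n) (Fin n) F) x y := by
  classical
  have hmem : ∀ x, x - ell _ hG x • u ∈ W := by
    intro x
    rw [hW, map_sub, map_smul, h1, smul_eq_mul, mul_one, sub_self]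
  let pr : (Fin n → F) →ₗ[F] W := LinearMap.codRestrict W (LinearMap.id - (ell _ hG).smulRight u) (fun x => hmem x)
  have hpr : ∀ x, ((pr x : W) : Fin n → F) = x - ell _ hG x • u := fun x => rfl
  let θ : (Fin n → F) ≃ₗ[F] (Unit ⊕ (Fin m ⊕ Fin m) → F) :=
    { toFun := fun x => Sum.elim (fun _ => ell _ hG x) (θW (pr x))
      map_add' := by
        intro x y
        funext i
        rcases i with i | i <;> simp
      map_smul' := by
        intro c x
        funext i
        rcases i with i | i <;> simp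
      invFun := fun y => y (Sum.inl ()) • u + ((θW.symm (fun i => y (Sum.inr i)) : W) : Fin n → F)
      left_inv := by
        intro x
        simp only [Sum.elim_inl, Sum.elim_inr, LinearEquiv.symm_apply_apply]
        rw [hpr]
        abel
      right_inv := by
        intro y
        have hz : ell (G : Matrix (Fin n) (Fin n) F) hG ((θW.symm (fun i => y (Sum.inr i)) : W) : Fin n → F) = 0 := (hW _).1 (θW.symm (fun i => y (Sum.inr i)) : W).2
        have h3 : ell (G : Matrix (Fin n) (Fin n) F) hG (y (Sum.inl ()) • u + ((θW.symm (fun i => y (Sum.inr i)) : W) : Fin n → F)) = y (Sum.inl ()) := by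
          rw [map_add, map_smul, h1, hz, smul_eq_mul, mul_one, add_zero]
        have h4 : pr (y (Sum.inl ()) • u + ((θW.symm (fun i => y (Sum.inr i)) : W) : Fin n → F)) = θW.symm (fun i => y (Sum.inr i)) := by
          apply Subtype.ext
          rw [hpr, h3]
          abel
        funext i
        rcases i with i | i
        · simpa using h3
        · simp only [Sum.elim_inr]
          rw [h4]
          simp }
  have hθ1 : ∀ x, θ x (Sum.inl ()) = ell _ hG x := fun x => rfl
  have hθ2 : ∀ x, (fun i => θ x (Sum.inr i)) = θW (pr x) := fun x => rfl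
  refine ⟨θ, fun x y => ?_⟩
  rw [B0, hθ1, hθ1, hθ2, hθ2, hθW, hpr, hpr]
  rw [bf_sub_left, bf_sub_right, bf_sub_right, bf_smul_left, bf_smul_right, bf_smul_right, bf_smul_left, bf_symm hG x u, hu, hu, hu, h1]
  ring

/-- Classification in odd dimension. -/
theorem odd_std {m : ℕ} (hn : n = 2 * m + 1) (G : GL (Fin n) F) (hG : (G : Matrix (Fin n) (Fin n) F)ᵀ = G) :
    ∃ θ : (Fin n → F) ≃ₗ[F] (Unit ⊕ (Fin m ⊕ Fin m) → F), ∀ x y, B0 m F (θ x) (θ y) = bf (G : Matrix (Fin n) (Fin n) F) x y := by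
  classical
  obtain ⟨u, hu⟩ := exists_u G hG
  have h1 : ell _ hG u = 1 := by
    rcases ell_u_cases G hG hu with h | h
    · have := (even_of_ell_u_zero G hG hu h).1
      rw [hn] at this
      exact absurd this (by simp [Nat.even_add_one])
    · exact h
  obtain ⟨hB, hA, hd⟩ := ker_props G hG hu h1
  obtain ⟨θW, hθW⟩ := exists_symp_isometry _ hB hA m (by omega)
  exact odd_std_aux G hG hu h1 _ (fun x => LinearMap.mem_ker) θW (fun a b => (hθW a b).trans (restrict_apply' _ _ _ _))

/-- The block embedding of the symplectic group. -/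
noncomputable def bk (m : ℕ) : Matrix.symplecticGroup (Fin m) F →* GL (Unit ⊕ (Fin m ⊕ Fin m)) F :=
  MonoidHom.toHomUnits
    { toFun := fun s => Matrix.fromBlocks 1 0 0 (s : Matrix (Fin m ⊕ Fin m) (Fin m ⊕ Fin m) F)
      map_one' := by simp
      map_mul' := fun a b => by
        rw [Matrix.fromBlocks_multiply]
        simp }

lemma bk_coe (m : ℕ) (s : Matrix.symplecticGroup (Fin m) F) :
    ((bk m s : GL (Unit ⊕ (Fin m ⊕ Fin m)) F) : Matrix (Unit ⊕ (Fin m ⊕ Fin m)) (Unit ⊕ (Fin m ⊕ Fin m)) F) = Matrix.fromBlocks 1 0 0 (s : Matrix (Fin m ⊕ Fin m) (Fin m ⊕ Fin m) F) := rfl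

lemma bk_inl (m : ℕ) (s : Matrix.symplecticGroup (Fin m) F) (x : Unit ⊕ (Fin m ⊕ Fin m) → F) :
    (((bk m s : GL (Unit ⊕ (Fin m ⊕ Fin m)) F) : Matrix (Unit ⊕ (Fin m ⊕ Fin m)) (Unit ⊕ (Fin m ⊕ Fin m)) F) *ᵥ x) (Sum.inl ()) = x (Sum.inl ()) := by
  rw [bk_coe]
  simp [Matrix.mulVec, dotProduct, Fintype.sum_sum_type, Matrix.one_apply]

lemma bk_inr (m : ℕ) (s : Matrix.symplecticGroup (Fin m) F) (x : Unit ⊕ (Fin m ⊕ Fin m) → F) :
    (fun i => (((bk m s : GL (Unit ⊕ (Fin m ⊕ Fin m)) F) : Matrix (Unit ⊕ (Fin m ⊕ Fin m)) (Unit ⊕ (Fin m ⊕ Fin m)) F) *ᵥ x) (Sum.inr i)) = (s : Matrix (Fin m ⊕ Fin m) (Fin m ⊕ Fin m) F) *ᵥ (fun i => x (Sum.inr i)) := by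
  rw [bk_coe]
  funext i
  simp [Matrix.mulVec, dotProduct, Fintype.sum_sum_type (α₁ := Unit)]

lemma B0_self (m : ℕ) (x : Unit ⊕ (Fin m ⊕ Fin m) → F) : B0 m F x x = (x (Sum.inl ())) ^ 2 := by
  rw [B0, sympForm_self, add_zero, sq]

lemma e0_inr (m : ℕ) : (fun i => (Pi.single (Sum.inl ()) (1 : F) : Unit ⊕ (Fin m ⊕ Fin m) → F) (Sum.inr i)) = 0 := by
  funext i
  simp

lemma B0_nondeg (m : ℕ) (z : Unit ⊕ (Fin m ⊕ Fin m) → F) (h : ∀ y, B0 m F z y = 0) : z = 0 := by
  have h1 : z (Sum.inl ()) = 0 := by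
    have := h (Pi.single (Sum.inl ()) 1)
    rw [B0, e0_inr] at this
    simpa [Cfsg.sympForm] using this
  have h2 : (fun i => z (Sum.inr i)) = 0 := by
    apply sympForm_eq_zero_iff
    intro u
    have := h (Sum.elim (fun _ => 0) u)
    rw [B0, h1, zero_mul, zero_add] at this
    rw [sympForm_flip]
    simp only [Sum.elim_inr] at this
    rw [this, neg_zero]
  funext i
  rcases i with i | i
  · exact h1
  · exact congrFun h2 i

/-- The projective similarity group of the standard form is the symplectic group. -/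
theorem proj_B0 (m : ℕ) : Nonempty (projQuot (Geo.similarityGroup (B0 m F)) ≃* Matrix.symplecticGroup (Fin m) F) := by
  classical
  apply proj_of_hom _ (bk m)
  · intro s
    refine ⟨1, fun x y => ?_⟩
    rw [B0, bk_inl, bk_inl, bk_inr, bk_inr, Units.val_one, one_mul, B0]
    congr 1
    exact mem_symplecticGroup_iff_preserves.1 s.2 _ _
  · intro s hs
    rw [Geo.mem_scalars_iff] at hs
    obtain ⟨c, hc⟩ := hs
    rw [bk_coe] at hc
    have h1 := congrFun (congrFun hc (Sum.inl ())) (Sum.inl ())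
    simp at h1
    apply Subtype.ext
    have h2 : (c : F) = 1 := h1.symm
    ext i j
    have h3 := congrFun (congrFun hc (Sum.inr i)) (Sum.inr j)
    simpa [h2, Matrix.one_apply] using h3
  · rintro h ⟨c, hc⟩
    obtain ⟨d, hd⟩ := exists_sqrt c
    set M : Matrix (Unit ⊕ (Fin m ⊕ Fin m)) (Unit ⊕ (Fin m ⊕ Fin m)) F := (h : Matrix (Unit ⊕ (Fin m ⊕ Fin m)) (Unit ⊕ (Fin m ⊕ Fin m)) F) with hM
    have k1 : ∀ x, (M *ᵥ x) (Sum.inl ()) = (d : F) * x (Sum.inl ()) := by
      intro x
      apply sq_inj'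
      have h1 := hc x x
      rw [B0_self, B0_self, ← hd] at h1
      rw [mul_pow]
      exact h1
    let e₀ : Unit ⊕ (Fin m ⊕ Fin m) → F := Pi.single (Sum.inl ()) 1
    have hB0e : ∀ y, B0 m F e₀ y = y (Sum.inl ()) := by
      intro y
      rw [B0, e0_inr]
      simp [e₀, Cfsg.sympForm]
    have hB0sub : ∀ a b y, B0 m F (a - b) y = B0 m F a y - B0 m F b y := by
      intro a b y
      simp only [B0]
      have : (fun i => (a - b) (Sum.inr i)) = (fun i => a (Sum.inr i)) - (fun i => b (Sum.inr i)) := rfl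
      rw [this]
      simp only [Cfsg.sympForm, sub_dotProduct, Pi.sub_apply]
      ring
    have hB0sm : ∀ (t : F) a y, B0 m F (t • a) y = t * B0 m F a y := by
      intro t a y
      simp only [B0]
      have : (fun i => (t • a) (Sum.inr i)) = t • (fun i => a (Sum.inr i)) := rfl
      rw [this]
      simp only [Cfsg.sympForm, smul_dotProduct, Pi.smul_apply, smul_eq_mul]
      ring
    have k2 : M *ᵥ e₀ = (d : F) • e₀ := by
      rw [← sub_eq_zero]
      apply B0_nondeg m
      intro y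
      have hy : y = M *ᵥ (((h⁻¹ : GL _ F) : Matrix (Unit ⊕ (Fin m ⊕ Fin m)) (Unit ⊕ (Fin m ⊕ Fin m)) F) *ᵥ y) := by
        rw [Matrix.mulVec_mulVec, hM, ← Units.val_mul, mul_inv_cancel, Units.val_one, Matrix.one_mulVec]
      rw [hy]
      set y' := ((h⁻¹ : GL _ F) : Matrix (Unit ⊕ (Fin m ⊕ Fin m)) (Unit ⊕ (Fin m ⊕ Fin m)) F) *ᵥ y
      rw [hB0sub, hB0sm, hB0e, k1, hc, hB0e, ← hd]
      ring
    have ke : ∀ a, M (Sum.inr a) (Sum.inl ()) = 0 := by
      intro a
      have h1 := congrFun k2 (Sum.inr a)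
      simpa [e₀, Matrix.mulVec_single_one] using h1
    have ke0 : M (Sum.inl ()) (Sum.inl ()) = d := by
      have h1 := congrFun k2 (Sum.inl ())
      simpa [e₀, Matrix.mulVec_single_one] using h1
    have kb : ∀ b, M (Sum.inl ()) (Sum.inr b) = 0 := by
      intro b
      have h1 := k1 (Pi.single (Sum.inr b) 1)
      simpa [Matrix.mulVec_single_one] using h1
    let s₀ : Matrix (Fin m ⊕ Fin m) (Fin m ⊕ Fin m) F := M.submatrix Sum.inr Sum.inr
    have hs₀ : ∀ w : Fin m ⊕ Fin m → F, (fun i => (M *ᵥ (Sum.elim (fun _ => 0) w)) (Sum.inr i)) = s₀ *ᵥ w := by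
      intro w
      funext i
      simp [Matrix.mulVec, dotProduct, Fintype.sum_sum_type (α₁ := Unit), s₀]
    have hs₀0 : ∀ w : Fin m ⊕ Fin m → F, (M *ᵥ (Sum.elim (fun _ => 0) w)) (Sum.inl ()) = 0 := by
      intro w
      rw [k1]
      simp
    have hpres : ∀ w w', Cfsg.sympForm m F (s₀ *ᵥ w) (s₀ *ᵥ w') = (c : F) * Cfsg.sympForm m F w w' := by
      intro w w'
      have h1 := hc (Sum.elim (fun _ => 0) w) (Sum.elim (fun _ => 0) w')
      rw [B0, B0, hs₀, hs₀, hs₀0] at h1
      simpa using h1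
    have hdne : (d : F) ≠ 0 := d.ne_zero
    have hmem : ((d⁻¹ : Fˣ) : F) • s₀ ∈ Matrix.symplecticGroup (Fin m) F := by
      rw [mem_symplecticGroup_iff_preserves]
      intro u v
      rw [Matrix.smul_mulVec, Matrix.smul_mulVec, sympForm_smul_left, sympForm_smul_right, hpres, ← hd]
      simp only [Units.val_inv_eq_inv_val]
      field_simp
    refine ⟨d, ⟨_, hmem⟩, ?_⟩
    rw [bk_coe]
    ext i j
    rcases i with ⟨⟩ | i <;> rcases j with ⟨⟩ | j
    · simpa using ke0
    · simpa using kb j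
    · simpa using ke i
    · simp [s₀, hM, hdne]

/-- Similarities of a quadratic form are isometries up to scalars. -/
theorem proj_isometry {ι : Type} [Fintype ι] [DecidableEq ι] (Q : (ι → F) → F) (hQs : ∀ (c : F) v, Q (c • v) = c ^ 2 * Q v) (hQ : ∃ v, Q v ≠ 0) :
    Nonempty (projQuot (Geo.quadSimilarityGroup Q) ≃* isometryGroup F Q) := by
  classical
  apply proj_of_hom _ (isometryGroup F Q).subtype
  · intro s
    exact ⟨1, fun v => by
      have := s.2 v v
      simpa using this⟩
  · intro s hs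
    obtain ⟨c, hc⟩ := (Geo.mem_scalars_iff _).1 hs
    obtain ⟨v, hv⟩ := hQ
    have h1 := s.2 v v
    change Q (((s : GL ι F) : Matrix ι ι F) *ᵥ v) = Q v at h1
    have hc' : ((s : GL ι F) : Matrix ι ι F) = (c : F) • 1 := hc
    rw [hc', Matrix.smul_mulVec, Matrix.one_mulVec, hQs] at h1
    have h2 : ((c : F)) ^ 2 = 1 ^ 2 := by
      rw [one_pow]
      exact mul_right_cancel₀ hv (by rw [h1, one_mul])
    have h3 := sq_inj' h2
    apply Subtype.ext
    apply Units.ext
    rw [hc', h3, one_smul]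
    rfl
  · rintro h ⟨c, hc⟩
    obtain ⟨d, hd⟩ := exists_sqrt c
    refine ⟨d, ⟨(sc d⁻¹) * h, ?_⟩, ?_⟩
    · intro u v
      change Q (((sc d⁻¹ * h : GL ι F) : Matrix ι ι F) *ᵥ u) = Q u
      rw [Units.val_mul, sc_coe, Matrix.smul_mul, Matrix.one_mul, Matrix.smul_mulVec, hQs, hc, ← hd, ← mul_assoc, ← mul_pow]
      simp
    · change (h : Matrix ι ι F) = (d : F) • ((sc d⁻¹ * h : GL ι F) : Matrix ι ι F)
      rw [Units.val_mul, sc_coe, Matrix.smul_mul, Matrix.one_mul, smul_smul]
      simp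

end char2

end Cfsg.Agent.Lib.Known3.Graph
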