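import Mathlib
import Cfsg.Agent.Lib.Known3.GraphChar2

/-! Graph automorphisms of `PSL_n`, `n` even, characteristic two. -/

set_option autoImplicit false
set_option linter.unusedVariables false
set_option linter.unusedSectionVars false

namespace Cfsg.Agent.Lib.Known3.Graph

open Matrix Module Cfsg
open scoped MatrixGroups
open Cfsg.Agent.Lib.AutPSL Cfsg.Agent.Lib.Known3.FieldAut Cfsg.Agent.Lib.Known3.QuadIso Cfsg.Agent.Lib.Classical.Abs
open Cfsg.Agent.Lib.Classical (sympForm_self sympForm_flip sympForm_add_left sympForm_add_right sympForm_smul_left sympForm_smul_right sympForm_eq_zero_iff mem_symplecticGroup_iff_preserves exists_symp_isometry sympTransvection_mulVec sympTransvection_mem)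

variable {F : Type*} [Field F] {m : ℕ}

local notation "ff" => Cfsg.sympForm m F

/-- Two vectors with a nonzero pairing are moved one to another. -/
lemma exists_sp_of_pair {w w' : Fin m ⊕ Fin m → F} (h : ff w w' ≠ 0) :
    ∃ s : Matrix.symplecticGroup (Fin m) F, (s : Matrix (Fin m ⊕ Fin m) (Fin m ⊕ Fin m) F) *ᵥ w = w' := by
  refine ⟨⟨_, sympTransvection_mem (w - w') (ff w w')⁻¹⟩, ?_⟩
  change Cfsg.sympTransvection m (w - w') (ff w w')⁻¹ *ᵥ w = w'
  rw [sympTransvection_mulVec]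
  have h1 : ff w (w - w') = - ff w w' := by
    rw [sub_eq_add_neg, sympForm_add_right, sympForm_self, zero_add]
    have : -w' = (-1 : F) • w' := by simp
    rw [this, sympForm_smul_right]
    ring
  rw [h1, mul_neg, inv_mul_cancel₀ h, neg_one_smul]
  abel

/-- The symplectic group is transitive on non-zero vectors. -/
theorem exists_sp_trans {w w' : Fin m ⊕ Fin m → F} (hw : w ≠ 0) (hw' : w' ≠ 0) :
    ∃ s : Matrix.symplecticGroup (Fin m) F, (s : Matrix (Fin m ⊕ Fin m) (Fin m ⊕ Fin m) F) *ᵥ w = w' := by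
  have hne : ∀ x : Fin m ⊕ Fin m → F, x ≠ 0 → ∃ a, ff x a ≠ 0 := by
    intro x hx
    by_contra h
    push Not at h
    apply hx
    apply sympForm_eq_zero_iff
    intro u
    rw [sympForm_flip, h u, neg_zero]
  obtain ⟨a, ha⟩ := hne w hw
  obtain ⟨b, hb⟩ := hne w' hw'
  obtain ⟨z, hz, hz'⟩ : ∃ z, ff w z ≠ 0 ∧ ff w' z ≠ 0 := by
    by_cases h1 : ff w' a = 0
    · by_cases h2 : ff w b = 0
      · refine ⟨a + b, ?_, ?_⟩
        · rw [sympForm_add_right, h2, add_zero]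
          exact ha
        · rw [sympForm_add_right, h1, zero_add]
          exact hb
      · exact ⟨b, h2, hb⟩
    · exact ⟨a, ha, h1⟩
  obtain ⟨s, hs⟩ := exists_sp_of_pair hz
  obtain ⟨s', hs'⟩ := exists_sp_of_pair (w := z) (w' := w') (by
    rw [sympForm_flip]
    exact neg_ne_zero.2 hz')
  refine ⟨s' * s, ?_⟩
  change ((s' : Matrix (Fin m ⊕ Fin m) (Fin m ⊕ Fin m) F) * (s : Matrix (Fin m ⊕ Fin m) (Fin m ⊕ Fin m) F)) *ᵥ w = w'
  rw [← Matrix.mulVec_mulVec, hs, hs']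

section char2

variable [Fintype F] [CharP F 2] {n : ℕ}

/-- The functional vanishes on the characteristic vector in even dimension. -/
lemma ell_u_zero (hn : n = 2 * m) (G : GL (Fin n) F) (hG : (G : Matrix (Fin n) (Fin n) F)ᵀ = G) {u : Fin n → F} (hu : ∀ x, bf (G : Matrix (Fin n) (Fin n) F) u x = ell _ hG x) :
    ell _ hG u = 0 := by
  rcases ell_u_cases G hG hu with h | h
  · exact h
  · exfalso
    obtain ⟨hB, hA, hd⟩ := ker_props G hG hu h
    have := alt_even _ hB hA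
    obtain ⟨r, hr⟩ := this
    omega

/-- Data for a non-alternating form: the alternating form and the characteristic vector, in standard coordinates. -/
structure NA (G : GL (Fin n) F) (hG : (G : Matrix (Fin n) (Fin n) F)ᵀ = G) where
  u : Fin n → F
  hu : ∀ x, bf (G : Matrix (Fin n) (Fin n) F) u x = ell _ hG x
  θ : (Fin n → F) ≃ₗ[F] (Fin m ⊕ Fin m → F)
  hθ : ∀ x y, Cfsg.sympForm m F (θ x) (θ y) = bf (G : Matrix (Fin n) (Fin n) F) x y + ell _ hG x * ell _ hG y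
  h0 : ell _ hG u = 0

lemma exists_NA (hn : n = 2 * m) (G : GL (Fin n) F) (hG : (G : Matrix (Fin n) (Fin n) F)ᵀ = G) : Nonempty (NA (m := m) G hG) := by
  obtain ⟨u, hu⟩ := exists_u G hG
  have h0 := ell_u_zero hn G hG hu
  obtain ⟨-, hB⟩ := even_of_ell_u_zero G hG hu h0
  obtain ⟨θ, hθ⟩ := exists_symp_isometry _ hB (altL_alt _ hG) m (by simp [hn])
  exact ⟨⟨u, hu, θ, fun x y => by rw [hθ, altL_apply], h0⟩⟩

lemma NA.ell_eq {G : GL (Fin n) F} {hG : (G : Matrix (Fin n) (Fin n) F)ᵀ = G} (D : NA (m := m) G hG) (x : Fin n → F) :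
    Cfsg.sympForm m F (D.θ D.u) (D.θ x) = ell _ hG x := by
  rw [D.hθ, D.hu, D.h0, zero_mul, add_zero]

/-- Non-alternating forms are equivalent. -/
theorem NA_equiv {G G' : GL (Fin n) F} {hG : (G : Matrix (Fin n) (Fin n) F)ᵀ = G} {hG' : (G' : Matrix (Fin n) (Fin n) F)ᵀ = G'}
    (D : NA (m := m) G hG) (D' : NA (m := m) G' hG') (hu : D.u ≠ 0) (hu' : D'.u ≠ 0) :
    ∃ φ : (Fin n → F) ≃ₗ[F] (Fin n → F), ∀ x y, bf (G : Matrix (Fin n) (Fin n) F) x y = bf (G' : Matrix (Fin n) (Fin n) F) (φ x) (φ y) := by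
  classical
  have hw : D.θ D.u ≠ 0 := fun h => hu (D.θ.map_eq_zero_iff.1 h)
  have hw' : D'.θ D'.u ≠ 0 := fun h => hu' (D'.θ.map_eq_zero_iff.1 h)
  obtain ⟨s, hs⟩ := exists_sp_trans hw hw'
  have hsp : ∀ a b, Cfsg.sympForm m F ((s : Matrix (Fin m ⊕ Fin m) (Fin m ⊕ Fin m) F) *ᵥ a) ((s : Matrix (Fin m ⊕ Fin m) (Fin m ⊕ Fin m) F) *ᵥ b) = Cfsg.sympForm m F a b :=
    mem_symplecticGroup_iff_preserves.1 s.2
  let S : (Fin m ⊕ Fin m → F) ≃ₗ[F] (Fin m ⊕ Fin m → F) :=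
    LinearEquiv.ofLinear (Matrix.toLin' (s : Matrix (Fin m ⊕ Fin m) (Fin m ⊕ Fin m) F)) (Matrix.toLin' ((s⁻¹ : Matrix.symplecticGroup (Fin m) F) : Matrix (Fin m ⊕ Fin m) (Fin m ⊕ Fin m) F))
      (by
        rw [← Matrix.toLin'_mul, ← Submonoid.coe_mul, mul_inv_cancel]
        simp)
      (by
        rw [← Matrix.toLin'_mul, ← Submonoid.coe_mul, inv_mul_cancel]
        simp)
  have hS : ∀ a, S a = (s : Matrix (Fin m ⊕ Fin m) (Fin m ⊕ Fin m) F) *ᵥ a := fun a => rfl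
  let φ : (Fin n → F) ≃ₗ[F] (Fin n → F) := (D.θ.trans S).trans D'.θ.symm
  have hφ : ∀ x, D'.θ (φ x) = (s : Matrix (Fin m ⊕ Fin m) (Fin m ⊕ Fin m) F) *ᵥ (D.θ x) := fun x => by
    simp [φ, hS]
  have hφu : φ D.u = D'.u := by
    apply D'.θ.injective
    rw [hφ, hs]
  have hell : ∀ x, ell _ hG' (φ x) = ell _ hG x := by
    intro x
    rw [← D'.ell_eq, ← hφu, hφ, hφ, hsp, D.ell_eq]
  refine ⟨φ, fun x y => ?_⟩
  have h1 := D'.hθ (φ x) (φ y)
  rw [hφ, hφ, hsp, D.hθ, hell, hell] at h1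
  exact (add_right_cancel h1)

/-- The symplectic transvection with centre `w`. -/
def tvS (w : Fin m ⊕ Fin m → F) : Matrix.symplecticGroup (Fin m) F := ⟨Cfsg.sympTransvection m w 1, sympTransvection_mem w 1⟩

lemma tvS_mulVec (w x : Fin m ⊕ Fin m → F) : ((tvS w : Matrix.symplecticGroup (Fin m) F) : Matrix (Fin m ⊕ Fin m) (Fin m ⊕ Fin m) F) *ᵥ x = x + (Cfsg.sympForm m F x w) • w := by
  change Cfsg.sympTransvection m w 1 *ᵥ x = _
  rw [sympTransvection_mulVec, one_mul]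

lemma sp_pres (s : Matrix.symplecticGroup (Fin m) F) (a b : Fin m ⊕ Fin m → F) :
    Cfsg.sympForm m F ((s : Matrix (Fin m ⊕ Fin m) (Fin m ⊕ Fin m) F) *ᵥ a) ((s : Matrix (Fin m ⊕ Fin m) (Fin m ⊕ Fin m) F) *ᵥ b) = Cfsg.sympForm m F a b :=
  mem_symplecticGroup_iff_preserves.1 s.2 a b

/-- The centraliser of a transvection is the stabiliser of the centre (characteristic two). -/
lemma comm_tvS_iff {w : Fin m ⊕ Fin m → F} (hw : w ≠ 0) (s : Matrix.symplecticGroup (Fin m) F) :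
    s * tvS w = tvS w * s ↔ (s : Matrix (Fin m ⊕ Fin m) (Fin m ⊕ Fin m) F) *ᵥ w = w := by
  have hmv : ∀ x, (((s * tvS w : Matrix.symplecticGroup (Fin m) F) : Matrix (Fin m ⊕ Fin m) (Fin m ⊕ Fin m) F) *ᵥ x) = (s : Matrix (Fin m ⊕ Fin m) (Fin m ⊕ Fin m) F) *ᵥ x + Cfsg.sympForm m F x w • ((s : Matrix (Fin m ⊕ Fin m) (Fin m ⊕ Fin m) F) *ᵥ w) := by
    intro x
    rw [Submonoid.coe_mul, ← Matrix.mulVec_mulVec, tvS_mulVec, Matrix.mulVec_add, Matrix.mulVec_smul]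
  have hmv2 : ∀ x, (((tvS w * s : Matrix.symplecticGroup (Fin m) F) : Matrix (Fin m ⊕ Fin m) (Fin m ⊕ Fin m) F) *ᵥ x) = (s : Matrix (Fin m ⊕ Fin m) (Fin m ⊕ Fin m) F) *ᵥ x + Cfsg.sympForm m F ((s : Matrix (Fin m ⊕ Fin m) (Fin m ⊕ Fin m) F) *ᵥ x) w • w := by
    intro x
    rw [Submonoid.coe_mul, ← Matrix.mulVec_mulVec, tvS_mulVec]
  constructor
  · intro h
    have hne : ∃ a, Cfsg.sympForm m F a w = 1 := by
      have : ∃ a, Cfsg.sympForm m F a w ≠ 0 := by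
        by_contra h0
        push Not at h0
        exact hw (sympForm_eq_zero_iff h0)
      obtain ⟨a, ha⟩ := this
      refine ⟨(Cfsg.sympForm m F a w)⁻¹ • a, ?_⟩
      rw [sympForm_smul_left, inv_mul_cancel₀ ha]
    obtain ⟨a, ha⟩ := hne
    have h1 : ∀ x, Cfsg.sympForm m F x w • ((s : Matrix (Fin m ⊕ Fin m) (Fin m ⊕ Fin m) F) *ᵥ w) = Cfsg.sympForm m F ((s : Matrix (Fin m ⊕ Fin m) (Fin m ⊕ Fin m) F) *ᵥ x) w • w := by
      intro x
      have h3 := hmv x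
      rw [h, hmv2] at h3
      exact (add_left_cancel h3).symm
    have h3 := h1 a
    rw [ha, one_smul] at h3
    set c := Cfsg.sympForm m F ((s : Matrix (Fin m ⊕ Fin m) (Fin m ⊕ Fin m) F) *ᵥ a) w with hc
    have h4 : c ^ 2 = 1 := by
      have h5 := sp_pres s a w
      rw [ha, h3, sympForm_smul_right] at h5
      rw [sq]
      rw [← hc] at h5
      exact h5
    have h6 : c = 1 := by
      have h7 : c ^ 2 = 1 ^ 2 := by rw [h4, one_pow]
      exact sq_inj' h7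
    rw [h3, h6, one_smul]
  · intro h
    apply Subtype.ext
    apply Matrix.toLin'.injective
    apply LinearMap.ext
    intro x
    have e1 := hmv x
    have e2 := hmv2 x
    change ((s * tvS w : Matrix.symplecticGroup (Fin m) F) : Matrix (Fin m ⊕ Fin m) (Fin m ⊕ Fin m) F) *ᵥ x = ((tvS w * s : Matrix.symplecticGroup (Fin m) F) : Matrix (Fin m ⊕ Fin m) (Fin m ⊕ Fin m) F) *ᵥ x
    rw [e1, e2, h]
    congr 2
    conv_rhs => rw [← h]
    rw [sp_pres]

/-- The centraliser of a graph automorphism attached to a non-alternating form. -/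
theorem proj_NA {G : GL (Fin n) F} {hG : (G : Matrix (Fin n) (Fin n) F)ᵀ = G} (D : NA (m := m) G hG) (hu : D.u ≠ 0) :
    Nonempty (projQuot (Sim G) ≃* ↥(Subgroup.centralizer ({tvS (D.θ D.u)} : Set ↥(Matrix.symplecticGroup (Fin m) F)))) := by
  classical
  set w := D.θ D.u with hw
  have hw0 : w ≠ 0 := fun h => hu (D.θ.map_eq_zero_iff.1 h)
  let X := Subgroup.centralizer ({tvS w} : Set ↥(Matrix.symplecticGroup (Fin m) F))
  have hX : ∀ x : X, ((x : Matrix.symplecticGroup (Fin m) F) : Matrix (Fin m ⊕ Fin m) (Fin m ⊕ Fin m) F) *ᵥ w = w := by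
    intro x
    apply (comm_tvS_iff hw0 _).1
    exact (Subgroup.mem_centralizer_singleton_iff.1 x.2)
  let f : X →* GL (Fin n) F :=
    ((glC D.θ).symm.toMonoidHom).comp ((Cfsg.spGL m F).subtype.comp ((Cfsg.Agent.Lib.Classical.Abs.spEquivGL m F).toMonoidHom.comp X.subtype))
  have hf1 : ∀ x : X, glC D.θ (f x) = (Cfsg.Agent.Lib.Classical.Abs.spEquivGL m F (x : Matrix.symplecticGroup (Fin m) F)).1 := fun x => (glC D.θ).apply_symm_apply _
  have hf2 : ∀ (x : X) a, D.θ (((f x : GL (Fin n) F) : Matrix (Fin n) (Fin n) F) *ᵥ a) = ((x : Matrix.symplecticGroup (Fin m) F) : Matrix (Fin m ⊕ Fin m) (Fin m ⊕ Fin m) F) *ᵥ D.θ a := by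
    intro x a
    rw [← glC_mulVec, hf1]
    rfl
  apply proj_of_hom _ f
  · intro x
    rw [mem_Sim_iff_bf]
    refine ⟨1, fun a b => ?_⟩
    have hell : ∀ a, ell _ hG (((f x : GL (Fin n) F) : Matrix (Fin n) (Fin n) F) *ᵥ a) = ell _ hG a := by
      intro a
      rw [← D.ell_eq, ← D.ell_eq, hf2]
      conv_lhs => rw [← hw, ← hX x]
      rw [sp_pres]
    have h1 := D.hθ (((f x : GL (Fin n) F) : Matrix (Fin n) (Fin n) F) *ᵥ a) (((f x : GL (Fin n) F) : Matrix (Fin n) (Fin n) F) *ᵥ b)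
    rw [hf2, hf2, sp_pres, D.hθ, hell, hell] at h1
    rw [Units.val_one, one_mul]
    exact (add_right_cancel h1).symm
  · intro x hx
    have h1 := (glC_scalars D.θ _).1 hx
    rw [hf1, Geo.mem_scalars_iff] at h1
    obtain ⟨c, hc⟩ := h1
    have hc' : ((x : Matrix.symplecticGroup (Fin m) F) : Matrix (Fin m ⊕ Fin m) (Fin m ⊕ Fin m) F) = (c : F) • 1 := hc
    have h2 := hX x
    rw [hc', Matrix.smul_mulVec, Matrix.one_mulVec] at h2
    have h3 : ((c : F) - 1) • w = 0 := by rw [sub_smul, h2, one_smul, sub_self]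
    have h4 : (c : F) = 1 := by
      rcases smul_eq_zero.1 h3 with h5 | h5
      · exact sub_eq_zero.1 h5
      · exact absurd h5 hw0
    apply Subtype.ext
    apply Subtype.ext
    rw [hc', h4, one_smul]
    rfl
  · intro h hh
    obtain ⟨z, hz⟩ := mem_Sim_iff_bf.1 hh
    obtain ⟨d, hd⟩ := exists_sqrt z
    let g₀ : GL (Fin n) F := sc d⁻¹ * h
    have hg₀ : ∀ a, ((g₀ : GL (Fin n) F) : Matrix (Fin n) (Fin n) F) *ᵥ a = ((d⁻¹ : Fˣ) : F) • ((h : Matrix (Fin n) (Fin n) F) *ᵥ a) := by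
      intro a
      change ((sc d⁻¹ * h : GL (Fin n) F) : Matrix (Fin n) (Fin n) F) *ᵥ a = _
      rw [Units.val_mul, sc_coe, Matrix.smul_mul, Matrix.one_mul, Matrix.smul_mulVec]
    have hdd : ((d⁻¹ : Fˣ) : F) * ((d⁻¹ : Fˣ) : F) * (z : F) = 1 := by
      rw [← hd, sq, ← mul_assoc, mul_assoc ((d⁻¹ : Fˣ) : F), ← Units.val_mul, inv_mul_cancel, Units.val_one, mul_one, ← Units.val_mul, inv_mul_cancel, Units.val_one]
    have hbf : ∀ a b, bf (G : Matrix (Fin n) (Fin n) F) (((g₀ : GL (Fin n) F) : Matrix (Fin n) (Fin n) F) *ᵥ a) (((g₀ : GL (Fin n) F) : Matrix (Fin n) (Fin n) F) *ᵥ b) = bf (G : Matrix (Fin n) (Fin n) F) a b := by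
      intro a b
      rw [hg₀, hg₀, bf_smul_left, bf_smul_right, hz, ← mul_assoc, ← mul_assoc, hdd, one_mul]
    have hell : ∀ a, ell _ hG (((g₀ : GL (Fin n) F) : Matrix (Fin n) (Fin n) F) *ᵥ a) = ell _ hG a := by
      intro a
      apply sq_inj'
      rw [ell_sq, ell_sq, hbf]
    have hS : ∀ a, ((glC D.θ g₀ : GL (Fin m ⊕ Fin m) F) : Matrix (Fin m ⊕ Fin m) (Fin m ⊕ Fin m) F) *ᵥ (D.θ a) = D.θ (((g₀ : GL (Fin n) F) : Matrix (Fin n) (Fin n) F) *ᵥ a) := glC_mulVec D.θ g₀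
    have hmem : glC D.θ g₀ ∈ Cfsg.spGL m F := by
      intro x y
      obtain ⟨a, rfl⟩ := D.θ.surjective x
      obtain ⟨b, rfl⟩ := D.θ.surjective y
      change Cfsg.sympForm m F (((glC D.θ g₀ : GL (Fin m ⊕ Fin m) F) : Matrix (Fin m ⊕ Fin m) (Fin m ⊕ Fin m) F) *ᵥ (D.θ a)) (((glC D.θ g₀ : GL (Fin m ⊕ Fin m) F) : Matrix (Fin m ⊕ Fin m) (Fin m ⊕ Fin m) F) *ᵥ (D.θ b)) = _
      rw [hS, hS, D.hθ, D.hθ, hbf, hell, hell]
    have hfixu : ((g₀ : GL (Fin n) F) : Matrix (Fin n) (Fin n) F) *ᵥ D.u = D.u := by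
      rw [← sub_eq_zero]
      apply bf_nondeg G
      intro y
      have hy : y = ((g₀ : GL (Fin n) F) : Matrix (Fin n) (Fin n) F) *ᵥ (((g₀⁻¹ : GL (Fin n) F) : Matrix (Fin n) (Fin n) F) *ᵥ y) := by
        rw [Matrix.mulVec_mulVec, mat_mul_inv, Matrix.one_mulVec]
      rw [hy, bf_sub_left, hbf, D.hu, D.hu, hell, sub_self]
    let s₀ : Matrix.symplecticGroup (Fin m) F := (Cfsg.Agent.Lib.Classical.Abs.spEquivGL m F).symm ⟨glC D.θ g₀, hmem⟩
    have hs₀ : (s₀ : Matrix (Fin m ⊕ Fin m) (Fin m ⊕ Fin m) F) = ((glC D.θ g₀ : GL (Fin m ⊕ Fin m) F) : Matrix (Fin m ⊕ Fin m) (Fin m ⊕ Fin m) F) := rfl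
    have hs₀w : (s₀ : Matrix (Fin m ⊕ Fin m) (Fin m ⊕ Fin m) F) *ᵥ w = w := by
      rw [hs₀, hw, hS, hfixu]
    let x : X := ⟨s₀, Subgroup.mem_centralizer_singleton_iff.2 ((comm_tvS_iff hw0 s₀).2 hs₀w)⟩
    refine ⟨d, x, ?_⟩
    have h5 : f x = g₀ := by
      apply (glC D.θ).injective
      rw [hf1]
      change (Cfsg.Agent.Lib.Classical.Abs.spEquivGL m F ((Cfsg.Agent.Lib.Classical.Abs.spEquivGL m F).symm ⟨glC D.θ g₀, hmem⟩)).1 = _
      rw [MulEquiv.apply_symm_apply]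
    rw [h5]
    change _ = (d : F) • ((sc d⁻¹ * h : GL (Fin n) F) : Matrix (Fin n) (Fin n) F)
    rw [Units.val_mul, sc_coe, Matrix.smul_mul, Matrix.one_mul, smul_smul, ← Units.val_mul, mul_inv_cancel, Units.val_one, one_smul]

/-- The projective conformal symplectic group is the symplectic group in characteristic two. -/
theorem proj_GSp : Nonempty (projQuot (Geo.similarityGroup (Cfsg.sympForm m F)) ≃* Matrix.symplecticGroup (Fin m) F) := by
  classical
  let f : Matrix.symplecticGroup (Fin m) F →* GL (Fin m ⊕ Fin m) F := (Cfsg.spGL m F).subtype.comp (Cfsg.Agent.Lib.Classical.Abs.spEquivGL m F).toMonoidHom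
  have hf : ∀ s : Matrix.symplecticGroup (Fin m) F, ((f s : GL (Fin m ⊕ Fin m) F) : Matrix (Fin m ⊕ Fin m) (Fin m ⊕ Fin m) F) = s := fun s => rfl
  by_cases hm : m = 0
  · subst hm
    apply proj_of_hom _ f
    · intro s
      refine ⟨1, fun u v => ?_⟩
      simp [Cfsg.sympForm, dotProduct]
    · intro s _
      apply Subtype.ext
      ext i j
      exact (IsEmpty.false i).elim
    · intro h _
      refine ⟨1, 1, ?_⟩
      ext i j
      exact (IsEmpty.false i).elim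
  have hm1 : 0 < m := Nat.pos_of_ne_zero hm
  apply proj_of_hom _ f
  · intro s
    refine ⟨1, fun u v => ?_⟩
    rw [hf, sp_pres, Units.val_one, one_mul]
  · intro s hs
    obtain ⟨c, hc⟩ := (Geo.mem_scalars_iff _).1 hs
    rw [hf] at hc
    let e : Fin m ⊕ Fin m := Sum.inl ⟨0, hm1⟩
    have h1 := sp_pres s (Pi.single e 1) (Pi.single e.swap 1)
    rw [hc, Matrix.smul_mulVec, Matrix.smul_mulVec, Matrix.one_mulVec, Matrix.one_mulVec, sympForm_smul_left, sympForm_smul_right] at h1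
    have h2 : Cfsg.sympForm m F (Pi.single e 1) (Pi.single e.swap 1) ≠ 0 := by
      simp [Cfsg.sympForm, e, Matrix.J, Matrix.mulVec_single_one, single_dotProduct]
    have h3 : (c : F) ^ 2 = 1 ^ 2 := by
      rw [one_pow, sq]
      apply mul_right_cancel₀ h2
      rw [one_mul]
      linear_combination h1
    have h4 := sq_inj' h3
    apply Subtype.ext
    rw [hc, h4, one_smul]
    rfl
  · rintro h ⟨c, hc⟩
    obtain ⟨d, hd⟩ := exists_sqrt c
    have hmem : ((d⁻¹ : Fˣ) : F) • (h : Matrix (Fin m ⊕ Fin m) (Fin m ⊕ Fin m) F) ∈ Matrix.symplecticGroup (Fin m) F := by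
      rw [mem_symplecticGroup_iff_preserves]
      intro u v
      rw [Matrix.smul_mulVec, Matrix.smul_mulVec, sympForm_smul_left, sympForm_smul_right, hc, ← hd, ← mul_assoc, ← mul_assoc]
      have hdne : (d : F) ≠ 0 := d.ne_zero
      simp only [Units.val_inv_eq_inv_val]
      field_simp
    refine ⟨d, ⟨_, hmem⟩, ?_⟩
    rw [hf]
    change _ = (d : F) • (((d⁻¹ : Fˣ) : F) • (h : Matrix (Fin m ⊕ Fin m) (Fin m ⊕ Fin m) F))
    rw [smul_smul, ← Units.val_mul, mul_inv_cancel, Units.val_one, one_smul]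

/-- Main theorem: even dimension, characteristic two. -/
theorem even2_main (hm : 2 ≤ m) (hnm : n = 2 * m) :
    ∃ (γ₁ γ₃ : MulAut (PSLn n F)) (t : ↥(Matrix.symplecticGroup (Fin m) F)), Cfsg.IsTransvection (t : Matrix (Fin m ⊕ Fin m) (Fin m ⊕ Fin m) F) ∧ IsGraphAutClassPSL γ₁ ∧ orderOf γ₁ = 2 ∧ IsGraphAutClassPSL γ₃ ∧ orderOf γ₃ = 2 ∧ ¬ IsConjUnder (inndiagPSL n F) γ₁ γ₃ ∧ (∀ γ : MulAut (PSLn n F), IsGraphAutClassPSL γ → orderOf γ = 2 → IsConjUnder (inndiagPSL n F) γ₁ γ ∨ IsConjUnder (inndiagPSL n F) γ₃ γ) ∧ Nonempty (↥(inndiagPSL n F ⊓ Subgroup.centralizer {γ₁}) ≃* ↥(Matrix.symplecticGroup (Fin m) F)) ∧ Nonempty (↥(inndiagPSL n F ⊓ Subgroup.centralizer {γ₃}) ≃* ↥(Subgroup.centralizer ({t} : Set ↥(Matrix.symplecticGroup (Fin m) F)))) := by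
  classical
  have hn3 : 3 ≤ n := by omega
  have hn2 : 2 ≤ n := by omega
  have hn1 : 1 ≤ n := by omega
  have h2 := two_eq' (F := F)
  have hneg : ∀ A : Matrix (Fin n) (Fin n) F, -A = A := by
    intro A
    rw [← neg_one_smul F A]
    have : (-1 : F) = 1 := by linear_combination (-1 : F) * h2
    rw [this, one_smul]
  let e₁ : Fin m ⊕ Fin m ≃ Fin n := (finSumFinEquiv).trans (finCongr (by omega))
  let G₁ : GL (Fin n) F := pb e₁ (Matrix.J (Fin m) F) (J_det_ne m)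
  have hG₁ : (G₁ : Matrix (Fin n) (Fin n) F)ᵀ = (G₁ : Matrix (Fin n) (Fin n) F) := by
    change ((pb e₁ (Matrix.J (Fin m) F) (J_det_ne m) : GL (Fin n) F) : Matrix (Fin n) (Fin n) F)ᵀ = ((pb e₁ (Matrix.J (Fin m) F) (J_det_ne m) : GL (Fin n) F) : Matrix (Fin n) (Fin n) F)
    rw [pb_transpose, pb_coe, Matrix.J_transpose]
    ext i j
    have := hneg (Matrix.J (Fin m) F |>.submatrix e₁.symm e₁.symm)
    have h3 := congrFun (congrFun this i) j
    simpa using h3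
  have hb₁ : ∀ u v, bf (G₁ : Matrix (Fin n) (Fin n) F) u v = Cfsg.sympForm m F (rx e₁ u) (rx e₁ v) := fun u v => bf_pb _ _ _ _ _
  have hG₃ : ((1 : GL (Fin n) F) : Matrix (Fin n) (Fin n) F)ᵀ = ((1 : GL (Fin n) F) : Matrix (Fin n) (Fin n) F) := by simp
  obtain ⟨D⟩ := exists_NA (m := m) hnm (1 : GL (Fin n) F) hG₃
  have halt_one : ∃ x, bf ((1 : GL (Fin n) F) : Matrix (Fin n) (Fin n) F) x x ≠ 0 := by
    refine ⟨Pi.single ⟨0, hn1⟩ 1, ?_⟩
    simp [bf, single_dotProduct]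
  have hu_ne : ∀ (G : GL (Fin n) F) (hG : (G : Matrix (Fin n) (Fin n) F)ᵀ = G) (D : NA (m := m) G hG), (∃ x, bf (G : Matrix (Fin n) (Fin n) F) x x ≠ 0) → D.u ≠ 0 := by
    rintro G hG D ⟨x, hx⟩ h0
    apply hx
    rw [← ell_sq _ hG, ← D.hu, h0]
    simp [bf]
  have hu0 := hu_ne _ hG₃ D halt_one
  have hw0 : D.θ D.u ≠ 0 := fun h => hu0 (D.θ.map_eq_zero_iff.1 h)
  refine ⟨gg G₁, gg 1, tvS (D.θ D.u), ?_, gg_isGraph hn3 _, (order_two_iff hn3 G₁).2 ⟨1, by simpa using hG₁⟩, gg_isGraph hn3 _, (order_two_iff hn3 1).2 ⟨1, by simp⟩, ?_, ?_, ?_, ?_⟩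
  · -- a transvection
    have hmv : ∀ x, (((tvS (D.θ D.u) : Matrix.symplecticGroup (Fin m) F) : Matrix (Fin m ⊕ Fin m) (Fin m ⊕ Fin m) F) - 1) *ᵥ x = Cfsg.sympForm m F x (D.θ D.u) • (D.θ D.u) := by
      intro x
      rw [Matrix.sub_mulVec, tvS_mulVec, Matrix.one_mulVec, add_sub_cancel_left]
    constructor
    · apply le_antisymm
      · change ((Cfsg.sympTransvection m (D.θ D.u) 1) - 1).rank ≤ 1
        unfold Cfsg.sympTransvection
        rw [add_sub_cancel_left, one_smul]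
        exact Matrix.rank_vecMulVec_le _ _
      · apply Nat.one_le_iff_ne_zero.2
        intro h0
        have h7 : LinearMap.range (((tvS (D.θ D.u) : Matrix.symplecticGroup (Fin m) F) : Matrix (Fin m ⊕ Fin m) (Fin m ⊕ Fin m) F) - 1).mulVecLin = ⊥ := Submodule.finrank_eq_zero.1 h0
        have h8 := LinearMap.range_eq_bot.1 h7
        obtain ⟨a, ha⟩ : ∃ a, Cfsg.sympForm m F a (D.θ D.u) ≠ 0 := by
          by_contra h4
          push Not at h4
          exact hw0 (sympForm_eq_zero_iff h4)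
        have h5 := hmv a
        have h9 : (((tvS (D.θ D.u) : Matrix.symplecticGroup (Fin m) F) : Matrix (Fin m ⊕ Fin m) (Fin m ⊕ Fin m) F) - 1) *ᵥ a = 0 := congrArg (fun f => f a) h8
        rw [h9] at h5
        rcases smul_eq_zero.1 h5.symm with h6 | h6
        · exact ha h6
        · exact hw0 h6
    · apply Matrix.toLin'.injective
      apply LinearMap.ext
      intro x
      change ((((tvS (D.θ D.u) : Matrix.symplecticGroup (Fin m) F) : Matrix (Fin m ⊕ Fin m) (Fin m ⊕ Fin m) F) - 1) * (((tvS (D.θ D.u) : Matrix.symplecticGroup (Fin m) F) : Matrix (Fin m ⊕ Fin m) (Fin m ⊕ Fin m) F) - 1)) *ᵥ x = (0 : Matrix (Fin m ⊕ Fin m) (Fin m ⊕ Fin m) F) *ᵥ x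
      rw [← Matrix.mulVec_mulVec, hmv x, Matrix.mulVec_smul, hmv (D.θ D.u), sympForm_self, zero_smul, smul_zero, Matrix.zero_mulVec]
  · -- not conjugate
    intro hc
    obtain ⟨k, c, hk⟩ := (isConj_iff hn2 _ _).1 hc
    obtain ⟨x, hx⟩ := halt_one
    apply hx
    rw [hk, bf_smul, ← bf_mulVec, hb₁, sympForm_self, mul_zero]
  · -- completeness
    intro γ hγ hγ2
    obtain ⟨G, rfl⟩ := exists_gg hγ
    obtain ⟨c, hc⟩ := (order_two_iff hn3 G).1 hγ2
    have hS : (G : Matrix (Fin n) (Fin n) F)ᵀ = G := by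
      rcases sym_or_skew hn1 G hc with h | h
      · exact h
      · rw [h, hneg]
    obtain ⟨D'⟩ := exists_NA (m := m) hnm G hS
    by_cases halt : ∃ x, bf (G : Matrix (Fin n) (Fin n) F) x x ≠ 0
    · right
      obtain ⟨φ, hφ⟩ := NA_equiv D' D (hu_ne _ hS D' halt) hu0
      exact conj_of_bf hn2 G 1 φ 1 (fun u v => by rw [Units.val_one, one_mul, hφ])
    · left
      push Not at halt
      have hB : ∀ x y, Cfsg.sympForm m F (D'.θ x) (D'.θ y) = bf (G : Matrix (Fin n) (Fin n) F) x y := by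
        intro x y
        have hz : ∀ x, ell _ hS x = 0 := by
          intro x
          have := ell_sq _ hS x
          rw [halt] at this
          exact pow_eq_zero_iff (two_ne_zero) |>.1 this
        rw [D'.hθ, hz, zero_mul, add_zero]
      apply conj_of_bf hn2 G G₁ (D'.θ.trans (rx e₁).symm) 1
      intro u v
      rw [hb₁, Units.val_one, one_mul, ← hB]
      simp
  · -- first centraliser
    obtain ⟨E₁⟩ := cent_similarity hn2 G₁ (rx e₁) (Cfsg.sympForm m F) 1 one_ne_zero (fun u v => by rw [hb₁, one_mul])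
    obtain ⟨E₂⟩ := proj_GSp (m := m) (F := F)
    exact ⟨E₁.trans E₂⟩
  · obtain ⟨E₁⟩ := cent_equiv hn2 (1 : GL (Fin n) F)
    obtain ⟨E₂⟩ := proj_NA D hu0
    exact ⟨E₁.trans E₂⟩

end char2

end Cfsg.Agent.Lib.Known3.Graph
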