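import Mathlib
import Cfsg.Agent.Lib.Known3.GraphChar2

/-! Graph automorphisms of `PSL_n`, `n` odd. -/

set_option autoImplicit false
set_option linter.unusedVariables false
set_option linter.unusedSectionVars false

namespace Cfsg.Agent.Lib.Known3.Graph

open Matrix Module Cfsg
open scoped MatrixGroups
open Cfsg.Agent.Lib.AutPSL Cfsg.Agent.Lib.Known3.FieldAut Cfsg.Agent.Lib.Known3.QuadIso Cfsg.Agent.Lib.Classical.Abs

local notation "P" => QuadraticMap.polarBilin

variable {F : Type*} [Field F] [Fintype F] {n : ℕ}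

/-- Gram matrices of involutions in odd dimension are symmetric. -/
lemma sym_of_odd {m : ℕ} (hnm : n = 2 * m + 1) (G : GL (Fin n) F) {c : Fˣ} (hc : (G : Matrix (Fin n) (Fin n) F)ᵀ = (c : F) • (G : Matrix (Fin n) (Fin n) F)) :
    (G : Matrix (Fin n) (Fin n) F)ᵀ = G := by
  rcases sym_or_skew (by omega) G hc with h | h
  · exact h
  · by_cases h2 : (2 : F) = 0
    · rw [h]
      have h3 : (-1 : F) = 1 := by linear_combination (-1 : F) * h2 
      rw [← neg_one_smul F, h3, one_smul]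
    · exfalso
      have h3 := congrArg Matrix.det h
      rw [Matrix.det_transpose, Matrix.det_neg, Fintype.card_fin] at h3
      have hodd : (-1 : F) ^ n = -1 := by
        rw [hnm]
        exact Odd.neg_one_pow ⟨m, rfl⟩
      rw [hodd] at h3
      have h4 : 2 * (G : Matrix (Fin n) (Fin n) F).det = 0 := by linear_combination h3
      have h5 := (mul_eq_zero.1 h4).resolve_left h2
      exact ((Matrix.isUnit_iff_isUnit_det _).1 G.isUnit).ne_zero h5

theorem odd_main {p f : ℕ} [hp : Fact p.Prime] (hF : Fintype.card F = p ^ f) (hf : 1 ≤ f) (hn : 3 ≤ n) {m : ℕ} (hnm : n = 2 * m + 1) (γ γ' : MulAut (PSLn n F))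
    (hγ : IsGraphAutClassPSL γ) (hγ2 : orderOf γ = 2) (hγ' : IsGraphAutClassPSL γ') (hγ'2 : orderOf γ' = 2) :
    Nonempty (↥(inndiagPSL n F ⊓ Subgroup.centralizer {γ}) ≃* PGO F (quadFormOdd m F)) ∧ IsConjUnder (inndiagPSL n F) γ γ' := by
  classical
  have hn2 : 2 ≤ n := by omega
  obtain ⟨G, rfl⟩ := exists_gg hγ
  obtain ⟨G', rfl⟩ := exists_gg hγ'
  obtain ⟨c, hc⟩ := (order_two_iff hn G).1 hγ2
  obtain ⟨c', hc'⟩ := (order_two_iff hn G').1 hγ'2
  have hS := sym_of_odd hnm G hc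
  have hS' := sym_of_odd hnm G' hc'
  have hQodd : ∀ v, quadFormOdd m F v = Qodd m F v := fun v => (Qodd_apply m v).symm
  by_cases h2 : (2 : F) = 0
  · haveI : CharP F 2 := CharTwo.of_one_ne_zero_of_two_eq_zero one_ne_zero h2
    obtain ⟨θ, hθ⟩ := odd_std hnm G hS
    obtain ⟨θ', hθ'⟩ := odd_std hnm G' hS'
    constructor
    · obtain ⟨E₁⟩ := cent_similarity hn2 G θ (B0 m F) 1 one_ne_zero (fun u v => by rw [one_mul, hθ])
      obtain ⟨E₂⟩ := proj_B0 (F := F) m
      obtain ⟨E₃⟩ := Cfsg.Agent.S0304.result (F := F) m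
      obtain ⟨E₄⟩ := proj_isometry (quadFormOdd m F) (fun c v => by
        rw [hQodd, hQodd, QuadraticMap.map_smul, sq, smul_eq_mul]
        ) ⟨Pi.single (Sum.inl ()) 1, by
        simp [quadFormOdd]⟩
      exact ⟨E₁.trans (E₂.trans (E₃.symm.trans E₄.symm))⟩
    · apply conj_of_bf hn2 G' G (θ'.trans θ.symm) 1
      intro u v
      rw [Units.val_one, one_mul, ← hθ, ← hθ']
      simp
  · have hV : finrank F (Fin n → F) = 2 * m + 1 := by simp [hnm]
    obtain ⟨θ, d, hθ⟩ := Cfsg.Agent.Lib.AutPO.std_odd_sim hV _ (Qg_nondeg h2 hS)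
    obtain ⟨θ', d', hθ'⟩ := Cfsg.Agent.Lib.AutPO.std_odd_sim hV _ (Qg_nondeg h2 hS')
    simp only [Qg_apply] at hθ hθ'
    constructor
    · exact cent_quad hn2 h2 G hS θ (quadFormOdd m F) d d.ne_zero (fun v => by rw [hQodd, hθ])
    · apply conj_of_quad hn2 h2 G' G hS' hS (θ'.trans θ.symm) (d'⁻¹ * d)
      intro v
      have h1 := hθ (θ.symm (θ' v))
      rw [LinearEquiv.apply_symm_apply, hθ'] at h1
      simp only [LinearEquiv.trans_apply, Units.val_mul]
      rw [mul_assoc, ← h1, ← mul_assoc, ← Units.val_mul, inv_mul_cancel, Units.val_one, one_mul]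

end Cfsg.Agent.Lib.Known3.Graph
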