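import Mathlib
import Cfsg.Agent.Lib.Known3.GraphForms
import Cfsg.Agent.Lib.Known3.GraphChar2
import Cfsg.Agent.Lib.Known3.SplitCount
import Cfsg.Agent.S0245

/-! Determinants of similarities of forms. -/

set_option autoImplicit false
set_option linter.unusedVariables false
set_option linter.unusedSectionVars false

namespace Cfsg.Agent.Lib.Known3.Graph

open Matrix Module Cfsg
open scoped MatrixGroups
open Cfsg.Agent.Lib.AutPSL Cfsg.Agent.Lib.Known3.FieldAut Cfsg.Agent.Lib.Known3.QuadIso Cfsg.Agent.Lib.Classical.Abs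

local notation "P" => QuadraticMap.polarBilin

variable {F : Type*} [Field F] {n : ℕ}

local notation "MM" => Matrix (Fin n) (Fin n) F

lemma det_ne (G : GL (Fin n) F) : (G : MM).det ≠ 0 := (Matrix.isUnits_det_units G).ne_zero

/-- The relation between the determinant and the multiplier. -/
lemma det_sim_sq (G g : GL (Fin n) F) (z : F) (h : (g : MM)ᵀ * (G : MM) * (g : MM) = z • (G : MM)) : (g : MM).det ^ 2 = z ^ n := by
  have h1 := congrArg Matrix.det h
  rw [Matrix.det_mul, Matrix.det_mul, Matrix.det_transpose, Matrix.det_smul, Fintype.card_fin] at h1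
  have h2 : ((g : MM).det ^ 2 - z ^ n) * (G : MM).det = 0 := by linear_combination h1
  exact sub_eq_zero.1 ((mul_eq_zero.1 h2).resolve_right (det_ne G))

/-- Odd dimension. -/
lemma odd_sim (hn : Odd n) (G g : GL (Fin n) F) (z : Fˣ) (h : (g : MM)ᵀ * (G : MM) * (g : MM) = (z : F) • (G : MM)) :
    ∃ w : Fˣ, z = w ^ 2 ∧ (g : MM).det = ((w ^ n : Fˣ) : F) := by
  obtain ⟨m, rfl⟩ := hn
  have h1 := det_sim_sq G g z h
  have hd := det_ne g
  let d : Fˣ := Units.mk0 _ hd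
  have h2 : d ^ 2 = z ^ (2 * m + 1) := Units.ext (by simpa [d] using h1)
  let w₁ : Fˣ := d * (z ^ m)⁻¹
  have hw : z = w₁ ^ 2 := by
    simp only [w₁, mul_pow, h2]
    rw [inv_pow, ← pow_mul, show m * 2 = 2 * m by ring, pow_succ]
    group
  have h3 : d ^ 2 = (w₁ ^ (2 * m + 1)) ^ 2 := by
    rw [h2, hw, ← pow_mul, ← pow_mul, mul_comm]
  have h3' : (d : F) ^ 2 = ((w₁ ^ (2 * m + 1) : Fˣ) : F) ^ 2 := by
    have := congrArg Units.val h3
    simpa only [Units.val_pow_eq_pow_val] using this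
  rcases sq_eq_sq_iff_eq_or_eq_neg.1 h3' with h4 | h4
  · exact ⟨w₁, hw, h4⟩
  · refine ⟨-w₁, by rw [neg_sq]; exact hw, ?_⟩
    rw [Odd.neg_pow ⟨m, rfl⟩, Units.val_neg]
    exact h4

/-- Characteristic two. -/
lemma char2_sim [Fintype F] [CharP F 2] (G g : GL (Fin n) F) (z : Fˣ) (h : (g : MM)ᵀ * (G : MM) * (g : MM) = (z : F) • (G : MM)) :
    ∃ w : Fˣ, z = w ^ 2 ∧ (g : MM).det = ((w ^ n : Fˣ) : F) := by
  have h1 := det_sim_sq G g z h
  have h0 : rt (z : F) ≠ 0 := fun h0 => z.ne_zero ((map_eq_zero _).1 h0)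
  let w : Fˣ := Units.mk0 _ h0
  have hw : z = w ^ 2 := Units.ext (by
    rw [Units.val_pow_eq_pow_val]
    exact (rt_sq _).symm)
  refine ⟨w, hw, ?_⟩
  apply sq_inj'
  rw [h1, Units.val_pow_eq_pow_val, ← pow_mul, mul_comm, pow_mul, ← Units.val_pow_eq_pow_val w 2, ← hw]

/-- The symplectic form in coordinates. -/
lemma symp_expand {m : ℕ} (x y : Fin m ⊕ Fin m → F) :
    Cfsg.sympForm m F x y = ∑ i, (x (Sum.inr i) * y (Sum.inl i) - x (Sum.inl i) * y (Sum.inr i)) := by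
  simp only [Cfsg.sympForm, dotProduct, Fintype.sum_sum_type, Matrix.mulVec, Matrix.J, Matrix.fromBlocks_apply₁₁, Matrix.fromBlocks_apply₁₂, Matrix.fromBlocks_apply₂₁, Matrix.fromBlocks_apply₂₂]
  simp [Matrix.one_apply, sub_eq_add_neg, add_comm]
  rw [← Finset.sum_neg_distrib, ← Finset.sum_add_distrib]
  exact Finset.sum_congr rfl fun i _ => by ring

/-- The diagonal matrix. -/
noncomputable def Dz {m : ℕ} (a : F) : Matrix (Fin m ⊕ Fin m) (Fin m ⊕ Fin m) F := Matrix.diagonal (Sum.elim (fun _ => a) (fun _ => 1))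

lemma Dz_mulVec {m : ℕ} (a : F) (x : Fin m ⊕ Fin m → F) (i : Fin m ⊕ Fin m) : (Dz a *ᵥ x) i = Sum.elim (fun _ => a) (fun _ => 1) i * x i := by
  simp [Dz, Matrix.mulVec_diagonal]

lemma Dz_symp {m : ℕ} (a : F) (x y : Fin m ⊕ Fin m → F) : Cfsg.sympForm m F (Dz a *ᵥ x) (Dz a *ᵥ y) = a * Cfsg.sympForm m F x y := by
  rw [symp_expand, symp_expand, Finset.mul_sum]
  refine Finset.sum_congr rfl fun i _ => ?_
  simp only [Dz_mulVec, Sum.elim_inl, Sum.elim_inr]
  ring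

lemma Dz_det {m : ℕ} (a : F) : (Dz (m := m) a).det = a ^ m := by
  simp [Dz, Matrix.det_diagonal, Fintype.prod_sum_type]

/-- Skew forms: the determinant of a similarity. -/
theorem skew_det (h2 : (2 : F) ≠ 0) {m : ℕ} (hn : n = 2 * m) (G : GL (Fin n) F) (hG : (G : MM)ᵀ = -(G : MM)) (g : GL (Fin n) F) (z : Fˣ)
    (h : (g : MM)ᵀ * (G : MM) * (g : MM) = (z : F) • (G : MM)) : (g : MM).det = (z : F) ^ m := by
  classical
  obtain ⟨θ, hθ⟩ := skew_std h2 hn G hG
  let f : (Fin m ⊕ Fin m → F) →ₗ[F] (Fin m ⊕ Fin m → F) := (θ : (Fin n → F) →ₗ[F] _) ∘ₗ Matrix.toLin' (g : MM) ∘ₗ (θ.symm : _ →ₗ[F] (Fin n → F))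
  let A : Matrix (Fin m ⊕ Fin m) (Fin m ⊕ Fin m) F := LinearMap.toMatrix' f
  have hA : A.det = (g : MM).det := by
    change (LinearMap.toMatrix' f).det = _
    rw [LinearMap.det_toMatrix']
    have := LinearMap.det_conj (Matrix.toLin' (g : MM)) θ
    rw [LinearMap.det_toLin'] at this
    exact this
  have hmv : ∀ u, A *ᵥ u = θ ((g : MM) *ᵥ θ.symm u) := by
    intro u
    change LinearMap.toMatrix' f *ᵥ u = _
    rw [LinearMap.toMatrix'_mulVec]
    rfl
  have hform : ∀ u v, Cfsg.sympForm m F (A *ᵥ u) (A *ᵥ v) = (z : F) * Cfsg.sympForm m F u v := by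
    intro u v
    rw [hmv, hmv, hθ, bf_mulVec, h, bf_smul, ← hθ, θ.apply_symm_apply, θ.apply_symm_apply]
  have hs : Dz ((z⁻¹ : Fˣ) : F) * A ∈ Matrix.symplecticGroup (Fin m) F := by
    rw [Cfsg.Agent.Lib.Classical.mem_symplecticGroup_iff_preserves]
    intro u v
    rw [← Matrix.mulVec_mulVec, ← Matrix.mulVec_mulVec, Dz_symp, hform, ← mul_assoc, ← Units.val_mul, inv_mul_cancel, Units.val_one, one_mul]
  have hdet := SymplecticGroup.det_eq_one hs
  rw [Matrix.det_mul, Dz_det, hA] at hdet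
  have hz : ((z⁻¹ : Fˣ) : F) ^ m ≠ 0 := pow_ne_zero _ (Units.ne_zero _)
  have h3 : ((z⁻¹ : Fˣ) : F) ^ m * (z : F) ^ m = 1 := by
    rw [← mul_pow, ← Units.val_mul, inv_mul_cancel, Units.val_one, one_pow]
  exact mul_left_cancel₀ hz (hdet.trans h3.symm)

/-- Skew forms: all multipliers occur. -/
theorem skew_exists (h2 : (2 : F) ≠ 0) {m : ℕ} (hn : n = 2 * m) (G : GL (Fin n) F) (hG : (G : MM)ᵀ = -(G : MM)) (z : Fˣ) :
    ∃ g : GL (Fin n) F, (g : MM)ᵀ * (G : MM) * (g : MM) = (z : F) • (G : MM) ∧ (g : MM).det = (z : F) ^ m := by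
  classical
  obtain ⟨θ, hθ⟩ := skew_std h2 hn G hG
  have hz0 : (z : F) ≠ 0 := z.ne_zero
  let De : (Fin m ⊕ Fin m → F) ≃ₗ[F] (Fin m ⊕ Fin m → F) :=
    LinearEquiv.ofLinearMap (Matrix.toLin' (Dz (z : F))) (Matrix.toLin' (Dz ((z : F)⁻¹)))
      (by
        rw [← Matrix.toLin'_mul]
        have : Dz (z : F) * Dz (m := m) ((z : F)⁻¹) = 1 := by
          rw [Dz, Dz, Matrix.diagonal_mul_diagonal, ← Matrix.diagonal_one]
          congr 1
          funext i
          rcases i with i | i <;> simp [hz0]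
        rw [this, Matrix.toLin'_one])
      (by
        rw [← Matrix.toLin'_mul]
        have : Dz (m := m) ((z : F)⁻¹) * Dz (z : F) = 1 := by
          rw [Dz, Dz, Matrix.diagonal_mul_diagonal, ← Matrix.diagonal_one]
          congr 1
          funext i
          rcases i with i | i <;> simp [hz0]
        rw [this, Matrix.toLin'_one])
  let φ : (Fin n → F) ≃ₗ[F] (Fin n → F) := θ.trans (De.trans θ.symm)
  refine ⟨lk φ, ?_, ?_⟩
  · apply mat_ext_dot
    intro u v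
    have h1 : bf (G : MM) ((lk φ : GL (Fin n) F) *ᵥ u) ((lk φ : GL (Fin n) F) *ᵥ v) = (z : F) * bf (G : MM) u v := by
      rw [lk_mulVec, lk_mulVec, ← hθ, ← hθ u v]
      have e : ∀ w, θ (φ w) = Dz (z : F) *ᵥ θ w := fun w => by
        change θ (θ.symm (De (θ w))) = _
        rw [θ.apply_symm_apply]
        rfl
      rw [e, e, Dz_symp]
    rw [← bf_mulVec, h1, bf_smul]
  · have h3 : ((lk φ : GL (Fin n) F) : MM) = LinearMap.toMatrix' (φ : (Fin n → F) →ₗ[F] (Fin n → F)) := rfl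
    rw [h3, LinearMap.det_toMatrix']
    have h4 : (φ : (Fin n → F) →ₗ[F] (Fin n → F)) = θ.symm.toLinearMap ∘ₗ Matrix.toLin' (Dz (z : F)) ∘ₗ θ.symm.symm.toLinearMap := by
      ext x i
      rfl
    rw [h4, LinearMap.det_conj, LinearMap.det_toLin', Dz_det]

end Cfsg.Agent.Lib.Known3.Graph
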