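import Mathlib
import Cfsg.Agent.Lib.Known3.GraphSplit
import Cfsg.Agent.Lib.Classical.AutPSpCount
import Cfsg.Agent.Lib.Classical.OrderMinus
import Cfsg.Agent.Lib.Classical.IsoBridge

/-! Similarities of symmetric forms; the centraliser is not a conformal symplectic group. -/

set_option autoImplicit false
set_option linter.unusedVariables false
set_option linter.unusedSectionVars false

namespace Cfsg.Agent.Lib.Known3.Graph

open Matrix Module Cfsg
open scoped MatrixGroups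
open Cfsg.Agent.Lib.AutPSL Cfsg.Agent.Lib.Known3.FieldAut Cfsg.Agent.Lib.Known3.QuadIso Cfsg.Agent.Lib.Classical.Abs

local notation "P" => QuadraticMap.polarBilin

variable {F : Type*} [Field F] {n : ℕ}

local notation "MM" => Matrix (Fin n) (Fin n) F

/-- Polarisation. -/
lemma sim_of_quad (h2 : (2 : F) ≠ 0) {G G' : MM} (hG : Gᵀ = G) (hG' : G'ᵀ = G') (k : MM) (c : F)
    (h : ∀ v, bf G v v = c * bf G' (k *ᵥ v) (k *ᵥ v)) : G = c • (kᵀ * G' * k) := by
  apply mat_ext_dot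
  intro u v
  rw [bf_smul, ← bf_mulVec]
  have h1 := h (u + v)
  rw [Matrix.mulVec_add, bf_add_left, bf_add_right, bf_add_right, bf_add_left, bf_add_right, bf_add_right, h u, h v,
    bf_symm hG v u, bf_symm hG' (k *ᵥ v) (k *ᵥ u)] at h1
  have h3 : 2 * (bf G u v - c * bf G' (k *ᵥ u) (k *ᵥ v)) = 0 := by
    linear_combination h1
  exact sub_eq_zero.1 ((mul_eq_zero.1 h3).resolve_left h2)

/-- The determinant of a similarity of a symmetric form. -/
lemma sym_det {m : ℕ} (hn : n = 2 * m) (G g : GL (Fin n) F) (z : F) (h : (g : MM)ᵀ * (G : MM) * (g : MM) = z • (G : MM)) :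
    (g : MM).det = z ^ m ∨ (g : MM).det = - z ^ m := by
  have h1 := det_sim_sq G g z h
  apply sq_eq_sq_iff_eq_or_eq_neg.1
  rw [h1, hn, ← pow_mul, mul_comm]

/-- There is a non-singular vector. -/
lemma exists_nonsing (h2 : (2 : F) ≠ 0) (hn : 1 ≤ n) (G : GL (Fin n) F) (hG : (G : MM)ᵀ = (G : MM)) :
    ∃ v, Qg (G : MM) v ≠ 0 := by
  by_contra hc
  push Not at hc
  have h0 := Qg_nondeg h2 hG
  have h1 : ∀ x y, P (Qg (G : MM)) x y = 0 := by
    intro x y
    change QuadraticMap.polar (⇑(Qg (G : MM))) x y = 0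
    simp [QuadraticMap.polar, hc]
  have h3 : (Pi.single ⟨0, hn⟩ 1 : Fin n → F) = 0 := h0.1 _ (h1 _)
  have := congrFun h3 ⟨0, hn⟩
  simp at this

/-- There is a reflection. -/
lemma refl_exists (h2 : (2 : F) ≠ 0) (hn : 1 ≤ n) (G : GL (Fin n) F) (hG : (G : MM)ᵀ = (G : MM)) :
    ∃ r : GL (Fin n) F, (r : MM)ᵀ * (G : MM) * (r : MM) = (G : MM) ∧ (r : MM).det = -1 := by
  obtain ⟨v, hv⟩ := exists_nonsing h2 hn G hG
  let r := Cfsg.Agent.Lib.Classical.reflIso (Qg (G : MM)) v hv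
  refine ⟨(r : GL (Fin n) F), ?_, Cfsg.Agent.Lib.Classical.reflectionMatrix_det _ v hv⟩
  have h1 : ∀ x, bf (G : MM) x x = 1 * bf (G : MM) (((r : GL (Fin n) F) : MM) *ᵥ x) (((r : GL (Fin n) F) : MM) *ᵥ x) := by
    intro x
    rw [one_mul, ← Qg_apply, ← Qg_apply]
    exact ((Cfsg.Agent.Lib.Classical.mem_isometryGroup_iff _ _).1 r.2 x).symm
  have h3 := sim_of_quad h2 hG hG _ 1 h1
  rw [one_smul] at h3
  exact h3.symm

/-- All multipliers occur for a symmetric form of even dimension. -/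
theorem sym_exists [Fintype F] (h2 : (2 : F) ≠ 0) {m : ℕ} (hm : 1 ≤ m) (hn : n = 2 * m) (G : GL (Fin n) F) (hG : (G : MM)ᵀ = (G : MM)) (z : Fˣ) :
    ∃ g : GL (Fin n) F, (g : MM)ᵀ * (G : MM) * (g : MM) = (z : F) • (G : MM) := by
  classical
  set G' : GL (Fin n) F := sc z * G with hG'
  have hG'v : (G' : MM) = (z : F) • (G : MM) := by
    rw [hG', Units.val_mul, sc_coe, Matrix.smul_mul, Matrix.one_mul]
  have hG's : (G' : MM)ᵀ = (G' : MM) := by
    rw [hG'v, Matrix.transpose_smul, hG]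
  have hQ' : ∀ v, Qg (G' : MM) v = (z : F) * Qg (G : MM) v := by
    intro v
    rw [Qg_apply, Qg_apply, hG'v, bf_smul]
  have hV : finrank F (Fin n → F) = 2 * m := by simp [hn]
  have key : ∃ φ : (Fin n → F) ≃ₗ[F] (Fin n → F), ∀ v, Qg (G : MM) (φ v) = Qg (G' : MM) v := by
    rcases isometry_even hm hV _ (Qg_nondeg h2 hG) with ⟨θ, hθ⟩ | ⟨ζ, θ, hζ, hθ⟩ <;>
    rcases isometry_even hm hV _ (Qg_nondeg h2 hG's) with ⟨θ', hθ'⟩ | ⟨ζ', θ', hζ', hθ'⟩
    · refine ⟨θ'.trans θ.symm, fun v => ?_⟩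
      rw [← hθ, ← hθ']
      simp
    · exfalso
      obtain ⟨U, hU, hUd⟩ := Cfsg.Agent.Lib.Known3.Witt.exists_singular_plus (F := F) m
      have h1 := Cfsg.Agent.Lib.Known3.Witt.finrank_le_of_singular_minus (m - 1) 1 ζ' (anisotropic_of ζ' hζ') (U.map ((θ.symm.trans θ') : _ →ₗ[F] _)) (by
        rintro _ ⟨u, hu, rfl⟩
        change Cfsg.quadFormMinus (m - 1) F 1 ζ' (θ' (θ.symm u)) = 0
        rw [hθ', hQ', ← hθ, θ.apply_symm_apply, hU u hu, mul_zero])
      rw [LinearEquiv.finrank_map_eq, hUd] at h1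
      omega
    · exfalso
      obtain ⟨U, hU, hUd⟩ := Cfsg.Agent.Lib.Known3.Witt.exists_singular_plus (F := F) m
      have h1 := Cfsg.Agent.Lib.Known3.Witt.finrank_le_of_singular_minus (m - 1) 1 ζ (anisotropic_of ζ hζ) (U.map ((θ'.symm.trans θ) : _ →ₗ[F] _)) (by
        rintro _ ⟨u, hu, rfl⟩
        change Cfsg.quadFormMinus (m - 1) F 1 ζ (θ (θ'.symm u)) = 0
        rw [hθ]
        have h3 := hQ' (θ'.symm u)
        rw [← hθ', θ'.apply_symm_apply, hU u hu] at h3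
        exact (mul_eq_zero.1 h3.symm).resolve_left z.ne_zero)
      rw [LinearEquiv.finrank_map_eq, hUd] at h1
      omega
    · obtain ⟨e', he'⟩ := Cfsg.Agent.Lib.AutPO.minus_isometric (m - 1) 1 ζ' 1 ζ (anisotropic_of ζ' hζ') (anisotropic_of ζ hζ)
      refine ⟨θ'.trans (e'.trans θ.symm), fun v => ?_⟩
      rw [← hθ, ← hθ']
      simp [he']
  obtain ⟨φ, hφ⟩ := key
  refine ⟨lk φ, ?_⟩
  have h1 : ∀ x, bf (G' : MM) x x = 1 * bf (G : MM) (((lk φ : GL (Fin n) F) : MM) *ᵥ x) (((lk φ : GL (Fin n) F) : MM) *ᵥ x) := by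
    intro x
    rw [one_mul, lk_mulVec, ← Qg_apply, ← Qg_apply, hφ]
  have h3 := sim_of_quad h2 hG's hG _ 1 h1
  rw [one_smul] at h3
  rw [← h3, hG'v]

end Cfsg.Agent.Lib.Known3.Graph
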