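import Mathlib
import Cfsg.Agent.Lib.Known3.GraphSplit2

/-! The centraliser of an orthogonal graph involution is not a conformal symplectic group. -/

set_option autoImplicit false
set_option linter.unusedVariables false
set_option linter.unusedSectionVars false

namespace Cfsg.Agent.Lib.Known3.Graph

open Matrix Module Cfsg
open scoped MatrixGroups
open Cfsg.Agent.Lib.AutPSL Cfsg.Agent.Lib.Known3.FieldAut Cfsg.Agent.Lib.Known3.QuadIso Cfsg.Agent.Lib.Classical.Abs

local notation "P" => QuadraticMap.polarBilin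

variable {F : Type*} [Field F] {n : ℕ}

local notation "MM" => Matrix (Fin n) (Fin n) F

/-- The order of a projective conformal orthogonal group divides the order of the isometry group times `q - 1`. -/
theorem pgo_card_dvd [Fintype F] {ι : Type} [Fintype ι] [DecidableEq ι] (Q : (ι → F) → F) (v₀ : ι → F) (hv₀ : Q v₀ ≠ 0) :
    Nat.card (PGO F Q) ∣ Nat.card (isometryGroup F Q) * (Fintype.card F - 1) := by
  classical
  set H := Geo.quadSimilarityGroup (F := F) Q with hH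
  have hne : ∀ h : H, Q (((h : GL ι F) : Matrix ι ι F) *ᵥ v₀) / Q v₀ ≠ 0 := by
    rintro ⟨h, c, hc⟩
    rw [hc]
    exact div_ne_zero (mul_ne_zero c.ne_zero hv₀) hv₀
  have hmul : ∀ (h : H) (c : Fˣ), (∀ v, Q (((h : GL ι F) : Matrix ι ι F) *ᵥ v) = (c : F) * Q v) → Q (((h : GL ι F) : Matrix ι ι F) *ᵥ v₀) / Q v₀ = c := by
    intro h c hc
    rw [hc, mul_div_cancel_right₀ _ hv₀]
  let μ : H →* Fˣ := MonoidHom.mk' (fun h => Units.mk0 _ (hne h)) (by
    rintro ⟨a, ca, hca⟩ ⟨b, cb, hcb⟩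
    apply Units.ext
    change _ / _ = (_ / _) * (_ / _)
    have e : (((a * b : GL ι F)) : Matrix ι ι F) *ᵥ v₀ = (a : Matrix ι ι F) *ᵥ ((b : Matrix ι ι F) *ᵥ v₀) := by
      rw [Units.val_mul, Matrix.mulVec_mulVec]
    change Q (((a * b : GL ι F) : Matrix ι ι F) *ᵥ v₀) / Q v₀ = _
    rw [e, hca, hcb, hca]
    field_simp)
  have hμ : ∀ (h : H) (c : Fˣ), (∀ v, Q (((h : GL ι F) : Matrix ι ι F) *ᵥ v) = (c : F) * Q v) → μ h = c := by
    intro h c hc
    exact Units.ext (hmul h c hc)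
  have hker : Nat.card μ.ker = Nat.card (isometryGroup F Q) := by
    apply Nat.card_congr
    refine Equiv.ofBijective (fun x => ⟨((x : H) : GL ι F), ?_⟩) ⟨?_, ?_⟩
    · obtain ⟨c, hc⟩ := (x : H).2
      have h1 : μ (x : H) = c := hμ _ c hc
      have h2 : c = 1 := by
        rw [← h1]
        exact x.2
      rw [Cfsg.Agent.Lib.Classical.mem_isometryGroup_iff]
      intro v
      rw [hc, h2, Units.val_one, one_mul]
    · intro a b h
      have h5 := congrArg (fun y : isometryGroup F Q => (y : GL ι F)) h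
      exact Subtype.ext (Subtype.ext h5)
    · rintro ⟨g, hg⟩
      have hg' := (Cfsg.Agent.Lib.Classical.mem_isometryGroup_iff _ _).1 hg
      have hgH : g ∈ H := ⟨1, fun v => by rw [hg', Units.val_one, one_mul]⟩
      refine ⟨⟨⟨g, hgH⟩, ?_⟩, rfl⟩
      rw [MonoidHom.mem_ker]
      exact hμ ⟨g, hgH⟩ 1 (fun v => by rw [hg', Units.val_one, one_mul])
  have h1 : Nat.card H = Nat.card μ.ker * Nat.card μ.range := by
    have h3 := Subgroup.card_mul_index μ.ker
    rw [Subgroup.index_ker] at h3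
    exact h3.symm
  have h3 : Nat.card μ.range ∣ Fintype.card F - 1 := by
    have := Subgroup.card_subgroup_dvd_card μ.range
    rwa [Nat.card_eq_fintype_card (α := Fˣ), Fintype.card_units] at this
  have h4 : Nat.card (PGO F Q) ∣ Nat.card H := by
    change Nat.card (H ⧸ (Geo.scalars ι F).subgroupOf H) ∣ _
    rw [Subgroup.card_eq_card_quotient_mul_card_subgroup ((Geo.scalars ι F).subgroupOf H)]
    exact dvd_mul_right _ _
  refine h4.trans ?_
  rw [h1, hker]
  exact mul_dvd_mul_left _ h3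

/-- The order of the projective conformal symplectic group. -/
theorem card_PGSp [Fintype F] {m : ℕ} (hm : 1 ≤ m) : Nat.card (PGSp m F) = Nat.card (Matrix.symplecticGroup (Fin m) F) := by
  classical
  have h0 := Cfsg.Agent.Lib.Classical.AutCount.card_GSp (F := F) hm
  have h1 : Nat.card ((Geo.scalars (Fin m ⊕ Fin m) F).subgroupOf (GSp m F)) = Fintype.card F - 1 := by
    rw [← Fintype.card_units, ← Nat.card_eq_fintype_card]
    symm
    apply Nat.card_congr
    refine Equiv.ofBijective (fun c => ⟨scS c, ?_⟩) ⟨?_, ?_⟩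
    · rw [Subgroup.mem_subgroupOf, Geo.mem_scalars_iff]
      exact ⟨c, sc_coe c⟩
    · intro a b h
      apply sc_inj_sp hm
      have h1 := congrArg (fun x : ((Geo.scalars (Fin m ⊕ Fin m) F).subgroupOf (GSp m F)) => ((x : GSp m F) : GL (Fin m ⊕ Fin m) F)) h
      exact h1
    · rintro ⟨t, ht⟩
      rw [Subgroup.mem_subgroupOf, Geo.mem_scalars_iff] at ht
      obtain ⟨c, hc⟩ := ht
      refine ⟨c, ?_⟩
      apply Subtype.ext
      apply Subtype.ext
      apply Units.ext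
      exact hc.symm
  have h2 := Subgroup.card_eq_card_quotient_mul_card_subgroup ((Geo.scalars (Fin m ⊕ Fin m) F).subgroupOf (GSp m F))
  rw [h1, h0] at h2
  have hq : 2 ≤ Fintype.card F := Fintype.one_lt_card
  exact (Nat.eq_of_mul_eq_mul_right (by omega) h2).symm

/-- The arithmetic comparison. -/
lemma not_dvd_aux {q m : ℕ} (hq : Odd q) (hq3 : 2 ≤ q) (hm : 1 ≤ m) (X Y : ℕ) (hX : Nat.Coprime q X) (hdvd : q ^ (m ^ 2) * Y ∣ (2 * q ^ (m * (m - 1)) * X) * (q - 1)) (hY : 0 < Y) : False := by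
  have h1 : q ^ (m ^ 2) = q ^ (m * (m - 1)) * q ^ m := by
    rw [← pow_add]
    congr 1
    obtain ⟨k, rfl⟩ : ∃ k, m = k + 1 := ⟨m - 1, by omega⟩
    simp only [Nat.add_sub_cancel]
    ring
  have h2 : q ^ m ∣ 2 * X * (q - 1) := by
    have h3 : q ^ (m * (m - 1)) * q ^ m ∣ q ^ (m * (m - 1)) * (2 * X * (q - 1)) := by
      refine (Dvd.dvd.trans ?_ hdvd).trans (dvd_of_eq (by ring))
      rw [h1]
      exact dvd_mul_right _ _
    exact Nat.dvd_of_mul_dvd_mul_left (pow_pos (by omega) _) h3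
  have hc : Nat.Coprime (q ^ m) (2 * X * (q - 1)) := by
    apply Nat.Coprime.pow_left
    apply Nat.Coprime.mul_right
    · apply Nat.Coprime.mul_right _ hX
      exact Nat.coprime_two_right.2 hq
    · have h4 : q = (q - 1) + 1 := by omega
      rw [Nat.coprime_comm]
      conv_rhs => rw [h4]
      exact (Nat.coprime_self_add_right).2 (Nat.coprime_one_right _)
  have h5 : q ^ m = 1 := Nat.Coprime.eq_one_of_dvd hc h2
  have h6 : 2 ≤ q ^ m := le_trans hq3 (Nat.le_self_pow (by omega) _)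
  omega

/-- Coprimality of `q^k ∓ 1`. -/
lemma coprime_sub_one {q k : ℕ} (hq : 1 ≤ q) (hk : 1 ≤ k) : Nat.Coprime q (q ^ k - 1) := by
  have h1 : 1 ≤ q ^ k := Nat.one_le_pow _ _ hq
  have h2 : Nat.Coprime (q ^ k) (q ^ k - 1) := by
    have h4 : q ^ k = (q ^ k - 1) + 1 := by omega
    rw [Nat.coprime_comm]
    conv_rhs => rw [h4]
    exact (Nat.coprime_self_add_right).2 (Nat.coprime_one_right _)
  exact Nat.Coprime.of_dvd_left (dvd_pow_self _ (by omega)) h2

lemma coprime_add_one {q k : ℕ} (hk : 1 ≤ k) : Nat.Coprime q (q ^ k + 1) := by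
  have h2 : Nat.Coprime (q ^ k) (q ^ k + 1) := (Nat.coprime_self_add_right).2 (Nat.coprime_one_right _)
  exact Nat.Coprime.of_dvd_left (dvd_pow_self _ (by omega)) h2

/-- The centraliser of an orthogonal graph involution is not conformal symplectic. -/
theorem not_iso_PGSp [Fintype F] (hodd : Odd (Fintype.card F)) {m : ℕ} (hm : 1 ≤ m) (hn : n = 2 * m) (hn2 : 2 ≤ n) (G : GL (Fin n) F) (hG : (G : MM)ᵀ = (G : MM)) :
    ¬ Nonempty (↥(inndiagPSL n F ⊓ Subgroup.centralizer {(gg G : MulAut (PSLn n F))}) ≃* PGSp m F) := by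
  classical
  rintro ⟨φ⟩
  have h2 : (2 : F) ≠ 0 := Cfsg.Agent.Lib.Known3.OmegaCalc.two_ne_of_odd rfl hodd
  set q := Fintype.card F with hq
  have hq2 : 2 ≤ q := Fintype.one_lt_card
  have hq1 : 1 ≤ q := by omega
  have hV : finrank F (Fin n → F) = 2 * m := by simp [hn]
  have hord : Nat.card (PGSp m F) = q ^ (m ^ 2) * ∏ i ∈ Finset.range m, (q ^ (2 * (i + 1)) - 1) := by
    rw [card_PGSp hm]
    exact Cfsg.Agent.S0245.result rfl m
  have hY : 0 < ∏ i ∈ Finset.range m, (q ^ (2 * (i + 1)) - 1) := by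
    apply Finset.prod_pos
    intro i _
    have : q ≤ q ^ (2 * (i + 1)) := Nat.le_self_pow (by omega) q
    omega
  have hcop : ∀ k, Nat.Coprime q (∏ i ∈ Finset.range k, (q ^ (2 * (i + 1)) - 1)) := by
    intro k
    apply Nat.Coprime.prod_right
    intro i _
    exact coprime_sub_one hq1 (by omega)
  obtain ⟨k, rfl⟩ : ∃ k, m = k + 1 := ⟨m - 1, by omega⟩
  rcases isometry_even hm hV _ (Qg_nondeg h2 hG) with ⟨θ, hθ⟩ | ⟨ζ, θ, hζ, hθ⟩
  · obtain ⟨ψ⟩ := cent_quad hn2 h2 G hG θ (Cfsg.quadFormPlus (k + 1) F) 1 one_ne_zero (fun v => by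
      rw [one_mul, hθ, Qg_apply])
    have h1 : Nat.card (PGSp (k + 1) F) = Nat.card (PGO F (Cfsg.quadFormPlus (k + 1) F)) := by
      rw [← Nat.card_congr φ.toEquiv, Nat.card_congr ψ.toEquiv]
    have hv : ∃ v, Cfsg.quadFormPlus (k + 1) F v ≠ 0 := by
      obtain ⟨v, hv⟩ := exists_nonsing h2 (by omega) G hG
      exact ⟨θ v, by rwa [hθ]⟩
    obtain ⟨v₀, hv₀⟩ := hv
    have h3 := pgo_card_dvd (Cfsg.quadFormPlus (k + 1) F) v₀ hv₀
    rw [← h1, hord, card_isometryGroup' _ (Qplus (k + 1) F) (Qplus_apply (k + 1)), Qplus_order k] at h3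
    have h4 : q ^ ((k + 1) ^ 2) * (∏ i ∈ Finset.range (k + 1), (q ^ (2 * (i + 1)) - 1)) ∣ (2 * q ^ ((k + 1) * (k + 1 - 1)) * ((q ^ (k + 1) - 1) * ∏ i ∈ Finset.range k, (q ^ (2 * (i + 1)) - 1))) * (q - 1) := by
      simp only [Nat.add_sub_cancel]
      rw [← mul_assoc (2 * q ^ ((k + 1) * k))]
      exact h3
    exact not_dvd_aux hodd hq2 hm _ _ (Nat.Coprime.mul_right (coprime_sub_one hq1 (by omega)) (hcop k)) h4 hY
  · obtain ⟨ψ⟩ := cent_quad hn2 h2 G hG θ (Cfsg.quadFormMinus (k + 1 - 1) F 1 ζ) 1 one_ne_zero (fun v => by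
      rw [one_mul, hθ, Qg_apply])
    have h1 : Nat.card (PGSp (k + 1) F) = Nat.card (PGO F (Cfsg.quadFormMinus (k + 1 - 1) F 1 ζ)) := by
      rw [← Nat.card_congr φ.toEquiv, Nat.card_congr ψ.toEquiv]
    have hv : ∃ v, Cfsg.quadFormMinus (k + 1 - 1) F 1 ζ v ≠ 0 := by
      obtain ⟨v, hv⟩ := exists_nonsing h2 (by omega) G hG
      exact ⟨θ v, by rwa [hθ]⟩
    obtain ⟨v₀, hv₀⟩ := hv
    have h3 := pgo_card_dvd (Cfsg.quadFormMinus (k + 1 - 1) F 1 ζ) v₀ hv₀
    rw [← h1, hord, card_isometryGroup' _ (Qminus (k + 1 - 1) F 1 ζ) (Qminus_apply (k + 1 - 1) 1 ζ), Qminus_order (anisotropic_of ζ hζ) (k + 1 - 1)] at h3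
    have h4 : q ^ ((k + 1) ^ 2) * (∏ i ∈ Finset.range (k + 1), (q ^ (2 * (i + 1)) - 1)) ∣ (2 * q ^ ((k + 1) * (k + 1 - 1)) * ((q ^ (k + 1) + 1) * ∏ i ∈ Finset.range k, (q ^ (2 * (i + 1)) - 1))) * (q - 1) := by
      simp only [Nat.add_sub_cancel] at h3 ⊢
      rw [← mul_assoc (2 * q ^ ((k + 1) * k))]
      exact h3
    exact not_dvd_aux hodd hq2 hm _ _ (Nat.Coprime.mul_right (coprime_add_one (by omega)) (hcop k)) h4 hY

end Cfsg.Agent.Lib.Known3.Graph
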