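import Mathlib
import Cfsg.Agent.Lib.Known3.GraphSplit3

/-! The splitting of the classes of graph involutions of `PSL_n`. -/

set_option autoImplicit false
set_option linter.unusedVariables false
set_option linter.unusedSectionVars false

namespace Cfsg.Agent.Lib.Known3.Graph

open Matrix Module Cfsg
open scoped MatrixGroups
open Cfsg.Agent.Lib.AutPSL Cfsg.Agent.Lib.Known3.FieldAut Cfsg.Agent.Lib.Known3.QuadIso Cfsg.Agent.Lib.Classical.Abs

section cyc

variable {D : Type*} [CommGroup D] [Finite D] [IsCyclic D]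

lemma idx_one (n : ℕ) : ((powMonoidHom n : D →* D).range ⊔ ⊥).index = Nat.gcd n (Nat.card D) := by
  rw [sup_bot_eq, IsCyclic.index_powMonoidHom_range, Nat.gcd_comm]

lemma idx_m (m : ℕ) : ((powMonoidHom (2 * m) : D →* D).range ⊔ (powMonoidHom m : D →* D).range).index = Nat.gcd m (Nat.card D) := by
  have h : (powMonoidHom (2 * m) : D →* D).range ≤ (powMonoidHom m : D →* D).range := by
    rintro _ ⟨x, rfl⟩
    exact ⟨x ^ 2, by simp [powMonoidHom_apply, ← pow_mul, mul_comm]⟩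
  rw [sup_eq_right.2 h, IsCyclic.index_powMonoidHom_range, Nat.gcd_comm]

lemma idx_neg (m : ℕ) (ν : D) (hν : orderOf ν = 2) :
    ((powMonoidHom (2 * m) : D →* D).range ⊔ ((powMonoidHom m : D →* D).range ⊔ Subgroup.zpowers ν)).index = Nat.gcd (2 * m) (Nat.card D) / 2 := by
  classical
  obtain ⟨ω, hω⟩ := IsCyclic.exists_generator (α := D)
  have h : (powMonoidHom (2 * m) : D →* D).range ≤ (powMonoidHom m : D →* D).range ⊔ Subgroup.zpowers ν := by
    rintro _ ⟨x, rfl⟩
    exact (le_sup_left : (powMonoidHom m : D →* D).range ≤ _) ⟨x ^ 2, by simp [powMonoidHom_apply, ← pow_mul, mul_comm]⟩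
  rw [sup_eq_right.2 h, SplitCount.index_sup_cyclic ω hω, IsCyclic.index_powMonoidHom_range]
  have h1 := Subgroup.card_mul_index (Subgroup.zpowers ν)
  rw [Nat.card_zpowers, hν] at h1
  obtain ⟨t, ht⟩ : ∃ t, Nat.card D = 2 * t := ⟨_, h1.symm⟩
  have h3 : (Subgroup.zpowers ν).index = t := by
    rw [ht] at h1
    exact Nat.eq_of_mul_eq_mul_left (by norm_num) h1
  rw [h3, ht, Nat.gcd_mul_left, Nat.mul_div_cancel_left _ (by norm_num : 0 < 2), Nat.gcd_assoc]
  have h4 : Nat.gcd (2 * t) t = t := Nat.gcd_eq_right (dvd_mul_left _ _)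
  exact Nat.gcd_eq_right ((Nat.gcd_dvd_right _ _).trans (dvd_mul_left _ _))

end cyc

variable {F : Type*} [Field F] [Fintype F] {n : ℕ}

local notation "MM" => Matrix (Fin n) (Fin n) F

/-- The parametrisation. -/
noncomputable abbrev rhoL (n : ℕ) (F : Type*) [Field F] : GL (Fin n) F →* MulAut (PSLn n F) := { toFun := conjP, map_one' := conjP_one, map_mul' := conjP_mul }

lemma units_eq_of_det (g : GL (Fin n) F) (a : Fˣ) (h : (g : MM).det = (a : F)) : Matrix.GeneralLinearGroup.det g = a := Units.ext h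

theorem split_pow (hn : 2 ≤ n) (G : GL (Fin n) F)
    (hdet : ∀ (g : GL (Fin n) F) (z : Fˣ), (g : MM)ᵀ * (G : MM) * (g : MM) = (z : F) • (G : MM) → ∃ w : Fˣ, z = w ^ 2 ∧ (g : MM).det = ((w ^ n : Fˣ) : F)) :
    splitClassCount (inndiagPSL n F) (Inn (PSLn n F)) (gg G) = Nat.gcd n (Fintype.card F - 1) := by
  have h1 : splitClassCount (inndiagPSL n F) (Inn (PSLn n F)) (gg G) = ((powMonoidHom n : Fˣ →* Fˣ).range ⊔ ⊥).index := by
    apply SplitCount.split_count (rhoL n F) Matrix.GeneralLinearGroup.det (det_surj hn) _ _ inndiag_eq_range (inn_le_inndiagL hn)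
    · exact conjP_mem_inn_iff hn
    · intro g hg
      obtain ⟨z, hz⟩ := (comm_iff hn G g).1 hg
      obtain ⟨w, -, hw⟩ := hdet g z hz
      rw [sup_bot_eq]
      exact ⟨w, (units_eq_of_det g _ hw).symm⟩
    · intro a ha
      refine ⟨1, (comm_iff hn G 1).2 (Subgroup.one_mem _), ?_⟩
      rw [Subgroup.mem_bot.1 ha, map_one]
  rw [h1, idx_one, Nat.card_units, Nat.card_eq_fintype_card]

theorem split_skew (h2 : (2 : F) ≠ 0) {m : ℕ} (hn : 2 ≤ n) (hnm : n = 2 * m) (G : GL (Fin n) F) (hG : (G : MM)ᵀ = -(G : MM)) :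
    splitClassCount (inndiagPSL n F) (Inn (PSLn n F)) (gg G) = Nat.gcd m (Fintype.card F - 1) := by
  have h1 : splitClassCount (inndiagPSL n F) (Inn (PSLn n F)) (gg G) = ((powMonoidHom n : Fˣ →* Fˣ).range ⊔ (powMonoidHom m : Fˣ →* Fˣ).range).index := by
    apply SplitCount.split_count (rhoL n F) Matrix.GeneralLinearGroup.det (det_surj hn) _ _ inndiag_eq_range (inn_le_inndiagL hn)
    · exact conjP_mem_inn_iff hn
    · intro g hg
      obtain ⟨z, hz⟩ := (comm_iff hn G g).1 hg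
      have hw := skew_det h2 hnm G hG g z hz
      exact (le_sup_right : (powMonoidHom m : Fˣ →* Fˣ).range ≤ _) ⟨z, (Units.ext (by rw [← Units.val_pow_eq_pow_val] at hw; exact hw.symm) : z ^ m = _)⟩
    · rintro _ ⟨z, rfl⟩
      obtain ⟨g, hg, hd⟩ := skew_exists h2 hnm G hG z
      exact ⟨g, (comm_iff hn G g).2 ⟨z, hg⟩, Units.ext (by
        change (g : MM).det = _
        rw [hd]
        simp)⟩
  subst hnm
  rw [h1, idx_m, Nat.card_units, Nat.card_eq_fintype_card]

theorem split_sym (h2 : (2 : F) ≠ 0) {m : ℕ} (hm : 1 ≤ m) (hn : 2 ≤ n) (hnm : n = 2 * m) (G : GL (Fin n) F) (hG : (G : MM)ᵀ = (G : MM)) :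
    splitClassCount (inndiagPSL n F) (Inn (PSLn n F)) (gg G) = Nat.gcd n (Fintype.card F - 1) / 2 := by
  classical
  have hneg : (-1 : Fˣ) ≠ 1 := by
    intro h
    have h3 := congrArg Units.val h
    simp only [Units.val_neg, Units.val_one] at h3
    apply h2
    linear_combination (-1 : F) * h3
  have hord : orderOf (-1 : Fˣ) = 2 := by
    haveI : Fact (Nat.Prime 2) := ⟨Nat.prime_two⟩
    exact orderOf_eq_prime (by simp) hneg
  have h1 : splitClassCount (inndiagPSL n F) (Inn (PSLn n F)) (gg G) = ((powMonoidHom n : Fˣ →* Fˣ).range ⊔ ((powMonoidHom m : Fˣ →* Fˣ).range ⊔ Subgroup.zpowers (-1 : Fˣ))).index := by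
    apply SplitCount.split_count (rhoL n F) Matrix.GeneralLinearGroup.det (det_surj hn) _ _ inndiag_eq_range (inn_le_inndiagL hn)
    · exact conjP_mem_inn_iff hn
    · intro g hg
      obtain ⟨z, hz⟩ := (comm_iff hn G g).1 hg
      apply (le_sup_right : (powMonoidHom m : Fˣ →* Fˣ).range ⊔ Subgroup.zpowers (-1 : Fˣ) ≤ _)
      rcases sym_det hnm G g z hz with h3 | h3
      · exact (le_sup_left : (powMonoidHom m : Fˣ →* Fˣ).range ≤ _) ⟨z, (Units.ext (by rw [← Units.val_pow_eq_pow_val] at h3; exact h3.symm) : z ^ m = _)⟩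
      · have h4 : Matrix.GeneralLinearGroup.det g = (-1) * z ^ m := Units.ext (by
          change (g : MM).det = _
          rw [h3]
          simp)
        change Matrix.GeneralLinearGroup.det g ∈ _
        rw [h4, mul_comm]
        exact Subgroup.mul_mem _ ((le_sup_left : (powMonoidHom m : Fˣ →* Fˣ).range ≤ _) ⟨z, rfl⟩) ((le_sup_right : Subgroup.zpowers (-1 : Fˣ) ≤ _) (Subgroup.mem_zpowers _))
    · intro a ha
      obtain ⟨_, ⟨z, rfl⟩, y, hy, rfl⟩ := Subgroup.mem_sup.1 ha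
      have hy' : y = 1 ∨ y = -1 := by
        obtain ⟨k, rfl⟩ := Subgroup.mem_zpowers_iff.1 hy
        rcases Int.even_or_odd k with hk | hk
        · exact Or.inl (hk.neg_one_zpow)
        · exact Or.inr (hk.neg_one_zpow)
      obtain ⟨r, hr, hdr⟩ := refl_exists h2 (by omega) G hG
      obtain ⟨g₀, hg₀⟩ := sym_exists h2 hm hnm G hG z
      have hr' : ((g₀ * r : GL (Fin n) F) : MM)ᵀ * (G : MM) * ((g₀ * r : GL (Fin n) F) : MM) = (z : F) • (G : MM) := by
        rw [Units.val_mul, Matrix.transpose_mul]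
        calc (r : MM)ᵀ * (g₀ : MM)ᵀ * (G : MM) * ((g₀ : MM) * (r : MM)) = (r : MM)ᵀ * ((g₀ : MM)ᵀ * (G : MM) * (g₀ : MM)) * (r : MM) := by
              simp only [Matrix.mul_assoc]
          _ = _ := by
              rw [hg₀, Matrix.mul_smul, Matrix.smul_mul, hr]
      have hdd : ((g₀ * r : GL (Fin n) F) : MM).det = - (g₀ : MM).det := by
        rw [Units.val_mul, Matrix.det_mul, hdr]
        ring
      have hval : ∀ g : GL (Fin n) F, ((g : MM)ᵀ * (G : MM) * (g : MM) = (z : F) • (G : MM)) → ((g : MM).det = (((powMonoidHom m : Fˣ →* Fˣ) z * y : Fˣ) : F)) →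
          ∃ g, Commute (rhoL n F g) (gg G) ∧ Matrix.GeneralLinearGroup.det g = (powMonoidHom m : Fˣ →* Fˣ) z * y := by
        intro g h5 h6
        exact ⟨g, (comm_iff hn G g).2 ⟨z, h5⟩, Units.ext h6⟩
      have hpow : (((powMonoidHom m : Fˣ →* Fˣ) z : Fˣ) : F) = (z : F) ^ m := by simp
      rcases hy' with rfl | rfl <;> rcases sym_det hnm G g₀ z hg₀ with h5 | h5
      · exact hval g₀ hg₀ (by rw [h5, mul_one, hpow])
      · exact hval _ hr' (by rw [hdd, h5, mul_one, hpow, neg_neg])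
      · exact hval _ hr' (by rw [hdd, h5, Units.val_mul, hpow]; simp)
      · exact hval g₀ hg₀ (by rw [h5, Units.val_mul, hpow]; simp)
  rw [h1, hnm, idx_neg m _ hord, Nat.card_units, Nat.card_eq_fintype_card]

end Cfsg.Agent.Lib.Known3.Graph
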