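import Mathlib
import Cfsg.Agent.Lib.Known3.GraphPSL
import Cfsg.Agent.Lib.Known3.FieldAutPSU2
import Cfsg.Agent.Lib.Known3.FieldFix

/-! The involutory graph automorphisms of `PSU_n`: they correspond to forms over the subfield. -/

set_option autoImplicit false
set_option linter.unusedVariables false
set_option linter.unusedSectionVars false

namespace Cfsg.Agent.Lib.Known3.GraphU

open Matrix Module Cfsg
open scoped MatrixGroups
open Cfsg.Agent.Lib.AutPSL Cfsg.Agent.Lib.Known3.FieldAut Cfsg.Agent.Lib.Known3.Graph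

variable {F F₀ : Type*} [Field F] [Field F₀] [Fintype F] {n q : ℕ}

local notation "MM" => Matrix (Fin n) (Fin n) F

lemma tauQ_tauQ (hF : Fintype.card F = q ^ 2) (x : F) : tauQ hF (tauQ hF x) = x := by
  have := congrArg (fun t : F ≃+* F => t x) (tauQ_sq hF)
  simpa using this

lemma mp_mp_tauQ (hF : Fintype.card F = q ^ 2) (g : GL (Fin n) F) : mp (tauQ hF) (mp (tauQ hF) g) = g := by
  rw [mp_mp, tauQ_sq, mp_id]

lemma orderOf_tauQ (hF : Fintype.card F = q ^ 2) : orderOf (tauQ hF) = 2 := by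
  haveI : Fact (Nat.Prime 2) := ⟨Nat.prime_two⟩
  exact orderOf_eq_prime (by rw [sq, tauQ_sq]) (tauQ_ne hF)

/-- The element of `GU` criterion, in matrix terms. -/
lemma mem_GU_iff' (hF : Fintype.card F = q ^ 2) (g : GL (Fin n) F) :
    g ∈ GU n F q ↔ (g : MM)ᵀ * ((mp (tauQ hF) g : GL (Fin n) F) : MM) = 1 := by
  rw [mem_GU_iff (tauQ_sq hF) (tauQ_apply hF)]
  have h1 : (((mp (tauQ hF) g)⁻¹ : GL (Fin n) F) : MM) = ((g⁻¹ : GL (Fin n) F) : MM).map (tauQ hF) := by
    rw [← map_inv]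
    rfl
  constructor
  · intro h
    have h2 : (g : MM) = ((g⁻¹ : GL (Fin n) F) : MM)ᵀ.map (tauQ hF) := by
      conv_lhs => rw [← h]
      rfl
    have h3 : (g : MM)ᵀ = ((g⁻¹ : GL (Fin n) F) : MM).map (tauQ hF) := by
      rw [h2]
      ext i j
      simp
    rw [h3, ← h1]
    exact mat_inv_mul _
  · intro h
    have h3 : (g : MM)ᵀ = (((mp (tauQ hF) g)⁻¹ : GL (Fin n) F) : MM) := by
      calc (g : MM)ᵀ = (g : MM)ᵀ * (((mp (tauQ hF) g : GL (Fin n) F) : MM) * (((mp (tauQ hF) g)⁻¹ : GL (Fin n) F) : MM)) := by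
            rw [mat_mul_inv, Matrix.mul_one]
        _ = _ := by rw [← Matrix.mul_assoc, h, Matrix.one_mul]
    rw [h1] at h3
    apply Units.ext
    rw [tau_coe]
    have h4 : ((g⁻¹ : GL (Fin n) F) : MM)ᵀ = (g : MM).map (tauQ hF) := by
      ext i j
      have := congrFun (congrFun h3 j) i
      simp only [Matrix.transpose_apply, Matrix.map_apply] at this ⊢
      rw [this, tauQ_tauQ]
    rw [h4]
    ext i j
    simp [tauQ_tauQ hF]

/-- The twisted conjugation. -/
lemma conj_twist (hF : Fintype.card F = q ^ 2) (x g : GU n F q) :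
    (cU x * (cU g * fU (tauQ hF)) * (cU x)⁻¹ : MulAut (PSU n F q)) = cU (x * g * (mpU (tauQ hF) x)⁻¹) * fU (tauQ hF) := by
  have h := fU_cU (n := n) (q := q) (tauQ hF) x
  have h2 : (fU (tauQ hF) * (cU x)⁻¹ : MulAut (PSU n F q)) = (cU (mpU (tauQ hF) x))⁻¹ * fU (tauQ hF) := by
    rw [eq_inv_mul_iff_mul_eq, ← mul_assoc, ← h]
    group
  rw [map_mul, map_mul, map_inv, mul_assoc, mul_assoc, mul_assoc, h2]
  simp only [mul_assoc]

lemma cU_eq_iff (hF : Fintype.card F = q ^ 2) (hn : 3 ≤ n) (hs : ¬ (n = 3 ∧ q = 2)) (a b : GU n F q) :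
    (cU a : MulAut (PSU n F q)) = cU b ↔ ∃ c : Fˣ, (a : GL (Fin n) F) = sc c * (b : GL (Fin n) F) := by
  constructor
  · intro h
    have h1 : (cU (a * b⁻¹) : MulAut (PSU n F q)) = 1 := by
      rw [map_mul, map_inv, h, mul_inv_cancel]
    obtain ⟨c, hc⟩ := exists_sc_of_cU hF hn hs h1
    refine ⟨c, ?_⟩
    rw [← hc]
    change (a : GL (Fin n) F) = (a : GL (Fin n) F) * (b : GL (Fin n) F)⁻¹ * b
    group
  · rintro ⟨c, hc⟩
    have h1 : ((a * b⁻¹ : GU n F q) : GL (Fin n) F) = sc c := by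
      change (a : GL (Fin n) F) * (b : GL (Fin n) F)⁻¹ = sc c
      rw [hc]
      group
    have h2 := cU_of_sc h1
    rw [map_mul, map_inv] at h2
    exact mul_inv_eq_one.1 h2

/-- The structure of the fixed field. -/
structure FD (hF : Fintype.card F = q ^ 2) (e : F₀ →+* F) : Prop where
  inj : Function.Injective e
  fix : ∀ x, tauQ hF x = x ↔ x ∈ e.range

lemma exists_FD [Fintype F₀] (hF : Fintype.card F = q ^ 2) (hF₀ : Fintype.card F₀ = q) :
    ∃ e : F₀ →+* F, FD hF e := by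
  classical
  obtain ⟨p, hp⟩ := CharP.exists F
  haveI := hp
  obtain ⟨f, hfp, hf⟩ := FiniteField.card F p
  haveI : Fact p.Prime := ⟨hfp⟩
  have hq : q ∣ p ^ (f : ℕ) := by
    rw [← hf, hF]
    exact dvd_pow_self _ two_ne_zero
  obtain ⟨k, -, hk⟩ := (Nat.dvd_prime_pow hfp).1 hq
  have h2 : (f : ℕ) = k * 2 := by
    have : p ^ (k * 2) = p ^ (f : ℕ) := by
      rw [pow_mul, ← hk, ← hF, hf]
    exact (Nat.pow_right_injective hfp.two_le this).symm
  have hfk : (f : ℕ) / 2 = k := by omega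
  obtain ⟨-, e, he, hfix⟩ := FieldFix.exists_fix_embed (p := p) (f := f) hf (tauQ hF) Nat.prime_two (orderOf_tauQ hF) F₀ (by rw [hfk, hF₀, hk])
  exact ⟨e, he, hfix⟩

end Cfsg.Agent.Lib.Known3.GraphU
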