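import Mathlib
import Cfsg.Agent.Lib.Known3.GraphU

/-! The involutory graph automorphisms of `PSU_n`: the data attached to a form. -/

set_option autoImplicit false
set_option linter.unusedVariables false
set_option linter.unusedSectionVars false

namespace Cfsg.Agent.Lib.Known3.GraphU

open Matrix Module Cfsg
open scoped MatrixGroups
open Cfsg.Agent.Lib.AutPSL Cfsg.Agent.Lib.Known3.FieldAut Cfsg.Agent.Lib.Known3.Graph

variable {F F₀ : Type*} [Field F] [Field F₀] [Fintype F] {n q : ℕ}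

local notation "MM" => Matrix (Fin n) (Fin n) F

/-- The map to `GL_n(F)`. -/
abbrev em (e : F₀ →+* F) : GL (Fin n) F₀ →* GL (Fin n) F := Matrix.GeneralLinearGroup.map e

lemma em_coe (e : F₀ →+* F) (y : GL (Fin n) F₀) : ((em e y : GL (Fin n) F) : MM) = (y : Matrix (Fin n) (Fin n) F₀).map e := rfl

variable {hF : Fintype.card F = q ^ 2} {e : F₀ →+* F}

lemma mp_em (D : FD hF e) (y : GL (Fin n) F₀) : mp (tauQ hF) (em e y) = em e y := by
  apply Units.ext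
  ext i j
  exact (D.fix _).2 ⟨_, rfl⟩

/-- The value on scalars. -/
noncomputable abbrev tU (hF : Fintype.card F = q ^ 2) (c : Fˣ) : Fˣ := Units.map ((tauQ hF : F ≃+* F) : F →* F) c

lemma tU_coe (c : Fˣ) : ((tU hF c : Fˣ) : F) = tauQ hF c := rfl

lemma tU_tU (c : Fˣ) : tU hF (tU hF c) = c := Units.ext (tauQ_tauQ hF _)

lemma tU_mul (a b : Fˣ) : tU hF (a * b) = tU hF a * tU hF b := map_mul _ _ _

lemma tU_inv (a : Fˣ) : tU hF a⁻¹ = (tU hF a)⁻¹ := map_inv _ _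

/-- The descent of an element fixed up to a scalar. -/
lemma descend (D : FD hF e) (hn : 1 ≤ n) (y : GL (Fin n) F) (a : Fˣ) (h : y = sc a * mp (tauQ hF) y) :
    ∃ (d : Fˣ) (y₀ : GL (Fin n) F₀), y = sc d * em e y₀ := by
  classical
  have h1 : mp (tauQ hF) y = sc (tU hF a) * y := by
    have h2 := congrArg (mp (tauQ hF)) h
    rw [map_mul, mp_sc, mp_mp_tauQ] at h2
    exact h2
  have h3 : y = sc (a * tU hF a) * y := by
    rw [sc_mul, mul_assoc, ← h1]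
    exact h
  have h4 : (sc (a * tU hF a) : GL (Fin n) F) = 1 := by
    exact mul_right_cancel (a := sc (a * tU hF a)) (b := y) (c := 1) (by rw [← h3, one_mul])
  have h5 : a * tU hF a = 1 := by
    rw [← sc_one_eq] at h4
    exact sc_inj hn h4
  have h6 : nu (tauQ hF) 2 a = 1 := by
    rw [← h5]
    apply Units.ext
    simp [nu, Finset.prod_range_succ, tU_coe]
  obtain ⟨z, hz⟩ := hilbert90_units (tauQ hF) (orderOf_tauQ hF) (by norm_num) a h6
  have hz' : a * tU hF z = z := hz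
  have hfix : mp (tauQ hF) (sc z⁻¹ * y) = sc z⁻¹ * y := by
    have h8 : tU hF a * z = tU hF z := by
      have h9 := congrArg (tU hF) hz'
      rw [tU_mul, tU_tU] at h9
      exact h9
    rw [map_mul, mp_sc, map_inv, h1, ← mul_assoc, ← sc_mul]
    congr 2
    change (tU hF z)⁻¹ * tU hF a = z⁻¹
    rw [← h8]
    group
  obtain ⟨y₀, hy₀⟩ := exists_map_eq (tauQ hF) e D.inj D.fix _ hfix
  refine ⟨z, y₀, ?_⟩
  change y = sc z * Matrix.GeneralLinearGroup.map e y₀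
  rw [hy₀, ← mul_assoc, ← sc_mul, mul_inv_cancel, sc_one_eq, one_mul]

/-- The data attached to a form. -/
structure UD (hF : Fintype.card F = q ^ 2) (e : F₀ →+* F) (G₀ : GL (Fin n) F₀) where
  k : GL (Fin n) F
  ω : Fˣ
  μ : Fˣ
  ε : Fˣ
  hε : ε * ε = 1
  hω : tU hF ω = ε * ω
  hμ : μ * tU hF μ = ε
  hk : (k : MM)ᵀ * ((mp (tauQ hF) k : GL (Fin n) F) : MM) = (ω : F) • ((em e G₀ : GL (Fin n) F) : MM)

variable {G₀ G₀' : GL (Fin n) F₀}

lemma map_T (A : MM) (hF : Fintype.card F = q ^ 2) : (A.map (tauQ hF)).map (tauQ hF) = A := by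
  ext i j
  simp [tauQ_tauQ hF]

lemma em_T (D₀ : FD hF e) (y : GL (Fin n) F₀) : ((em e y : GL (Fin n) F) : MM).map (tauQ hF) = ((em e y : GL (Fin n) F) : MM) := by
  have := congrArg (fun g : GL (Fin n) F => (g : MM)) (mp_em (n := n) D₀ y)
  exact this

/-- The other form of the relation. -/
lemma UD.hk' (D₀ : FD hF e) (D : UD hF e G₀) :
    ((mp (tauQ hF) D.k : GL (Fin n) F) : MM)ᵀ * (D.k : MM) = ((tU hF D.ω : Fˣ) : F) • ((em e G₀ : GL (Fin n) F) : MM) := by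
  have h := congrArg (fun A : MM => A.map (tauQ hF)) D.hk
  simp only [Matrix.map_mul] at h
  have h1 : ((D.k : MM)ᵀ).map (tauQ hF) = ((mp (tauQ hF) D.k : GL (Fin n) F) : MM)ᵀ := rfl
  have h2 : (((mp (tauQ hF) D.k : GL (Fin n) F) : MM)).map (tauQ hF) = (D.k : MM) := map_T _ hF
  have h3 : ((D.ω : F) • ((em e G₀ : GL (Fin n) F) : MM)).map (tauQ hF) = ((tU hF D.ω : Fˣ) : F) • ((em e G₀ : GL (Fin n) F) : MM) := by
    conv_rhs => rw [← em_T D₀ G₀]
    ext i j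
    simp [tU_coe]
  rw [h1, h2, h3] at h
  exact h

/-- The symmetry type. -/
lemma UD.sym (D₀ : FD hF e) (D : UD hF e G₀) :
    ((em e G₀ : GL (Fin n) F) : MM)ᵀ = (D.ε : F) • ((em e G₀ : GL (Fin n) F) : MM) := by
  have h1 := congrArg Matrix.transpose D.hk
  rw [Matrix.transpose_mul, Matrix.transpose_transpose, Matrix.transpose_smul, D.hk' D₀, D.hω, Units.val_mul, mul_smul] at h1
  have h2 : (D.ω : F) ≠ 0 := D.ω.ne_zero
  have h3 : (D.ω : F) • ((em e G₀ : GL (Fin n) F) : MM)ᵀ = (D.ω : F) • ((D.ε : F) • ((em e G₀ : GL (Fin n) F) : MM)) := by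
    rw [← h1, smul_comm]
  exact smul_right_injective MM h2 h3

/-- A sandwich identity. -/
lemma UD.sand (D₀ : FD hF e) (D : UD hF e G₀) :
    (((mp (tauQ hF) D.k)⁻¹ : GL (Fin n) F) : MM)ᵀ * ((em e G₀ : GL (Fin n) F) : MM) * ((D.k⁻¹ : GL (Fin n) F) : MM) = (((tU hF D.ω)⁻¹ : Fˣ) : F) • (1 : MM) := by
  have h1 : ((em e G₀ : GL (Fin n) F) : MM) = (((tU hF D.ω)⁻¹ : Fˣ) : F) • (((mp (tauQ hF) D.k : GL (Fin n) F) : MM)ᵀ * (D.k : MM)) := by
    rw [D.hk' D₀, smul_smul]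
    simp
  rw [h1, Matrix.mul_smul, Matrix.smul_mul]
  congr 1
  rw [← Matrix.mul_assoc, ← Matrix.transpose_mul, mat_mul_inv, Matrix.transpose_one, Matrix.one_mul]
  exact mat_mul_inv _

/-- A second sandwich identity. -/
lemma UD.sand' (D : UD hF e G₀) :
    ((D.k⁻¹ : GL (Fin n) F) : MM)ᵀ * ((em e G₀ : GL (Fin n) F) : MM) * (((mp (tauQ hF) D.k)⁻¹ : GL (Fin n) F) : MM) = ((D.ω⁻¹ : Fˣ) : F) • (1 : MM) := by
  have h1 : ((em e G₀ : GL (Fin n) F) : MM) = ((D.ω⁻¹ : Fˣ) : F) • ((D.k : MM)ᵀ * ((mp (tauQ hF) D.k : GL (Fin n) F) : MM)) := by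
    rw [D.hk, smul_smul]
    simp
  rw [h1, Matrix.mul_smul, Matrix.smul_mul]
  congr 1
  rw [← Matrix.mul_assoc, ← Matrix.transpose_mul, mat_mul_inv, Matrix.transpose_one, Matrix.one_mul]
  exact mat_mul_inv _

/-- The representative in `GL`. -/
noncomputable def UD.gm (D : UD hF e G₀) : GL (Fin n) F := sc D.μ * (D.k * (mp (tauQ hF) D.k)⁻¹)

lemma UD.mp_gm (D : UD hF e G₀) : mp (tauQ hF) D.gm = sc (tU hF D.μ) * (mp (tauQ hF) D.k * D.k⁻¹) := by
  rw [UD.gm, map_mul, mp_sc, map_mul, map_inv, mp_mp_tauQ]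

lemma UD.gm_mem (D₀ : FD hF e) (D : UD hF e G₀) : D.gm ∈ GU n F q := by
  rw [mem_GU_iff' hF, UD.mp_gm]
  have h1 : (D.gm : MM) = (D.μ : F) • ((D.k : MM) * (((mp (tauQ hF) D.k)⁻¹ : GL (Fin n) F) : MM)) := by
    rw [UD.gm, Units.val_mul, sc_coe, Matrix.smul_mul, Matrix.one_mul]
    rfl
  rw [h1, Units.val_mul, sc_coe, Matrix.smul_mul, Matrix.one_mul, Matrix.transpose_smul, Matrix.transpose_mul, Matrix.smul_mul, Matrix.mul_smul, smul_smul]
  have h2 : (D.μ : F) * ((tU hF D.μ : Fˣ) : F) = (D.ε : F) := by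
    rw [← Units.val_mul, D.hμ]
  rw [h2]
  have h3 : ((D.k : MM)ᵀ * ((mp (tauQ hF) D.k : GL (Fin n) F) : MM)) = (D.ω : F) • ((em e G₀ : GL (Fin n) F) : MM) := D.hk
  have h4 : (((mp (tauQ hF) D.k)⁻¹ : GL (Fin n) F) : MM)ᵀ * (D.k : MM)ᵀ * (((mp (tauQ hF) D.k * D.k⁻¹ : GL (Fin n) F)) : MM) =
      (((mp (tauQ hF) D.k)⁻¹ : GL (Fin n) F) : MM)ᵀ * ((D.k : MM)ᵀ * ((mp (tauQ hF) D.k : GL (Fin n) F) : MM)) * ((D.k⁻¹ : GL (Fin n) F) : MM) := by
    rw [Units.val_mul]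
    simp only [Matrix.mul_assoc]
  rw [h4, h3, Matrix.mul_smul, Matrix.smul_mul, D.sand D₀, smul_smul, smul_smul, D.hω]
  have h5 : (D.ε : F) * (D.ω : F) * (((D.ε * D.ω)⁻¹ : Fˣ) : F) = 1 := by
    rw [← Units.val_mul, ← Units.val_mul, ← Units.val_one]
    congr 1
    group
  rw [h5, one_smul]

/-- The involution attached to the data. -/
noncomputable def UD.Θ (D₀ : FD hF e) (D : UD hF e G₀) : MulAut (PSU n F q) := cU ⟨D.gm, D.gm_mem D₀⟩ * fU (tauQ hF)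

end Cfsg.Agent.Lib.Known3.GraphU
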