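import Mathlib
import Cfsg.Agent.Lib.Known3.GraphU2

/-! The involutory graph automorphisms of `PSU_n`: conjugacy and forms. -/

set_option autoImplicit false
set_option linter.unusedVariables false
set_option linter.unusedSectionVars false

namespace Cfsg.Agent.Lib.Known3.GraphU

open Matrix Module Cfsg
open scoped MatrixGroups
open Cfsg.Agent.Lib.AutPSL Cfsg.Agent.Lib.Known3.FieldAut Cfsg.Agent.Lib.Known3.Graph
open Cfsg.Agent.Lib.AutPSU Cfsg.Agent.Lib.Classical Cfsg.Agent.Lib.Classical.UT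

variable {F F₀ : Type*} [Field F] [Field F₀] [Fintype F] {n q : ℕ}

local notation "MM" => Matrix (Fin n) (Fin n) F
local notation "MM₀" => Matrix (Fin n) (Fin n) F₀

variable {hF : Fintype.card F = q ^ 2} {e : F₀ →+* F} {G₀ G₀' : GL (Fin n) F₀}

/-- Extraction of a scalar of the subfield. -/
lemma exists_c₀ (D₀ : FD hF e) (hn : 1 ≤ n) (A : MM₀) (G : GL (Fin n) F₀) (b : Fˣ) (h : A.map e = (b : F) • (G : MM₀).map e) :
    ∃ c₀ : F₀ˣ, A = (c₀ : F₀) • (G : MM₀) ∧ e (c₀ : F₀) = b := by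
  classical
  have hG : ∃ i j, (G : MM₀) i j ≠ 0 := by
    by_contra hc
    push Not at hc
    have h0 : (G : MM₀) = 0 := by
      ext i j
      exact hc i j
    have := mat_mul_inv G
    rw [h0, Matrix.zero_mul] at this
    have h1 := congrFun (congrFun this ⟨0, hn⟩) ⟨0, hn⟩
    simp at h1
  obtain ⟨i, j, hij⟩ := hG
  have h1 : ∀ u v, e (A u v) = (b : F) * e ((G : MM₀) u v) := by
    intro u v
    have := congrFun (congrFun h u) v
    simpa using this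
  have hb : e (A i j / (G : MM₀) i j) = b := by
    rw [map_div₀, h1]
    field_simp [(map_ne_zero e).2 hij]
  have hne : A i j / (G : MM₀) i j ≠ 0 := by
    intro h0
    rw [h0, map_zero] at hb
    exact b.ne_zero hb.symm
  refine ⟨Units.mk0 _ hne, ?_, hb⟩
  ext u v
  apply D₀.inj
  rw [h1]
  simp only [Matrix.smul_apply, smul_eq_mul, map_mul, Units.val_mk0, hb]

lemma sc_conj (a : Fˣ) (k A : GL (Fin n) F) : k⁻¹ * (sc a * (k * A)) = sc a * A := by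
  rw [sc_comm a (k * A), ← mul_assoc, ← mul_assoc, inv_mul_cancel, one_mul, sc_comm]

/-- The forward direction. -/
theorem fwd (D₀ : FD hF e) (hn : 1 ≤ n) (D : UD hF e G₀) (D' : UD hF e G₀') (x : GU n F q) (c : Fˣ)
    (hx : (x : GL (Fin n) F) * D.gm * (mp (tauQ hF) (x : GL (Fin n) F))⁻¹ = sc c * D'.gm) :
    ∃ (d : Fˣ) (y₀ : GL (Fin n) F₀) (c₀ : F₀ˣ), D'.k⁻¹ * (x : GL (Fin n) F) * D.k = sc d * em e y₀ ∧
      (y₀ : MM₀)ᵀ * (G₀' : MM₀) * (y₀ : MM₀) = (c₀ : F₀) • (G₀ : MM₀) := by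
  classical
  set y : GL (Fin n) F := D'.k⁻¹ * (x : GL (Fin n) F) * D.k with hy
  have hTy : mp (tauQ hF) y = (mp (tauQ hF) D'.k)⁻¹ * mp (tauQ hF) (x : GL (Fin n) F) * mp (tauQ hF) D.k := by
    rw [hy, map_mul, map_mul, map_inv]
  set a : Fˣ := D.μ⁻¹ * c * D'.μ with ha
  have hyT : y = sc a * mp (tauQ hF) y := by
    have h1 : (x : GL (Fin n) F) * (D.k * (mp (tauQ hF) D.k)⁻¹) * (mp (tauQ hF) (x : GL (Fin n) F))⁻¹ = sc a * (D'.k * (mp (tauQ hF) D'.k)⁻¹) := by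
      have h2 : sc D.μ * ((x : GL (Fin n) F) * (D.k * (mp (tauQ hF) D.k)⁻¹) * (mp (tauQ hF) (x : GL (Fin n) F))⁻¹) = sc c * (sc D'.μ * (D'.k * (mp (tauQ hF) D'.k)⁻¹)) := by
        rw [UD.gm, UD.gm] at hx
        rw [← hx]
        simp only [← mul_assoc]
        rw [sc_comm D.μ (x : GL (Fin n) F)]
      have h2' : (x : GL (Fin n) F) * (D.k * (mp (tauQ hF) D.k)⁻¹) * (mp (tauQ hF) (x : GL (Fin n) F))⁻¹ = (sc D.μ)⁻¹ * (sc c * (sc D'.μ * (D'.k * (mp (tauQ hF) D'.k)⁻¹))) := by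
        rw [← h2]
        group
      rw [ha, sc_mul, sc_mul, ← sc_inv', h2']
      simp only [mul_assoc]
    have h3 : (x : GL (Fin n) F) * D.k = sc a * (D'.k * (mp (tauQ hF) D'.k)⁻¹) * (mp (tauQ hF) (x : GL (Fin n) F) * mp (tauQ hF) D.k) := by
      rw [← h1]
      group
    rw [hTy, hy]
    have h4 : D'.k⁻¹ * ((x : GL (Fin n) F) * D.k) = sc a * ((mp (tauQ hF) D'.k)⁻¹ * (mp (tauQ hF) (x : GL (Fin n) F) * mp (tauQ hF) D.k)) := by
      rw [h3, mul_assoc (sc a), mul_assoc D'.k, sc_conj]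
    rw [mul_assoc, h4]
    simp only [mul_assoc]
  obtain ⟨d, y₀, hd⟩ := descend D₀ hn y a hyT
  have hmp : mp (tauQ hF) y = sc (tU hF d) * em e y₀ := by
    rw [hd, map_mul, mp_sc, mp_em D₀]
  -- the forms
  have hf : (y : MM)ᵀ * ((D'.ω : F) • ((em e G₀' : GL (Fin n) F) : MM)) * ((mp (tauQ hF) y : GL (Fin n) F) : MM) = (D.ω : F) • ((em e G₀ : GL (Fin n) F) : MM) := by
    rw [← D'.hk, ← D.hk]
    have h5 : (D'.k : MM) * (y : MM) = ((x : GL (Fin n) F) : MM) * (D.k : MM) := by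
      have : D'.k * y = (x : GL (Fin n) F) * D.k := by
        rw [hy]
        group
      exact congrArg (fun g : GL (Fin n) F => (g : MM)) this
    have h6 : ((mp (tauQ hF) D'.k : GL (Fin n) F) : MM) * ((mp (tauQ hF) y : GL (Fin n) F) : MM) = ((mp (tauQ hF) (x : GL (Fin n) F) : GL (Fin n) F) : MM) * ((mp (tauQ hF) D.k : GL (Fin n) F) : MM) := by
      have : mp (tauQ hF) D'.k * mp (tauQ hF) y = mp (tauQ hF) (x : GL (Fin n) F) * mp (tauQ hF) D.k := by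
        rw [hTy]
        group
      exact congrArg (fun g : GL (Fin n) F => (g : MM)) this
    have h7 : ((x : GL (Fin n) F) : MM)ᵀ * ((mp (tauQ hF) (x : GL (Fin n) F) : GL (Fin n) F) : MM) = 1 := (mem_GU_iff' hF _).1 x.2
    calc (y : MM)ᵀ * ((D'.k : MM)ᵀ * ((mp (tauQ hF) D'.k : GL (Fin n) F) : MM)) * ((mp (tauQ hF) y : GL (Fin n) F) : MM)
        = ((D'.k : MM) * (y : MM))ᵀ * (((mp (tauQ hF) D'.k : GL (Fin n) F) : MM) * ((mp (tauQ hF) y : GL (Fin n) F) : MM)) := by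
          rw [Matrix.transpose_mul]
          simp only [Matrix.mul_assoc]
      _ = (((x : GL (Fin n) F) : MM) * (D.k : MM))ᵀ * (((mp (tauQ hF) (x : GL (Fin n) F) : GL (Fin n) F) : MM) * ((mp (tauQ hF) D.k : GL (Fin n) F) : MM)) := by
          rw [h5, h6]
      _ = (D.k : MM)ᵀ * (((x : GL (Fin n) F) : MM)ᵀ * ((mp (tauQ hF) (x : GL (Fin n) F) : GL (Fin n) F) : MM)) * ((mp (tauQ hF) D.k : GL (Fin n) F) : MM) := by
          rw [Matrix.transpose_mul]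
          simp only [Matrix.mul_assoc]
      _ = _ := by
          rw [h7, Matrix.mul_one]
  set E : MM := ((em e y₀ : GL (Fin n) F) : MM) with hE
  have hyv : (y : MM) = (d : F) • E := by
    rw [hd, Units.val_mul, sc_coe, Matrix.smul_mul, Matrix.one_mul]
  have hmv : ((mp (tauQ hF) y : GL (Fin n) F) : MM) = ((tU hF d : Fˣ) : F) • E := by
    rw [hmp, Units.val_mul, sc_coe, Matrix.smul_mul, Matrix.one_mul]
  have hf' : ((d * D'.ω * tU hF d : Fˣ) : F) • (Eᵀ * ((em e G₀' : GL (Fin n) F) : MM) * E) = (D.ω : F) • ((em e G₀ : GL (Fin n) F) : MM) := by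
    rw [← hf, hyv, hmv]
    simp only [Matrix.transpose_smul, Matrix.smul_mul, Matrix.mul_smul, smul_smul, Units.val_mul]
    congr 1
    ring
  set b : Fˣ := (d * D'.ω * tU hF d)⁻¹ * D.ω with hb
  have hb' : ((y₀ : MM₀)ᵀ * (G₀' : MM₀) * (y₀ : MM₀)).map e = (b : F) • (G₀ : MM₀).map e := by
    have h8 : ((y₀ : MM₀)ᵀ * (G₀' : MM₀) * (y₀ : MM₀)).map e = Eᵀ * ((em e G₀' : GL (Fin n) F) : MM) * E := by
      rw [Matrix.map_mul, Matrix.map_mul]
      rfl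
    rw [h8]
    have h9 : ((d * D'.ω * tU hF d : Fˣ) : F) • (Eᵀ * ((em e G₀' : GL (Fin n) F) : MM) * E) = (D.ω : F) • (G₀ : MM₀).map e := hf'
    rw [hb, Units.val_mul, mul_smul, ← h9, smul_smul, ← Units.val_mul, inv_mul_cancel, Units.val_one, one_smul]
  obtain ⟨c₀, hc₀, -⟩ := exists_c₀ D₀ hn _ G₀ b hb'
  exact ⟨d, y₀, c₀, hd, hc₀⟩

/-- The symmetry types of equivalent forms agree. -/
lemma eps_eq (D₀ : FD hF e) (hn : 1 ≤ n) (D : UD hF e G₀) (D' : UD hF e G₀') (y₀ : GL (Fin n) F₀) (c₀ : F₀ˣ)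
    (hy : (y₀ : MM₀)ᵀ * (G₀' : MM₀) * (y₀ : MM₀) = (c₀ : F₀) • (G₀ : MM₀)) : D.ε = D'.ε := by
  classical
  set E : MM := ((em e y₀ : GL (Fin n) F) : MM) with hE
  set M : MM := ((em e G₀ : GL (Fin n) F) : MM) with hM
  set M' : MM := ((em e G₀' : GL (Fin n) F) : MM) with hM'
  have h1 : Eᵀ * M' * E = (e (c₀ : F₀)) • M := by
    have := congrArg (fun A : MM₀ => A.map e) hy
    simp only [Matrix.map_mul] at this
    have h2 : ((c₀ : F₀) • (G₀ : MM₀)).map e = (e (c₀ : F₀)) • (G₀ : MM₀).map e := by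
      ext i j
      simp
    rw [h2] at this
    exact this
  have h2 := congrArg Matrix.transpose h1
  rw [Matrix.transpose_mul, Matrix.transpose_mul, Matrix.transpose_transpose, Matrix.transpose_smul, D'.sym D₀, D.sym D₀] at h2
  have h3 : (D'.ε : F) • (e (c₀ : F₀) • M) = e (c₀ : F₀) • ((D.ε : F) • M) := by
    rw [← h2, ← h1]
    simp only [Matrix.smul_mul, Matrix.mul_smul, Matrix.mul_assoc]
    rfl
  rw [smul_comm] at h3
  have hc : e (c₀ : F₀) ≠ 0 := (map_ne_zero e).2 c₀.ne_zero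
  have h4 := smul_right_injective MM hc h3
  have hG : ∃ i j, M i j ≠ 0 := by
    by_contra hcc
    push Not at hcc
    have h0 : M = 0 := by
      ext i j
      exact hcc i j
    have := mat_mul_inv (em e G₀)
    rw [← hM, h0, Matrix.zero_mul] at this
    have h1 := congrFun (congrFun this ⟨0, hn⟩) ⟨0, hn⟩
    simp at h1
  obtain ⟨i, j, hij⟩ := hG
  have h5 := congrFun (congrFun h4 i) j
  simp only [Matrix.smul_apply, smul_eq_mul] at h5
  exact (Units.ext (mul_right_cancel₀ hij h5)).symm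

lemma sc_mul_sc (a b : Fˣ) (X Y : GL (Fin n) F) : (sc a * X) * (sc b * Y) = sc (a * b) * (X * Y) := by
  rw [sc_mul, mul_assoc (sc a), mul_assoc (sc a), ← mul_assoc X, ← sc_comm, mul_assoc (sc b)]

lemma sc_mul_inv'' (a : Fˣ) (X : GL (Fin n) F) : (sc a * X)⁻¹ = sc a⁻¹ * X⁻¹ := by
  rw [_root_.mul_inv_rev, sc_inv', sc_comm]

/-- Norm surjectivity. -/
lemma exists_norm' (hF : Fintype.card F = q ^ 2) (b : Fˣ) (hb : tU hF b = b) : ∃ l : Fˣ, l * tU hF l = b := by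
  obtain ⟨x, hx0, hx⟩ := Cfsg.Agent.Lib.Classical.Witt.norm_surj_sigma (conjQ hF) (conjQ_ne_id hF) (conjQ_conjQ hF) (b : F) b.ne_zero (by
    have := congrArg Units.val hb
    exact this)
  refine ⟨Units.mk0 x hx0, Units.ext ?_⟩
  simpa [tauQ_apply] using hx

/-- The backward direction. -/
theorem bwd (D₀ : FD hF e) (hn : 1 ≤ n) (D : UD hF e G₀) (D' : UD hF e G₀') (y₀ : GL (Fin n) F₀) (c₀ : F₀ˣ)
    (hy : (y₀ : MM₀)ᵀ * (G₀' : MM₀) * (y₀ : MM₀) = (c₀ : F₀) • (G₀ : MM₀)) :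
    ∃ (x : GU n F q) (d c : Fˣ), (x : GL (Fin n) F) = sc d * (D'.k * em e y₀ * D.k⁻¹) ∧
      (x : GL (Fin n) F) * D.gm * (mp (tauQ hF) (x : GL (Fin n) F))⁻¹ = sc c * D'.gm := by
  classical
  have hε := eps_eq D₀ hn D D' y₀ c₀ hy
  set E : MM := ((em e y₀ : GL (Fin n) F) : MM) with hE
  have hEtr : Eᵀ * ((em e G₀' : GL (Fin n) F) : MM) * E = (e (c₀ : F₀)) • ((em e G₀ : GL (Fin n) F) : MM) := by
    have := congrArg (fun A : MM₀ => A.map e) hy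
    simp only [Matrix.map_mul] at this
    have h2 : ((c₀ : F₀) • (G₀ : MM₀)).map e = (e (c₀ : F₀)) • (G₀ : MM₀).map e := by
      ext i j
      simp
    rw [h2] at this
    exact this
  set x₀ : GL (Fin n) F := D'.k * em e y₀ * D.k⁻¹ with hx₀
  have hTx : mp (tauQ hF) x₀ = mp (tauQ hF) D'.k * em e y₀ * (mp (tauQ hF) D.k)⁻¹ := by
    rw [hx₀, map_mul, map_mul, map_inv, mp_em D₀]
  let c₀' : Fˣ := Units.map (e : F₀ →* F) c₀
  have hc₀' : tU hF c₀' = c₀' := Units.ext ((D₀.fix _).2 ⟨_, rfl⟩)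
  set b : Fˣ := D'.ω * c₀' * D.ω⁻¹ with hb
  have hx₀form : (x₀ : MM)ᵀ * ((mp (tauQ hF) x₀ : GL (Fin n) F) : MM) = (b : F) • 1 := by
    rw [hTx, hx₀]
    change ((D'.k : MM) * E * ((D.k⁻¹ : GL (Fin n) F) : MM))ᵀ * (((mp (tauQ hF) D'.k : GL (Fin n) F) : MM) * E * (((mp (tauQ hF) D.k)⁻¹ : GL (Fin n) F) : MM)) = _
    rw [Matrix.transpose_mul, Matrix.transpose_mul]
    calc ((D.k⁻¹ : GL (Fin n) F) : MM)ᵀ * (Eᵀ * (D'.k : MM)ᵀ) * (((mp (tauQ hF) D'.k : GL (Fin n) F) : MM) * E * (((mp (tauQ hF) D.k)⁻¹ : GL (Fin n) F) : MM))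
        = ((D.k⁻¹ : GL (Fin n) F) : MM)ᵀ * (Eᵀ * ((D'.k : MM)ᵀ * ((mp (tauQ hF) D'.k : GL (Fin n) F) : MM)) * E) * (((mp (tauQ hF) D.k)⁻¹ : GL (Fin n) F) : MM) := by
          simp only [Matrix.mul_assoc]
      _ = ((D.k⁻¹ : GL (Fin n) F) : MM)ᵀ * (((D'.ω : F) * e (c₀ : F₀)) • ((em e G₀ : GL (Fin n) F) : MM)) * (((mp (tauQ hF) D.k)⁻¹ : GL (Fin n) F) : MM) := by
          rw [D'.hk, Matrix.mul_smul, Matrix.smul_mul, hEtr, smul_smul]
      _ = ((D'.ω : F) * e (c₀ : F₀)) • (((D.k⁻¹ : GL (Fin n) F) : MM)ᵀ * ((em e G₀ : GL (Fin n) F) : MM) * (((mp (tauQ hF) D.k)⁻¹ : GL (Fin n) F) : MM)) := by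
          rw [Matrix.mul_smul, Matrix.smul_mul]
      _ = _ := by
          rw [D.sand', smul_smul]
          rfl
  have hbτ : tU hF b = b := by
    rw [hb, tU_mul, tU_mul, tU_inv, D'.hω, D.hω, hc₀', ← hε]
    apply Units.ext
    simp only [Units.val_mul, Units.val_inv_eq_inv_val]
    have := D.ε.ne_zero
    have := D.ω.ne_zero
    field_simp
  obtain ⟨l, hl⟩ := exists_norm' hF b⁻¹ (by rw [tU_inv, hbτ])
  have hmem : sc l * x₀ ∈ GU n F q := by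
    rw [mem_GU_iff' hF, map_mul, mp_sc]
    have h2 : ((sc l * x₀ : GL (Fin n) F) : MM) = (l : F) • (x₀ : MM) := by
      rw [Units.val_mul, sc_coe, Matrix.smul_mul, Matrix.one_mul]
    have h3 : ((sc (Units.map ((tauQ hF : F ≃+* F) : F →* F) l) * mp (tauQ hF) x₀ : GL (Fin n) F) : MM) = ((tU hF l : Fˣ) : F) • ((mp (tauQ hF) x₀ : GL (Fin n) F) : MM) := by
      rw [Units.val_mul, sc_coe, Matrix.smul_mul, Matrix.one_mul]
    rw [h2, h3, Matrix.transpose_smul, Matrix.smul_mul, Matrix.mul_smul, hx₀form, smul_smul, smul_smul]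
    have : (l : F) * ((tU hF l : Fˣ) : F) * (b : F) = 1 := by
      rw [← Units.val_mul, ← Units.val_mul, hl, inv_mul_cancel, Units.val_one]
    rw [this, one_smul]
  refine ⟨⟨sc l * x₀, hmem⟩, l, l * D.μ * (tU hF l)⁻¹ * D'.μ⁻¹, rfl, ?_⟩
  change sc l * x₀ * D.gm * (mp (tauQ hF) (sc l * x₀))⁻¹ = _
  have h1 : x₀ * (D.k * (mp (tauQ hF) D.k)⁻¹) * (mp (tauQ hF) x₀)⁻¹ = D'.k * (mp (tauQ hF) D'.k)⁻¹ := by
    rw [hTx, hx₀]
    group
  rw [map_mul, mp_sc, UD.gm, UD.gm, sc_mul_sc, sc_mul_inv'', sc_mul_sc, ← mul_assoc (sc _) (sc D'.μ), ← sc_mul]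
  have h2 : l * D.μ * (Units.map ((tauQ hF : F ≃+* F) : F →* F) l)⁻¹ = l * D.μ * (tU hF l)⁻¹ * D'.μ⁻¹ * D'.μ := by
    group
  rw [h1]
  congr 2

end Cfsg.Agent.Lib.Known3.GraphU
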