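import Mathlib
import Cfsg.Agent.Lib.Known3.GraphU3

/-! The involutory graph automorphisms of `PSU_n`: the correspondence with forms. -/

set_option autoImplicit false
set_option linter.unusedVariables false
set_option linter.unusedSectionVars false

namespace Cfsg.Agent.Lib.Known3.GraphU

open Matrix Module Cfsg
open scoped MatrixGroups
open Cfsg.Agent.Lib.AutPSL Cfsg.Agent.Lib.Known3.FieldAut Cfsg.Agent.Lib.Known3.Graph
open Cfsg.Agent.Lib.AutPSU Cfsg.Agent.Lib.Classical Cfsg.Agent.Lib.Classical.UT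

variable {F F₀ : Type*} [Field F] [Field F₀] [Fintype F] {n q : ℕ}

local notation "MM" => Matrix (Fin n) (Fin n) F
local notation "MM₀" => Matrix (Fin n) (Fin n) F₀

variable {hF : Fintype.card F = q ^ 2} {e : F₀ →+* F} {G₀ G₀' : GL (Fin n) F₀}

lemma isInner_cU (g : GU n F q) : IsInnerDiagonalAutPSU (cU g : MulAut (PSU n F q)) :=
  ⟨g, g.2, fun s s' h => by
    change QuotientGroup.mk (uConj g s) = QuotientGroup.mk s'
    congr 1
    apply su_ext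
    exact h.symm⟩

lemma isField_fU (σ : F ≃+* F) : IsFieldAutPSUOf σ (fU σ : MulAut (PSU n F q)) := fun s s' h => by
  change QuotientGroup.mk (uField σ s) = QuotientGroup.mk s'
  congr 1
  apply su_ext
  exact h.symm

lemma field_of_cU_fU (hF : Fintype.card F = q ^ 2) (hn : 3 ≤ n) (hs : ¬ (n = 3 ∧ q = 2)) (g : GU n F q) (σ : F ≃+* F)
    (h : (cU g * fU σ : MulAut (PSU n F q)) = 1) : σ = 1 := by
  have h1 := Rep.Ind.comp (repSU hF hn hs) (ind_cU hF hn hs g) (ind_fU hF hn hs σ)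
  rw [h, one_mul] at h1
  exact (Rep.Ind.uniq (repSU hF hn hs) (ind_one hF hn hs) h1).1.symm

/-- The square. -/
lemma UD.Θ_sq (D₀ : FD hF e) (D : UD hF e G₀) : (D.Θ D₀ * D.Θ D₀ : MulAut (PSU n F q)) = 1 := by
  set g : GU n F q := ⟨D.gm, D.gm_mem D₀⟩ with hg
  have h1 : (D.Θ D₀ : MulAut (PSU n F q)) = cU g * fU (tauQ hF) := rfl
  have h2 : fU (tauQ hF) * fU (tauQ hF) = (1 : MulAut (PSU n F q)) := by
    rw [← map_mul, tauQ_sq, map_one]
  have h3 : ((g * mpU (tauQ hF) g : GU n F q) : GL (Fin n) F) = sc D.ε := by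
    change D.gm * mp (tauQ hF) D.gm = sc D.ε
    rw [D.mp_gm, UD.gm, sc_mul_sc, D.hμ]
    have : D.k * (mp (tauQ hF) D.k)⁻¹ * (mp (tauQ hF) D.k * D.k⁻¹) = 1 := by group
    rw [this, mul_one]
  have h4 := cU_of_sc h3
  rw [map_mul] at h4
  rw [h1]
  calc cU g * fU (tauQ hF) * (cU g * fU (tauQ hF)) = cU g * (fU (tauQ hF) * cU g) * fU (tauQ hF) := by simp only [mul_assoc]
    _ = cU g * cU (mpU (tauQ hF) g) * (fU (tauQ hF) * fU (tauQ hF)) := by
        rw [fU_cU]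
        simp only [mul_assoc]
    _ = 1 := by rw [h4, h2, one_mul]

lemma UD.Θ_ne (D₀ : FD hF e) (hn : 3 ≤ n) (hs : ¬ (n = 3 ∧ q = 2)) (D : UD hF e G₀) : (D.Θ D₀ : MulAut (PSU n F q)) ≠ 1 := by
  intro h
  exact tauQ_ne hF (field_of_cU_fU hF hn hs _ _ h)

theorem UD.Θ_order (D₀ : FD hF e) (hn : 3 ≤ n) (hs : ¬ (n = 3 ∧ q = 2)) (D : UD hF e G₀) : orderOf (D.Θ D₀ : MulAut (PSU n F q)) = 2 := by
  haveI : Fact (Nat.Prime 2) := ⟨Nat.prime_two⟩
  exact orderOf_eq_prime (by rw [sq, D.Θ_sq]) (D.Θ_ne D₀ hn hs)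

theorem UD.Θ_graph (D₀ : FD hF e) (hn : 3 ≤ n) (D : UD hF e G₀) : IsGraphAutClassPSU (D.Θ D₀ : MulAut (PSU n F q)) := by
  refine ⟨hn, cU ⟨D.gm, D.gm_mem D₀⟩, fU (tauQ hF), tauQ hF, ?_, isInner_cU _, isField_fU _, rfl⟩
  rw [orderOf_tauQ]
  decide

/-- Existence of an element moved to its negative. -/
lemma exists_ω (hF : Fintype.card F = q ^ 2) {ε : Fˣ} (hε : ε = 1 ∨ ε = -1) : ∃ ω : Fˣ, tU hF ω = ε * ω := by
  rcases hε with rfl | rfl
  · exact ⟨1, by simp⟩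
  · have h1 : ∃ z : F, tauQ hF z ≠ z := by
      by_contra hc
      push Not at hc
      apply tauQ_ne hF
      ext x
      simpa using hc x
    obtain ⟨z, hz⟩ := h1
    have h0 : z - tauQ hF z ≠ 0 := fun h => hz (sub_eq_zero.1 h).symm
    refine ⟨Units.mk0 _ h0, Units.ext ?_⟩
    simp only [tU_coe, Units.val_mk0, Units.val_mul, Units.val_neg, Units.val_one, map_sub, tauQ_tauQ hF]
    ring

/-- Existence of the data for a form. -/
theorem exists_UD (D₀ : FD hF e) (hn : 1 ≤ n) (G₀ : GL (Fin n) F₀) {c : F₀ˣ} (hc : (G₀ : MM₀)ᵀ = (c : F₀) • (G₀ : MM₀)) :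
    Nonempty (UD hF e G₀) := by
  classical
  obtain ⟨ε, hε, hsym⟩ : ∃ ε : Fˣ, (ε = 1 ∨ ε = -1) ∧ ((em e G₀ : GL (Fin n) F) : MM)ᵀ = (ε : F) • ((em e G₀ : GL (Fin n) F) : MM) := by
    rcases sym_or_skew hn G₀ hc with h | h
    · refine ⟨1, Or.inl rfl, ?_⟩
      rw [Units.val_one, one_smul]
      ext i j
      have := congrFun (congrFun h i) j
      simp only [Matrix.transpose_apply] at this ⊢
      exact congrArg e this
    · refine ⟨-1, Or.inr rfl, ?_⟩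
      rw [Units.val_neg, Units.val_one, neg_one_smul]
      ext i j
      have := congrFun (congrFun h i) j
      simp only [Matrix.transpose_apply, Matrix.neg_apply] at this ⊢
      have h2 := congrArg e this
      rwa [map_neg] at h2
  have hεε : ε * ε = 1 := by
    rcases hε with rfl | rfl <;> simp
  have hετ : tU hF ε = ε := by
    rcases hε with rfl | rfl
    · simp
    · simp
  obtain ⟨ω, hω⟩ := exists_ω hF hε
  obtain ⟨μ, hμ⟩ := exists_norm' hF ε hετ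
  set H : GL (Fin n) F := sc ω * em e G₀ with hH
  have hHv : (H : MM) = (ω : F) • ((em e G₀ : GL (Fin n) F) : MM) := by
    rw [hH, Units.val_mul, sc_coe, Matrix.smul_mul, Matrix.one_mul]
  have hτ : (tau (tauQ hF) H)⁻¹ = H := by
    apply Units.ext
    rw [tau_inv_coe, hHv, Matrix.transpose_smul, hsym]
    ext i j
    have h1 := congrFun (congrFun (em_T (n := n) D₀ G₀) i) j
    simp only [Matrix.map_apply, Matrix.smul_apply, smul_eq_mul, map_mul] at h1 ⊢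
    rw [h1]
    have h2 : tauQ hF (ω : F) = ((ε * ω : Fˣ) : F) := by
      rw [← hω]
      rfl
    rw [h2, Units.val_mul]
    have h3 : tauQ hF (ε : F) = ε := congrArg Units.val hετ
    rw [h3]
    have h4 : (ε : F) * ε = 1 := by rw [← Units.val_mul, hεε, Units.val_one]
    linear_combination ((ω : F) * ((em e G₀ : GL (Fin n) F) : MM) i j) * h4
  have hfac : H⁻¹ * tau (tauQ hF) H⁻¹ = 1 := by
    rw [map_inv, hτ, inv_mul_cancel]
  obtain ⟨E, hE⟩ := exists_herm_factor (tauQ_ne hF) (tauQ_sq hF) H⁻¹ hfac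
  have hH2 : H = E * (tau (tauQ hF) E)⁻¹ := by
    have := congrArg (fun x : GL (Fin n) F => x⁻¹) hE
    simp only [inv_inv] at this
    rw [this]
    group
  refine ⟨⟨gamGL E⁻¹, ω, μ, ε, hεε, hω, hμ, ?_⟩⟩
  rw [← hHv, hH2, Units.val_mul, tau_inv_coe, gamGL_inv_coe, Matrix.transpose_transpose]
  rfl

lemma map_T' (A : MM) : (A.map (tauQ hF)).map (tauQ hF) = A := map_T A hF

lemma map_smul_T (c : F) (A : MM) : (c • A).map (tauQ hF) = tauQ hF c • A.map (tauQ hF) := by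
  ext i j
  simp

lemma nrm_two (σ : F ≃+* F) (G : GL (Fin n) F) : nrm σ G 2 = G * mp σ G := by
  rw [nrm_succ', nrm_succ', nrm_zero, map_one, mul_one]

/-- The unique involution of the automorphism group. -/
lemma invol_eq_tauQ [Fintype F₀] (hF : Fintype.card F = q ^ 2) (hF₀ : Fintype.card F₀ = q) (σ : F ≃+* F) (hσ : σ ≠ 1) (hσ2 : σ * σ = 1) : σ = tauQ hF := by
  classical
  obtain ⟨e, he⟩ := exists_FD (F₀ := F₀) hF hF₀
  have hσσ : ∀ x, σ (σ x) = x := fun x => by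
    have := congrArg (fun t : F ≃+* F => t x) hσ2
    simpa using this
  have hord : orderOf σ = 2 := by
    haveI : Fact (Nat.Prime 2) := ⟨Nat.prime_two⟩
    exact orderOf_eq_prime (by rw [sq, hσ2]) hσ
  -- the fixed field
  obtain ⟨e₁, he₁, hfix₁⟩ : ∃ e₁ : F₀ →+* F, Function.Injective e₁ ∧ ∀ x, σ x = x ↔ x ∈ e₁.range := by
    obtain ⟨p, hp⟩ := CharP.exists F
    haveI := hp
    obtain ⟨f, hfp, hf⟩ := FiniteField.card F p
    haveI : Fact p.Prime := ⟨hfp⟩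
    have hq : q ∣ p ^ (f : ℕ) := by
      rw [← hf, hF]
      exact dvd_pow_self _ two_ne_zero
    obtain ⟨k, -, hk⟩ := (Nat.dvd_prime_pow hfp).1 hq
    have h2 : (f : ℕ) = k * 2 := by
      have : p ^ (k * 2) = p ^ (f : ℕ) := by
        rw [pow_mul, ← hk, ← hF, hf]
      exact (Nat.pow_right_injective hfp.two_le this).symm
    have hfk : (f : ℕ) / 2 = k := by omega
    obtain ⟨-, e₁, he₁, hfix⟩ := FieldFix.exists_fix_embed (p := p) (f := f) hf σ Nat.prime_two hord F₀ (by rw [hfk, hF₀, hk])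
    exact ⟨e₁, he₁, hfix⟩
  have hsub : ∀ a : F₀, tauQ hF (e₁ a) = e₁ a := by
    intro a
    rw [tauQ_apply, ← map_pow, ← hF₀, FiniteField.pow_card]
  have hψ : ∀ a : F₀, ∃ b : F₀, e b = e₁ a := fun a => by
    obtain ⟨b, hb⟩ := (he.fix _).1 (hsub a)
    exact ⟨b, hb⟩
  choose ψ hψ' using hψ
  have hψi : Function.Injective ψ := fun a b h => he₁ (by rw [← hψ', ← hψ', h])
  have hψs : Function.Surjective ψ := Finite.injective_iff_surjective.1 hψi
  have hrev : ∀ x, tauQ hF x = x → σ x = x := by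
    intro x hx
    obtain ⟨b, rfl⟩ := (he.fix _).1 hx
    obtain ⟨a, rfl⟩ := hψs b
    rw [hψ']
    exact (hfix₁ _).2 ⟨a, rfl⟩
  have hfwd : ∀ x, σ x = x → tauQ hF x = x := by
    intro x hx
    obtain ⟨a, rfl⟩ := (hfix₁ _).1 hx
    exact hsub a
  ext x
  have h1 : tauQ hF (x + σ x) = x + σ x := hfwd _ (by rw [map_add, hσσ, add_comm])
  have h2 : tauQ hF (x * σ x) = x * σ x := hfwd _ (by rw [map_mul, hσσ, mul_comm])
  have h3 : (tauQ hF x - x) * (tauQ hF x - σ x) = 0 := by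
    have h4 : tauQ hF (x ^ 2 - (x + σ x) * x + x * σ x) = 0 := by
      have : x ^ 2 - (x + σ x) * x + x * σ x = 0 := by ring
      rw [this, map_zero]
    rw [map_add, map_sub, map_mul, map_pow, h1, h2] at h4
    linear_combination h4
  rcases mul_eq_zero.1 h3 with h4 | h4
  · have h5 : tauQ hF x = x := sub_eq_zero.1 h4
    rw [h5, hrev x h5]
  · exact (sub_eq_zero.1 h4).symm

/-- A graph involution comes from a form. -/
theorem exists_of_graph [Fintype F₀] (hF₀ : Fintype.card F₀ = q) (D₀ : FD hF e) (hn : 3 ≤ n) (hs : ¬ (n = 3 ∧ q = 2)) (γ : MulAut (PSU n F q))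
    (hγ : IsGraphAutClassPSU γ) (hγ2 : orderOf γ = 2) :
    ∃ (G₀ : GL (Fin n) F₀) (c : F₀ˣ) (D : UD hF e G₀), (G₀ : MM₀)ᵀ = (c : F₀) • (G₀ : MM₀) ∧ γ = D.Θ D₀ := by
  classical
  have hn1 : 1 ≤ n := by omega
  obtain ⟨-, δ, φ, σ, hev, hδ, hφ, rfl⟩ := hγ
  obtain ⟨g, rfl⟩ := mem_inndiagU_iff.1 (Subgroup.subset_closure hδ)
  have hφ' := eq_fU hφ
  subst hφ'
  have hγ1 : (cU g * fU σ : MulAut (PSU n F q)) ^ 2 = 1 := by
    rw [← hγ2]
    exact pow_orderOf_eq_one _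
  rw [pow_cU_fU] at hγ1
  have hσ2 : σ ^ 2 = 1 := field_of_cU_fU hF hn hs _ _ hγ1
  have hσ1 : σ ≠ 1 := by
    rintro rfl
    rw [orderOf_one] at hev
    exact (by decide : ¬ Even 1) hev
  have hστ := invol_eq_tauQ (F₀ := F₀) hF hF₀ σ hσ1 (by rw [← sq, hσ2])
  subst hστ
  rw [hσ2, map_one, mul_one] at hγ1
  obtain ⟨c, hc⟩ := exists_sc_of_cU hF hn hs hγ1
  have hc' : (g : GL (Fin n) F) * mp (tauQ hF) (g : GL (Fin n) F) = sc c := by
    rw [← nrm_two]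
    exact hc
  have hU : ((g : GL (Fin n) F) : MM)ᵀ * ((mp (tauQ hF) (g : GL (Fin n) F) : GL (Fin n) F) : MM) = 1 := (mem_GU_iff' hF _).1 g.2
  have hU' : ((mp (tauQ hF) (g : GL (Fin n) F) : GL (Fin n) F) : MM) * ((g : GL (Fin n) F) : MM)ᵀ = 1 := mul_eq_one_comm.1 hU
  have hGT : ((g : GL (Fin n) F) : MM) * ((mp (tauQ hF) (g : GL (Fin n) F) : GL (Fin n) F) : MM) = (c : F) • 1 := by
    have := congrArg (fun x : GL (Fin n) F => (x : MM)) hc'
    simpa [sc_coe] using this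
  have h1 : ((g : GL (Fin n) F) : MM) = (c : F) • ((g : GL (Fin n) F) : MM)ᵀ := by
    calc ((g : GL (Fin n) F) : MM) = ((g : GL (Fin n) F) : MM) * (((mp (tauQ hF) (g : GL (Fin n) F) : GL (Fin n) F) : MM) * ((g : GL (Fin n) F) : MM)ᵀ) := by rw [hU', Matrix.mul_one]
      _ = _ := by rw [← Matrix.mul_assoc, hGT, Matrix.smul_mul, Matrix.one_mul]
  have h2 : ((g : GL (Fin n) F) : MM)ᵀ = (c : F) • ((g : GL (Fin n) F) : MM) := by
    have := congrArg Matrix.transpose h1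
    rwa [Matrix.transpose_smul, Matrix.transpose_transpose] at this
  obtain ⟨ε, hε, hsym⟩ : ∃ ε : Fˣ, (ε = 1 ∨ ε = -1) ∧ ((g : GL (Fin n) F) : MM)ᵀ = (ε : F) • ((g : GL (Fin n) F) : MM) := by
    rcases sym_or_skew hn1 (g : GL (Fin n) F) h2 with h | h
    · exact ⟨1, Or.inl rfl, by rw [Units.val_one, one_smul, h]⟩
    · exact ⟨-1, Or.inr rfl, by rw [Units.val_neg, Units.val_one, neg_one_smul, h]⟩
  have hεε : ε * ε = 1 := by
    rcases hε with rfl | rfl <;> simp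
  have hετ : tU hF ε = ε := by
    rcases hε with rfl | rfl
    · simp
    · simp
  have hεε' : (ε : F) * (ε : F) = 1 := by rw [← Units.val_mul, hεε, Units.val_one]
  have hGε : (g : GL (Fin n) F) * mp (tauQ hF) (g : GL (Fin n) F) = sc ε := by
    apply Units.ext
    have h3 : ((g : GL (Fin n) F) : MM) = (ε : F) • ((g : GL (Fin n) F) : MM)ᵀ := by
      rw [hsym, smul_smul, hεε', one_smul]
    rw [Units.val_mul, sc_coe, h3, Matrix.smul_mul, hU]
  obtain ⟨μ, hμ⟩ := exists_norm' hF ε hετ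
  set g₁ : GL (Fin n) F := sc μ⁻¹ * (g : GL (Fin n) F) with hg₁
  have hg₁n : nrm (tauQ hF) g₁ 2 = 1 := by
    rw [nrm_two, hg₁, map_mul, mp_sc, sc_mul_sc, hGε, ← sc_mul]
    have h4 : μ⁻¹ * Units.map ((tauQ hF : F ≃+* F) : F →* F) μ⁻¹ * ε = 1 := by
      change μ⁻¹ * tU hF μ⁻¹ * ε = 1
      rw [tU_inv, ← hμ, ← _root_.mul_inv_rev, mul_comm (tU hF μ) μ, inv_mul_cancel]
    rw [h4, sc_one_eq]
  obtain ⟨k, hk⟩ := hilbert90 (tauQ hF) (orderOf_tauQ hF) (by norm_num) g₁ hg₁n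
  have hGk : (g : GL (Fin n) F) = sc μ * (k * (mp (tauQ hF) k)⁻¹) := by
    have h3 : k * (mp (tauQ hF) k)⁻¹ = g₁ := by
      rw [mul_inv_eq_iff_eq_mul]
      exact hk.symm
    rw [h3, hg₁, ← mul_assoc, ← sc_mul, mul_inv_cancel, sc_one_eq, one_mul]
  have hg₁tr : (g₁ : MM)ᵀ = (ε : F) • (g₁ : MM) := by
    have h3 : (g₁ : MM) = ((μ⁻¹ : Fˣ) : F) • ((g : GL (Fin n) F) : MM) := by
      rw [hg₁, Units.val_mul, sc_coe, Matrix.smul_mul, Matrix.one_mul]
    rw [h3, Matrix.transpose_smul, hsym, smul_comm]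
  have hkv : (k : MM) = (g₁ : MM) * ((mp (tauQ hF) k : GL (Fin n) F) : MM) := by
    have := congrArg (fun x : GL (Fin n) F => (x : MM)) hk
    exact this.symm
  have hTr : (k : MM)ᵀ * ((mp (tauQ hF) k : GL (Fin n) F) : MM) = (ε : F) • (((mp (tauQ hF) k : GL (Fin n) F) : MM)ᵀ * (k : MM)) := by
    calc (k : MM)ᵀ * ((mp (tauQ hF) k : GL (Fin n) F) : MM) = ((g₁ : MM) * ((mp (tauQ hF) k : GL (Fin n) F) : MM))ᵀ * ((mp (tauQ hF) k : GL (Fin n) F) : MM) := by rw [← hkv]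
      _ = ((mp (tauQ hF) k : GL (Fin n) F) : MM)ᵀ * ((ε : F) • (g₁ : MM)) * ((mp (tauQ hF) k : GL (Fin n) F) : MM) := by rw [Matrix.transpose_mul, hg₁tr]
      _ = (ε : F) • (((mp (tauQ hF) k : GL (Fin n) F) : MM)ᵀ * ((g₁ : MM) * ((mp (tauQ hF) k : GL (Fin n) F) : MM))) := by
          rw [Matrix.mul_smul, Matrix.smul_mul, Matrix.mul_assoc]
      _ = _ := by rw [← hkv]
  obtain ⟨ω, hω⟩ := exists_ω hF hε
  set A : GL (Fin n) F := sc ω⁻¹ * (gamGL k⁻¹ * mp (tauQ hF) k) with hA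
  have hAv : (A : MM) = ((ω⁻¹ : Fˣ) : F) • ((k : MM)ᵀ * ((mp (tauQ hF) k : GL (Fin n) F) : MM)) := by
    rw [hA, Units.val_mul, Units.val_mul, sc_coe, Matrix.smul_mul, Matrix.one_mul, gamGL_inv_coe]
  have hAT : mp (tauQ hF) A = A := by
    apply Units.ext
    rw [mp_coe, hAv]
    have h3 : ((ω⁻¹ : Fˣ) : F) • ((k : MM)ᵀ * ((mp (tauQ hF) k : GL (Fin n) F) : MM)) = ((ω⁻¹ : Fˣ) : F) • ((ε : F) • (((mp (tauQ hF) k : GL (Fin n) F) : MM)ᵀ * (k : MM))) := by rw [hTr]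
    have h4 : (((ω⁻¹ : Fˣ) : F) • ((k : MM)ᵀ * ((mp (tauQ hF) k : GL (Fin n) F) : MM))).map (tauQ hF) = ((tU hF ω⁻¹ : Fˣ) : F) • (((mp (tauQ hF) k : GL (Fin n) F) : MM)ᵀ * (k : MM)) := by
      have h5 : ((k : MM)ᵀ * ((mp (tauQ hF) k : GL (Fin n) F) : MM)).map (tauQ hF) = ((mp (tauQ hF) k : GL (Fin n) F) : MM)ᵀ * (k : MM) := by
        have h6 : ((mp (tauQ hF) k : GL (Fin n) F) : MM).map (tauQ hF) = (k : MM) := map_T _ hF
        rw [Matrix.map_mul, h6]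
        rfl
      rw [map_smul_T, h5]
      rfl
    rw [h4, h3, smul_smul]
    congr 1
    rw [tU_inv, hω, ← Units.val_mul]
    congr 1
    have : ε⁻¹ = ε := by
      rw [inv_eq_iff_mul_eq_one]
      exact hεε
    rw [_root_.mul_inv_rev, this, mul_comm]
  obtain ⟨G₀, hG₀⟩ := exists_map_eq (tauQ hF) e D₀.inj D₀.fix A hAT
  have hk' : (k : MM)ᵀ * ((mp (tauQ hF) k : GL (Fin n) F) : MM) = (ω : F) • ((em e G₀ : GL (Fin n) F) : MM) := by
    have h3 : em e G₀ = A := hG₀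
    rw [h3, hAv, smul_smul, ← Units.val_mul, mul_inv_cancel, Units.val_one, one_smul]
  let D : UD hF e G₀ := ⟨k, ω, μ, ε, hεε, hω, hμ, hk'⟩
  have hsym₀ := D.sym D₀
  obtain ⟨c₀, hc₀, -⟩ := exists_c₀ D₀ hn1 (G₀ : MM₀)ᵀ G₀ ε hsym₀
  refine ⟨G₀, c₀, D, hc₀, ?_⟩
  have h5 : (⟨D.gm, D.gm_mem D₀⟩ : GU n F q) = g := Subtype.ext hGk.symm
  rw [UD.Θ, h5]

end Cfsg.Agent.Lib.Known3.GraphU
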