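import Mathlib
import Cfsg.Agent.Lib.Known3.GraphU4

/-! The involutory graph automorphisms of `PSU_n`: conjugacy classes and centralisers. -/

set_option autoImplicit false
set_option linter.unusedVariables false
set_option linter.unusedSectionVars false

namespace Cfsg.Agent.Lib.Known3.GraphU

open Matrix Module Cfsg
open scoped MatrixGroups
open Cfsg.Agent.Lib.AutPSL Cfsg.Agent.Lib.Known3.FieldAut Cfsg.Agent.Lib.Known3.Graph
open Cfsg.Agent.Lib.AutPSU Cfsg.Agent.Lib.Classical Cfsg.Agent.Lib.Classical.UT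

variable {F F₀ : Type*} [Field F] [Field F₀] [Fintype F] {n q : ℕ}

local notation "MM" => Matrix (Fin n) (Fin n) F
local notation "MM₀" => Matrix (Fin n) (Fin n) F₀

variable {hF : Fintype.card F = q ^ 2} {e : F₀ →+* F} {G₀ G₀' : GL (Fin n) F₀}

lemma sc_conj' (a : Fˣ) (k : GL (Fin n) F) : k * sc a * k⁻¹ = sc a := by
  rw [← sc_comm, mul_assoc, mul_inv_cancel, mul_one]

lemma sc_conj'' (a : Fˣ) (k : GL (Fin n) F) : k⁻¹ * sc a * k = sc a := by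
  rw [← sc_comm, mul_assoc, inv_mul_cancel, mul_one]

/-- The conjugation action in terms of twisted conjugacy. -/
lemma conj_Θ_iff (D₀ : FD hF e) (hn : 3 ≤ n) (hs : ¬ (n = 3 ∧ q = 2)) (D : UD hF e G₀) (D' : UD hF e G₀') (x : GU n F q) :
    (D'.Θ D₀ : MulAut (PSU n F q)) = cU x * D.Θ D₀ * (cU x)⁻¹ ↔
      ∃ c : Fˣ, (x : GL (Fin n) F) * D.gm * (mp (tauQ hF) (x : GL (Fin n) F))⁻¹ = sc c * D'.gm := by
  rw [UD.Θ, UD.Θ, conj_twist]
  constructor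
  · intro h
    have h1 := mul_right_cancel h
    obtain ⟨c, hc⟩ := (cU_eq_iff hF hn hs _ _).1 h1.symm
    exact ⟨c, hc⟩
  · rintro ⟨c, hc⟩
    congr 1
    exact ((cU_eq_iff hF hn hs _ _).2 ⟨c, hc⟩).symm

/-- The classes correspond. -/
theorem conj_iff (D₀ : FD hF e) (hn : 3 ≤ n) (hs : ¬ (n = 3 ∧ q = 2)) (D : UD hF e G₀) (D' : UD hF e G₀') :
    IsConjUnder (inndiagPSU n F q) (D.Θ D₀) (D'.Θ D₀) ↔ IsConjUnder (inndiagPSL n F₀) (gg G₀) (gg G₀') := by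
  have hn1 : 1 ≤ n := by omega
  have hn2 : 2 ≤ n := by omega
  rw [isConj_iff hn2]
  constructor
  · rintro ⟨h, hh, he⟩
    obtain ⟨x, rfl⟩ := mem_inndiagU_iff.1 hh
    obtain ⟨c, hc⟩ := (conj_Θ_iff D₀ hn hs D D' x).1 he
    obtain ⟨d, y₀, c₀, -, hy⟩ := fwd D₀ hn1 D D' x c hc
    refine ⟨y₀⁻¹, c₀, ?_⟩
    have h1 : (G₀ : MM₀) = ((c₀⁻¹ : F₀ˣ) : F₀) • ((y₀ : MM₀)ᵀ * (G₀' : MM₀) * (y₀ : MM₀)) := by
      rw [hy, smul_smul, ← Units.val_mul, inv_mul_cancel, Units.val_one, one_smul]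
    conv_rhs => rw [h1]
    rw [Matrix.mul_smul, Matrix.smul_mul, smul_smul, ← Units.val_mul, mul_inv_cancel, Units.val_one, one_smul]
    calc (G₀' : MM₀) = (((y₀ : MM₀) * ((y₀⁻¹ : GL (Fin n) F₀) : MM₀))ᵀ) * (G₀' : MM₀) * ((y₀ : MM₀) * ((y₀⁻¹ : GL (Fin n) F₀) : MM₀)) := by
          rw [mat_mul_inv, Matrix.transpose_one, Matrix.one_mul, Matrix.mul_one]
      _ = _ := by
          rw [Matrix.transpose_mul]
          simp only [Matrix.mul_assoc]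
  · rintro ⟨k, c, hk⟩
    have hy : (((k⁻¹ : GL (Fin n) F₀)) : MM₀)ᵀ * (G₀' : MM₀) * ((k⁻¹ : GL (Fin n) F₀) : MM₀) = (c : F₀) • (G₀ : MM₀) := by
      rw [hk, Matrix.mul_smul, Matrix.smul_mul]
      congr 1
      calc ((k⁻¹ : GL (Fin n) F₀) : MM₀)ᵀ * ((k : MM₀)ᵀ * (G₀ : MM₀) * (k : MM₀)) * ((k⁻¹ : GL (Fin n) F₀) : MM₀)
          = ((k : MM₀) * ((k⁻¹ : GL (Fin n) F₀) : MM₀))ᵀ * (G₀ : MM₀) * ((k : MM₀) * ((k⁻¹ : GL (Fin n) F₀) : MM₀)) := by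
            rw [Matrix.transpose_mul]
            simp only [Matrix.mul_assoc]
        _ = _ := by rw [mat_mul_inv, Matrix.transpose_one, Matrix.one_mul, Matrix.mul_one]
    obtain ⟨x, d, c', -, hx⟩ := bwd D₀ hn1 D D' k⁻¹ c hy
    exact ⟨cU x, mem_inndiagU_iff.2 ⟨x, rfl⟩, (conj_Θ_iff D₀ hn hs D D' x).2 ⟨c', hx⟩⟩

/-- The relation between an element of the similarity group and an element of the centraliser. -/
def PP (D : UD hF e G₀) (y : GL (Fin n) F₀) (X : MulAut (PSU n F q)) : Prop :=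
  ∃ (x : GU n F q) (d : Fˣ), (x : GL (Fin n) F) = sc d * (D.k * em e y * D.k⁻¹) ∧ X = cU x

lemma PP_unique (hn : 3 ≤ n) (hs : ¬ (n = 3 ∧ q = 2)) (D : UD hF e G₀) {y : GL (Fin n) F₀} {X X' : MulAut (PSU n F q)}
    (h : PP D y X) (h' : PP D y X') : X = X' := by
  obtain ⟨x, d, hx, rfl⟩ := h
  obtain ⟨x', d', hx', rfl⟩ := h'
  apply (cU_eq_iff hF hn hs _ _).2
  refine ⟨d * d'⁻¹, ?_⟩
  rw [hx, hx', ← mul_assoc (sc (d * d'⁻¹)) (sc d'), ← sc_mul, inv_mul_cancel_right]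

lemma PP_mul (D : UD hF e G₀) {y y' : GL (Fin n) F₀} {X X' : MulAut (PSU n F q)} (h : PP D y X) (h' : PP D y' X') : PP D (y * y') (X * X') := by
  obtain ⟨x, d, hx, rfl⟩ := h
  obtain ⟨x', d', hx', rfl⟩ := h'
  refine ⟨x * x', d * d', ?_, (map_mul _ _ _).symm⟩
  change (x : GL (Fin n) F) * (x' : GL (Fin n) F) = _
  rw [hx, hx', sc_mul_sc, map_mul]
  congr 1
  group

lemma exists_PP (D₀ : FD hF e) (hn : 3 ≤ n) (hs : ¬ (n = 3 ∧ q = 2)) (D : UD hF e G₀) {y : GL (Fin n) F₀} (hy : y ∈ Sim G₀) :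
    ∃ X : MulAut (PSU n F q), PP D y X ∧ X ∈ inndiagPSU n F q ∧ Commute X (D.Θ D₀) := by
  have hn1 : 1 ≤ n := by omega
  obtain ⟨z, hz⟩ := hy
  obtain ⟨x, d, c, hx, hc⟩ := bwd D₀ hn1 D D y z hz
  refine ⟨cU x, ⟨x, d, hx, rfl⟩, mem_inndiagU_iff.2 ⟨x, rfl⟩, ?_⟩
  have h1 := (conj_Θ_iff D₀ hn hs D D x).2 ⟨c, hc⟩
  change cU x * D.Θ D₀ = D.Θ D₀ * cU x
  exact (eq_mul_inv_iff_mul_eq.1 h1).symm

/-- The homomorphism from the similarity group. -/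
noncomputable def thetaU (D₀ : FD hF e) (hn : 3 ≤ n) (hs : ¬ (n = 3 ∧ q = 2)) (D : UD hF e G₀) : Sim G₀ →* MulAut (PSU n F q) :=
  MonoidHom.mk' (fun y => Classical.choose (exists_PP D₀ hn hs D y.2)) (fun a b =>
    PP_unique hn hs D (Classical.choose_spec (exists_PP D₀ hn hs D (a * b).2)).1
      (PP_mul D (Classical.choose_spec (exists_PP D₀ hn hs D a.2)).1 (Classical.choose_spec (exists_PP D₀ hn hs D b.2)).1))

lemma thetaU_spec (D₀ : FD hF e) (hn : 3 ≤ n) (hs : ¬ (n = 3 ∧ q = 2)) (D : UD hF e G₀) (y : Sim G₀) :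
    PP D (y : GL (Fin n) F₀) (thetaU D₀ hn hs D y) ∧ thetaU D₀ hn hs D y ∈ inndiagPSU n F q ∧ Commute (thetaU D₀ hn hs D y) (D.Θ D₀) :=
  Classical.choose_spec (exists_PP D₀ hn hs D y.2)

/-- The centraliser is the projective similarity group. -/
theorem cent_iso (D₀ : FD hF e) (hn : 3 ≤ n) (hs : ¬ (n = 3 ∧ q = 2)) (D : UD hF e G₀) :
    Nonempty (↥(inndiagPSU n F q ⊓ Subgroup.centralizer {(D.Θ D₀ : MulAut (PSU n F q))}) ≃* projQuot (Sim G₀)) := by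
  have hn1 : 1 ≤ n := by omega
  let θ := thetaU D₀ hn hs D
  let Φ : Sim G₀ →* ↥(inndiagPSU n F q ⊓ Subgroup.centralizer {(D.Θ D₀ : MulAut (PSU n F q))}) :=
    θ.codRestrict _ (fun y => ⟨(thetaU_spec D₀ hn hs D y).2.1, Subgroup.mem_centralizer_singleton_iff.2 (thetaU_spec D₀ hn hs D y).2.2⟩)
  have hsurj : Function.Surjective Φ := by
    rintro ⟨β, hβ1, hβ2⟩
    obtain ⟨x, rfl⟩ := mem_inndiagU_iff.1 hβ1
    have h1 : (D.Θ D₀ : MulAut (PSU n F q)) = cU x * D.Θ D₀ * (cU x)⁻¹ := by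
      have := Subgroup.mem_centralizer_singleton_iff.1 hβ2
      rw [eq_mul_inv_iff_mul_eq]
      exact this.symm
    obtain ⟨c, hc⟩ := (conj_Θ_iff D₀ hn hs D D x).1 h1
    obtain ⟨d, y₀, c₀, hd, hy⟩ := fwd D₀ hn1 D D x c hc
    have hmem : y₀ ∈ Sim G₀ := ⟨c₀, hy⟩
    refine ⟨⟨y₀, hmem⟩, Subtype.ext ?_⟩
    refine PP_unique hn hs D (thetaU_spec D₀ hn hs D ⟨y₀, hmem⟩).1 ⟨x, d, ?_, rfl⟩
    have h2 : (x : GL (Fin n) F) = D.k * (sc d * em e y₀) * D.k⁻¹ := by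
      rw [← hd]
      group
    rw [h2, ← mul_assoc D.k (sc d), ← sc_comm d D.k]
    simp only [mul_assoc]
  have hker : Φ.ker = (Geo.scalars (Fin n) F₀).subgroupOf (Sim G₀) := by
    ext g
    rw [MonoidHom.mem_ker, Subgroup.mem_subgroupOf, Geo.mem_scalars_iff]
    constructor
    · intro h
      have h1 : θ g = 1 := congrArg Subtype.val h
      obtain ⟨x, d, hx, hX⟩ := (thetaU_spec D₀ hn hs D g).1
      have h2 : (cU x : MulAut (PSU n F q)) = 1 := by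
        rw [← hX]
        exact h1
      obtain ⟨c, hc⟩ := exists_sc_of_cU hF hn hs h2
      have h3 : em e (g : GL (Fin n) F₀) = sc (d⁻¹ * c) := by
        have h4 : D.k * em e (g : GL (Fin n) F₀) * D.k⁻¹ = sc (d⁻¹ * c) := by
          rw [sc_mul, ← hc, hx, ← mul_assoc, ← sc_mul, inv_mul_cancel, sc_one_eq, one_mul]
        have h5 : em e (g : GL (Fin n) F₀) = D.k⁻¹ * sc (d⁻¹ * c) * D.k := by
          rw [← h4]
          group
        rw [h5, sc_conj'']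
      obtain ⟨c₀, hc₀⟩ := scalar_of_map_sc hn1 e D₀.inj h3
      exact ⟨c₀, by rw [hc₀, sc_coe]⟩
    · rintro ⟨c₀, hc₀⟩
      apply Subtype.ext
      change θ g = 1
      obtain ⟨x, d, hx, hX⟩ := (thetaU_spec D₀ hn hs D g).1
      have hg : (g : GL (Fin n) F₀) = sc c₀ := Units.ext (by rw [sc_coe]; exact hc₀)
      have h2 : (x : GL (Fin n) F) = sc (d * Units.map (e : F₀ →* F) c₀) := by
        rw [hx, hg]
        change sc d * (D.k * Matrix.GeneralLinearGroup.map e (sc c₀) * D.k⁻¹) = _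
        rw [map_sc, sc_mul, sc_conj']
      exact hX.trans (cU_of_sc h2)
  exact ⟨((QuotientGroup.quotientMulEquivOfEq hker).symm.trans (QuotientGroup.quotientKerEquivOfSurjective Φ hsurj)).symm⟩

/-- The relation of a graph involution with a form. -/
def Rel (hF : Fintype.card F = q ^ 2) (e : F₀ →+* F) (D₀ : FD hF e) (γ : MulAut (PSU n F q)) (G₀ : GL (Fin n) F₀) : Prop :=
  ∃ D : UD hF e G₀, γ = D.Θ D₀

theorem Rel.graph {D₀ : FD hF e} (hn : 3 ≤ n) (hs : ¬ (n = 3 ∧ q = 2)) {γ : MulAut (PSU n F q)} (h : Rel hF e D₀ γ G₀) :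
    IsGraphAutClassPSU γ ∧ orderOf γ = 2 := by
  obtain ⟨D, rfl⟩ := h
  exact ⟨D.Θ_graph D₀ hn, D.Θ_order D₀ hn hs⟩

theorem Rel.exists_left (D₀ : FD hF e) (hn : 1 ≤ n) (G₀ : GL (Fin n) F₀) {c : F₀ˣ} (hc : (G₀ : MM₀)ᵀ = (c : F₀) • (G₀ : MM₀)) :
    ∃ γ : MulAut (PSU n F q), Rel hF e D₀ γ G₀ := by
  obtain ⟨D⟩ := exists_UD (hF := hF) (e := e) D₀ hn G₀ hc
  exact ⟨_, D, rfl⟩

theorem Rel.exists_right [Fintype F₀] (hF₀ : Fintype.card F₀ = q) (D₀ : FD hF e) (hn : 3 ≤ n) (hs : ¬ (n = 3 ∧ q = 2)) {γ : MulAut (PSU n F q)}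
    (hγ : IsGraphAutClassPSU γ) (hγ2 : orderOf γ = 2) :
    ∃ (G₀ : GL (Fin n) F₀) (c : F₀ˣ), (G₀ : MM₀)ᵀ = (c : F₀) • (G₀ : MM₀) ∧ Rel hF e D₀ γ G₀ := by
  obtain ⟨G₀, c, D, h1, h2⟩ := exists_of_graph hF₀ D₀ hn hs γ hγ hγ2
  exact ⟨G₀, c, h1, D, h2⟩

theorem Rel.conj {D₀ : FD hF e} (hn : 3 ≤ n) (hs : ¬ (n = 3 ∧ q = 2)) {γ γ' : MulAut (PSU n F q)} (h : Rel hF e D₀ γ G₀) (h' : Rel hF e D₀ γ' G₀') :
    IsConjUnder (inndiagPSU n F q) γ γ' ↔ IsConjUnder (inndiagPSL n F₀) (gg G₀) (gg G₀') := by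
  obtain ⟨D, rfl⟩ := h
  obtain ⟨D', rfl⟩ := h'
  exact conj_iff D₀ hn hs D D'

theorem Rel.cent {D₀ : FD hF e} (hn : 3 ≤ n) (hs : ¬ (n = 3 ∧ q = 2)) {γ : MulAut (PSU n F q)} (h : Rel hF e D₀ γ G₀) :
    Nonempty (↥(inndiagPSU n F q ⊓ Subgroup.centralizer {γ}) ≃* ↥(inndiagPSL n F₀ ⊓ Subgroup.centralizer {(gg G₀ : MulAut (PSLn n F₀))})) := by
  obtain ⟨D, rfl⟩ := h
  obtain ⟨φ₁⟩ := cent_iso D₀ hn hs D
  obtain ⟨φ₂⟩ := cent_equiv (F := F₀) (n := n) (by omega) G₀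
  exact ⟨φ₁.trans φ₂.symm⟩

/-- The standard field automorphism corresponds to the dot product. -/
theorem Rel.fU_one (D₀ : FD hF e) : Rel hF e D₀ (fU (tauQ hF) : MulAut (PSU n F q)) (1 : GL (Fin n) F₀) := by
  have hk : ((1 : GL (Fin n) F) : MM)ᵀ * ((mp (tauQ hF) (1 : GL (Fin n) F) : GL (Fin n) F) : MM) = (((1 : Fˣ) : F)) • ((em e (1 : GL (Fin n) F₀) : GL (Fin n) F) : MM) := by
    rw [map_one, map_one, Units.val_one, Units.val_one, Matrix.transpose_one, Matrix.one_mul, one_smul]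
  let D : UD hF e (1 : GL (Fin n) F₀) := ⟨1, 1, 1, 1, one_mul _, by simp, by simp, hk⟩
  refine ⟨D, ?_⟩
  have h1 : (⟨D.gm, D.gm_mem D₀⟩ : GU n F q) = 1 := by
    apply Subtype.ext
    change sc (1 : Fˣ) * ((1 : GL (Fin n) F) * (mp (tauQ hF) (1 : GL (Fin n) F))⁻¹) = 1
    rw [sc_one_eq, map_one]
    group
  rw [UD.Θ, h1, map_one, one_mul]

end Cfsg.Agent.Lib.Known3.GraphU
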