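import Mathlib
import Cfsg.Agent.Lib.Known3.GraphU5
import Cfsg.Agent.Lib.Known3.GraphSplit4

/-! Class splitting for the involutory graph automorphisms of `PSU_n`. -/

set_option autoImplicit false
set_option linter.unusedVariables false
set_option linter.unusedSectionVars false

namespace Cfsg.Agent.Lib.Known3.GraphU

open Matrix Module Cfsg
open scoped MatrixGroups
open Cfsg.Agent.Lib.AutPSL Cfsg.Agent.Lib.Known3.FieldAut Cfsg.Agent.Lib.Known3.Graph
open Cfsg.Agent.Lib.AutPSU Cfsg.Agent.Lib.Classical Cfsg.Agent.Lib.Classical.UT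
open Cfsg.Agent.Lib.AutPSU.Rep (U1 card_U1 U1_norm U1_mk)

variable {F F₀ : Type*} [Field F] [Field F₀] [Fintype F] {n q : ℕ}

local notation "MM" => Matrix (Fin n) (Fin n) F
local notation "MM₀" => Matrix (Fin n) (Fin n) F₀

variable {hF : Fintype.card F = q ^ 2} {e : F₀ →+* F} {G₀ : GL (Fin n) F₀}

lemma mem_U1_iff (hF : Fintype.card F = q ^ 2) (u : Fˣ) : u ∈ U1 F q ↔ u * tU hF u = 1 := by
  rw [MonoidHom.mem_ker, powMonoidHom_apply]
  constructor
  · intro h
    apply Units.ext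
    have := congrArg Units.val h
    simp only [Units.val_pow_eq_pow_val, Units.val_one, pow_succ] at this
    rw [Units.val_mul, tU_coe, tauQ_apply, Units.val_one, mul_comm]
    exact this
  · intro h
    apply Units.ext
    have := congrArg Units.val h
    rw [Units.val_mul, tU_coe, tauQ_apply, Units.val_one, mul_comm] at this
    simp only [Units.val_pow_eq_pow_val, Units.val_one, pow_succ]
    exact this

lemma tU_sq (hF : Fintype.card F = q ^ 2) (a : Fˣ) : tU hF (a ^ 2) = (tU hF a) ^ 2 := by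
  rw [pow_two, pow_two, tU_mul]

lemma tU_em (D₀ : FD hF e) (w : F₀ˣ) : tU hF (Units.map (e : F₀ →* F) w) = Units.map (e : F₀ →* F) w :=
  Units.ext ((D₀.fix _).2 ⟨_, rfl⟩)

lemma exists_pre (D₀ : FD hF e) (b : Fˣ) (hb : tU hF b = b) : ∃ c₀ : F₀ˣ, Units.map (e : F₀ →* F) c₀ = b := by
  obtain ⟨c, hc⟩ := (D₀.fix (b : F)).1 (congrArg Units.val hb)
  have hc0 : c ≠ 0 := by
    rintro rfl
    rw [map_zero] at hc
    exact b.ne_zero hc.symm
  exact ⟨Units.mk0 c hc0, Units.ext hc⟩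

lemma exists_hilb (hF : Fintype.card F = q ^ 2) (v : Fˣ) (hv : v * tU hF v = 1) : ∃ d : Fˣ, d * (tU hF d)⁻¹ = v := by
  have h6 : nu (tauQ hF) 2 v = 1 := by
    rw [← hv]
    apply Units.ext
    simp [nu, Finset.prod_range_succ, tU_coe]
  obtain ⟨z, hz⟩ := hilbert90_units (tauQ hF) (orderOf_tauQ hF) (by norm_num) v h6
  have hz' : v * tU hF z = z := hz
  exact ⟨z, by rw [mul_inv_eq_iff_eq_mul]; exact hz'.symm⟩

/-- The form of the transported matrix. -/
lemma x0_form (D₀ : FD hF e) (D : UD hF e G₀) (y₀ : GL (Fin n) F₀) (c₀ : F₀ˣ)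
    (hy : (y₀ : MM₀)ᵀ * (G₀ : MM₀) * (y₀ : MM₀) = (c₀ : F₀) • (G₀ : MM₀)) (d : Fˣ) :
    ((sc d * (D.k * em e y₀ * D.k⁻¹) : GL (Fin n) F) : MM)ᵀ * ((mp (tauQ hF) (sc d * (D.k * em e y₀ * D.k⁻¹)) : GL (Fin n) F) : MM) =
      (((d * tU hF d * Units.map (e : F₀ →* F) c₀ : Fˣ)) : F) • (1 : MM) := by
  classical
  set E : MM := ((em e y₀ : GL (Fin n) F) : MM) with hE
  have hEtr : Eᵀ * ((em e G₀ : GL (Fin n) F) : MM) * E = (e (c₀ : F₀)) • ((em e G₀ : GL (Fin n) F) : MM) := by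
    have := congrArg (fun A : MM₀ => A.map e) hy
    simp only [Matrix.map_mul] at this
    have h2 : ((c₀ : F₀) • (G₀ : MM₀)).map e = (e (c₀ : F₀)) • (G₀ : MM₀).map e := by
      ext i j
      simp
    rw [h2] at this
    exact this
  set x₀ : GL (Fin n) F := D.k * em e y₀ * D.k⁻¹ with hx₀
  have hTx : mp (tauQ hF) x₀ = mp (tauQ hF) D.k * em e y₀ * (mp (tauQ hF) D.k)⁻¹ := by
    rw [hx₀, map_mul, map_mul, map_inv, mp_em D₀]
  have hx₀form : (x₀ : MM)ᵀ * ((mp (tauQ hF) x₀ : GL (Fin n) F) : MM) = (e (c₀ : F₀)) • 1 := by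
    rw [hTx, hx₀]
    change ((D.k : MM) * E * ((D.k⁻¹ : GL (Fin n) F) : MM))ᵀ * (((mp (tauQ hF) D.k : GL (Fin n) F) : MM) * E * (((mp (tauQ hF) D.k)⁻¹ : GL (Fin n) F) : MM)) = _
    rw [Matrix.transpose_mul, Matrix.transpose_mul]
    calc ((D.k⁻¹ : GL (Fin n) F) : MM)ᵀ * (Eᵀ * (D.k : MM)ᵀ) * (((mp (tauQ hF) D.k : GL (Fin n) F) : MM) * E * (((mp (tauQ hF) D.k)⁻¹ : GL (Fin n) F) : MM))
        = ((D.k⁻¹ : GL (Fin n) F) : MM)ᵀ * (Eᵀ * ((D.k : MM)ᵀ * ((mp (tauQ hF) D.k : GL (Fin n) F) : MM)) * E) * (((mp (tauQ hF) D.k)⁻¹ : GL (Fin n) F) : MM) := by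
          simp only [Matrix.mul_assoc]
      _ = ((D.k⁻¹ : GL (Fin n) F) : MM)ᵀ * (((D.ω : F) * e (c₀ : F₀)) • ((em e G₀ : GL (Fin n) F) : MM)) * (((mp (tauQ hF) D.k)⁻¹ : GL (Fin n) F) : MM) := by
          rw [D.hk, Matrix.mul_smul, Matrix.smul_mul, hEtr, smul_smul]
      _ = ((D.ω : F) * e (c₀ : F₀)) • (((D.k⁻¹ : GL (Fin n) F) : MM)ᵀ * ((em e G₀ : GL (Fin n) F) : MM) * (((mp (tauQ hF) D.k)⁻¹ : GL (Fin n) F) : MM)) := by
          rw [Matrix.mul_smul, Matrix.smul_mul]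
      _ = _ := by
          rw [D.sand', smul_smul]
          congr 1
          have := D.ω.ne_zero
          rw [Units.val_inv_eq_inv_val]
          field_simp
  rw [map_mul, mp_sc]
  have h2 : ((sc d * x₀ : GL (Fin n) F) : MM) = (d : F) • (x₀ : MM) := by
    rw [Units.val_mul, sc_coe, Matrix.smul_mul, Matrix.one_mul]
  have h3 : ((sc (Units.map ((tauQ hF : F ≃+* F) : F →* F) d) * mp (tauQ hF) x₀ : GL (Fin n) F) : MM) = ((tU hF d : Fˣ) : F) • ((mp (tauQ hF) x₀ : GL (Fin n) F) : MM) := by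
    rw [Units.val_mul, sc_coe, Matrix.smul_mul, Matrix.one_mul]
  rw [h2, h3, Matrix.transpose_smul, Matrix.smul_mul, Matrix.mul_smul, hx₀form, smul_smul, smul_smul]
  congr 1

/-- The forward direction. -/
theorem fwd' (D₀ : FD hF e) (hn : 3 ≤ n) (hs : ¬ (n = 3 ∧ q = 2)) (D : UD hF e G₀) (x : GU n F q)
    (h : Commute (cU x : MulAut (PSU n F q)) (D.Θ D₀)) :
    ∃ (d : Fˣ) (y₀ : GL (Fin n) F₀) (c₀ : F₀ˣ), (y₀ : MM₀)ᵀ * (G₀ : MM₀) * (y₀ : MM₀) = (c₀ : F₀) • (G₀ : MM₀) ∧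
      d * tU hF d * Units.map (e : F₀ →* F) c₀ = 1 ∧
      Matrix.GeneralLinearGroup.det (x : GL (Fin n) F) = d ^ n * Units.map (e : F₀ →* F) (Matrix.GeneralLinearGroup.det y₀) := by
  classical
  have h1 : (D.Θ D₀ : MulAut (PSU n F q)) = cU x * D.Θ D₀ * (cU x)⁻¹ := by
    rw [eq_mul_inv_iff_mul_eq]
    exact h.symm.eq
  obtain ⟨c, hc⟩ := (conj_Θ_iff D₀ hn hs D D x).1 h1
  obtain ⟨d, y₀, c₀, hd, hy⟩ := fwd D₀ (by omega) D D x c hc
  have hx : (x : GL (Fin n) F) = sc d * (D.k * em e y₀ * D.k⁻¹) := by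
    have h2 : (x : GL (Fin n) F) = D.k * (sc d * em e y₀) * D.k⁻¹ := by
      rw [← hd]
      group
    rw [h2]
    simp only [← mul_assoc]
    rw [sc_comm d D.k]
  have hform := x0_form D₀ D y₀ c₀ hy d
  rw [← hx, (mem_GU_iff' hF _).1 x.2] at hform
  refine ⟨d, y₀, c₀, hy, ?_, ?_⟩
  · apply Units.ext
    have h3 := congrFun (congrFun hform ⟨0, by omega⟩) ⟨0, by omega⟩
    simp only [Matrix.one_apply_eq, Matrix.smul_apply, smul_eq_mul, mul_one] at h3
    rw [Units.val_one]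
    exact h3.symm
  · rw [hx, map_mul, det_sc, map_mul, map_mul, map_inv]
    have h4 : Matrix.GeneralLinearGroup.det (em e y₀) = Units.map (e : F₀ →* F) (Matrix.GeneralLinearGroup.det y₀) := by
      apply Units.ext
      change ((y₀ : MM₀).map e).det = e (y₀ : MM₀).det
      exact (RingHom.map_det e _).symm
    rw [h4]
    congr 1
    exact mul_inv_cancel_comm _ _

/-- The backward direction. -/
theorem bwd' (D₀ : FD hF e) (hn : 3 ≤ n) (hs : ¬ (n = 3 ∧ q = 2)) (D : UD hF e G₀) (y₀ : GL (Fin n) F₀) (c₀ : F₀ˣ)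
    (hy : (y₀ : MM₀)ᵀ * (G₀ : MM₀) * (y₀ : MM₀) = (c₀ : F₀) • (G₀ : MM₀)) (d : Fˣ)
    (hd : d * tU hF d * Units.map (e : F₀ →* F) c₀ = 1) :
    ∃ x : GU n F q, Commute (cU x : MulAut (PSU n F q)) (D.Θ D₀) ∧
      Matrix.GeneralLinearGroup.det (x : GL (Fin n) F) = d ^ n * Units.map (e : F₀ →* F) (Matrix.GeneralLinearGroup.det y₀) := by
  classical
  have hmem : sc d * (D.k * em e y₀ * D.k⁻¹) ∈ GU n F q := by
    rw [mem_GU_iff' hF, x0_form D₀ D y₀ c₀ hy d, hd, Units.val_one, one_smul]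
  refine ⟨⟨_, hmem⟩, ?_, ?_⟩
  · have h1 : (D.Θ D₀ : MulAut (PSU n F q)) = cU ⟨_, hmem⟩ * D.Θ D₀ * (cU ⟨_, hmem⟩)⁻¹ := by
      apply (conj_Θ_iff D₀ hn hs D D _).2
      refine ⟨d * (tU hF d)⁻¹, ?_⟩
      change sc d * (D.k * em e y₀ * D.k⁻¹) * D.gm * (mp (tauQ hF) (sc d * (D.k * em e y₀ * D.k⁻¹)))⁻¹ = _
      set x₀ : GL (Fin n) F := D.k * em e y₀ * D.k⁻¹ with hx₀
      have hTx : mp (tauQ hF) x₀ = mp (tauQ hF) D.k * em e y₀ * (mp (tauQ hF) D.k)⁻¹ := by
        rw [hx₀, map_mul, map_mul, map_inv, mp_em D₀]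
      have h1 : x₀ * (D.k * (mp (tauQ hF) D.k)⁻¹) * (mp (tauQ hF) x₀)⁻¹ = D.k * (mp (tauQ hF) D.k)⁻¹ := by
        rw [hTx, hx₀]
        group
      rw [map_mul, mp_sc, UD.gm, sc_mul_sc, sc_mul_inv'', sc_mul_sc, h1]
      rw [← mul_assoc (sc _) (sc D.μ), ← sc_mul]
      congr 2
      change d * D.μ * (tU hF d)⁻¹ = d * (tU hF d)⁻¹ * D.μ
      exact mul_right_comm _ _ _
    rw [eq_mul_inv_iff_mul_eq] at h1
    exact h1.symm
  · change Matrix.GeneralLinearGroup.det (sc d * (D.k * em e y₀ * D.k⁻¹)) = _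
    rw [map_mul, det_sc, map_mul, map_mul, map_inv]
    have h4 : Matrix.GeneralLinearGroup.det (em e y₀) = Units.map (e : F₀ →* F) (Matrix.GeneralLinearGroup.det y₀) := by
      apply Units.ext
      change ((y₀ : MM₀).map e).det = e (y₀ : MM₀).det
      exact (RingHom.map_det e _).symm
    rw [h4]
    congr 1
    exact mul_inv_cancel_comm _ _

/-- The count when all similitude determinants are `n`-th powers. -/
theorem split_powU (D₀ : FD hF e) (hn : 3 ≤ n) (hs : ¬ (n = 3 ∧ q = 2)) (D : UD hF e G₀)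
    (hdet : ∀ (y : GL (Fin n) F₀) (z : F₀ˣ), (y : MM₀)ᵀ * (G₀ : MM₀) * (y : MM₀) = (z : F₀) • (G₀ : MM₀) → ∃ w : F₀ˣ, z = w ^ 2 ∧ (y : MM₀).det = ((w ^ n : F₀ˣ) : F₀)) :
    splitClassCount (inndiagPSU n F q) (Inn (PSU n F q)) (D.Θ D₀) = Nat.gcd n (q + 1) := by
  have hn2 : 2 ≤ n := by omega
  have h1 : splitClassCount (inndiagPSU n F q) (Inn (PSU n F q)) (D.Θ D₀) = ((powMonoidHom n : U1 F q →* U1 F q).range ⊔ ⊥).index := by
    apply SplitCount.split_count (cU : GU n F q →* MulAut (PSU n F q)) (detU hF) (detU_surj hF hn2) _ _ inndiagU_eq_range inn_le_inndiagU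
    · exact cU_mem_inn_iff hF hn hs
    · intro g hg
      obtain ⟨d, y₀, c₀, hy, hd, hdt⟩ := fwd' D₀ hn hs D g hg
      obtain ⟨w, hw, hw2⟩ := hdet y₀ c₀ hy
      have hu : d * Units.map (e : F₀ →* F) w ∈ U1 F q := by
        rw [mem_U1_iff hF, tU_mul, tU_em D₀, ← hd, hw, map_pow]
        apply Units.ext
        simp only [Units.val_mul, Units.val_pow_eq_pow_val]
        ring
      apply (le_sup_left : (powMonoidHom n : U1 F q →* U1 F q).range ≤ _)
      refine ⟨⟨_, hu⟩, ?_⟩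
      apply Subtype.ext
      change (d * Units.map (e : F₀ →* F) w) ^ n = Matrix.GeneralLinearGroup.det (g : GL (Fin n) F)
      rw [hdt]
      have h4 : Matrix.GeneralLinearGroup.det y₀ = w ^ n := Units.ext hw2
      rw [h4, map_pow, mul_pow]
    · intro a ha
      rw [Subgroup.mem_bot] at ha
      subst ha
      exact ⟨1, by simp, map_one _⟩
  rw [h1, idx_one, card_U1 hF]

/-- The count for skew forms. -/
theorem split_skewU (h2 : (2 : F₀) ≠ 0) {m : ℕ} (D₀ : FD hF e) (hn : 3 ≤ n) (hs : ¬ (n = 3 ∧ q = 2)) (hnm : n = 2 * m) (D : UD hF e G₀)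
    (hG : (G₀ : MM₀)ᵀ = -(G₀ : MM₀)) :
    splitClassCount (inndiagPSU n F q) (Inn (PSU n F q)) (D.Θ D₀) = Nat.gcd m (q + 1) := by
  have hn2 : 2 ≤ n := by omega
  have h1 : splitClassCount (inndiagPSU n F q) (Inn (PSU n F q)) (D.Θ D₀) = ((powMonoidHom n : U1 F q →* U1 F q).range ⊔ (powMonoidHom m : U1 F q →* U1 F q).range).index := by
    apply SplitCount.split_count (cU : GU n F q →* MulAut (PSU n F q)) (detU hF) (detU_surj hF hn2) _ _ inndiagU_eq_range inn_le_inndiagU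
    · exact cU_mem_inn_iff hF hn hs
    · intro g hg
      obtain ⟨d, y₀, c₀, hy, hd, hdt⟩ := fwd' D₀ hn hs D g hg
      have hw := skew_det h2 hnm G₀ hG y₀ c₀ hy
      have hu : d ^ 2 * Units.map (e : F₀ →* F) c₀ ∈ U1 F q := by
        rw [mem_U1_iff hF, tU_mul, tU_em D₀, tU_sq]
        have h3 : d ^ 2 * Units.map (e : F₀ →* F) c₀ * ((tU hF) d ^ 2 * Units.map (e : F₀ →* F) c₀) = (d * tU hF d * Units.map (e : F₀ →* F) c₀) ^ 2 := by
          apply Units.ext
          simp only [Units.val_mul, Units.val_pow_eq_pow_val]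
          ring
        rw [h3, hd, one_pow]
      apply (le_sup_right : (powMonoidHom m : U1 F q →* U1 F q).range ≤ _)
      refine ⟨⟨_, hu⟩, ?_⟩
      apply Subtype.ext
      change (d ^ 2 * Units.map (e : F₀ →* F) c₀) ^ m = Matrix.GeneralLinearGroup.det (g : GL (Fin n) F)
      rw [hdt]
      have h4 : Matrix.GeneralLinearGroup.det y₀ = c₀ ^ m := Units.ext (by rw [Units.val_pow_eq_pow_val]; exact hw)
      rw [h4, map_pow, mul_pow, hnm, ← pow_mul]
    · rintro _ ⟨v, rfl⟩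
      have hv : (v : Fˣ) * tU hF v = 1 := (mem_U1_iff hF _).1 v.2
      obtain ⟨d, hd⟩ := exists_hilb hF v hv
      obtain ⟨c₀, hc₀⟩ := exists_pre D₀ (d * tU hF d)⁻¹ (by
        rw [tU_inv, tU_mul, tU_tU, mul_comm])
      obtain ⟨y₀, hy, hdy⟩ := skew_exists h2 hnm G₀ hG c₀
      obtain ⟨x, hx, hxd⟩ := bwd' D₀ hn hs D y₀ c₀ hy d (by rw [hc₀]; exact mul_inv_cancel _)
      refine ⟨x, hx, ?_⟩
      apply Subtype.ext
      change Matrix.GeneralLinearGroup.det (x : GL (Fin n) F) = (v : Fˣ) ^ m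
      rw [hxd]
      have h4 : Matrix.GeneralLinearGroup.det y₀ = c₀ ^ m := Units.ext (by rw [Units.val_pow_eq_pow_val]; exact hdy)
      rw [h4, map_pow, hc₀, ← hd, hnm, pow_mul, ← mul_pow]
      congr 1
      apply Units.ext
      simp only [Units.val_mul, Units.val_inv_eq_inv_val, Units.val_pow_eq_pow_val]
      have := d.ne_zero
      have := (tU hF d).ne_zero
      field_simp
  rw [h1, hnm, idx_m, card_U1 hF]

/-- The count for symmetric forms. -/
theorem split_symU [Fintype F₀] (h2 : (2 : F₀) ≠ 0) {m : ℕ} (hm : 1 ≤ m) (D₀ : FD hF e) (hn : 3 ≤ n) (hs : ¬ (n = 3 ∧ q = 2)) (hnm : n = 2 * m) (D : UD hF e G₀)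
    (hG : (G₀ : MM₀)ᵀ = (G₀ : MM₀)) :
    splitClassCount (inndiagPSU n F q) (Inn (PSU n F q)) (D.Θ D₀) = Nat.gcd n (q + 1) / 2 := by
  classical
  have hn2 : 2 ≤ n := by omega
  have hνm : (-1 : Fˣ) ∈ U1 F q := by
    rw [mem_U1_iff hF]
    apply Units.ext
    simp [tU_coe]
  let ν : U1 F q := ⟨-1, hνm⟩
  have h2F : (2 : F) ≠ 0 := by
    intro h
    apply h2
    apply D₀.inj
    rw [map_ofNat, map_zero]
    exact h
  have hord : orderOf ν = 2 := by
    haveI : Fact (Nat.Prime 2) := ⟨Nat.prime_two⟩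
    apply orderOf_eq_prime
    · apply Subtype.ext
      change ((-1 : Fˣ)) ^ 2 = 1
      simp
    · intro h
      have h3 := congrArg (fun x : U1 F q => ((x : Fˣ) : F)) h
      change (-1 : F) = 1 at h3
      apply h2F
      linear_combination (-1 : F) * h3
  have h1 : splitClassCount (inndiagPSU n F q) (Inn (PSU n F q)) (D.Θ D₀) = ((powMonoidHom n : U1 F q →* U1 F q).range ⊔ ((powMonoidHom m : U1 F q →* U1 F q).range ⊔ Subgroup.zpowers ν)).index := by
    apply SplitCount.split_count (cU : GU n F q →* MulAut (PSU n F q)) (detU hF) (detU_surj hF hn2) _ _ inndiagU_eq_range inn_le_inndiagU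
    · exact cU_mem_inn_iff hF hn hs
    · intro g hg
      obtain ⟨d, y₀, c₀, hy, hd, hdt⟩ := fwd' D₀ hn hs D g hg
      have hu : d ^ 2 * Units.map (e : F₀ →* F) c₀ ∈ U1 F q := by
        rw [mem_U1_iff hF, tU_mul, tU_em D₀, tU_sq]
        have h3 : d ^ 2 * Units.map (e : F₀ →* F) c₀ * ((tU hF) d ^ 2 * Units.map (e : F₀ →* F) c₀) = (d * tU hF d * Units.map (e : F₀ →* F) c₀) ^ 2 := by
          apply Units.ext
          simp only [Units.val_mul, Units.val_pow_eq_pow_val]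
          ring
        rw [h3, hd, one_pow]
      apply (le_sup_right : (powMonoidHom m : U1 F q →* U1 F q).range ⊔ Subgroup.zpowers ν ≤ _)
      rcases sym_det hnm G₀ y₀ c₀ hy with hw | hw
      · apply (le_sup_left : (powMonoidHom m : U1 F q →* U1 F q).range ≤ _)
        refine ⟨⟨_, hu⟩, ?_⟩
        apply Subtype.ext
        change (d ^ 2 * Units.map (e : F₀ →* F) c₀) ^ m = Matrix.GeneralLinearGroup.det (g : GL (Fin n) F)
        rw [hdt]
        have h4 : Matrix.GeneralLinearGroup.det y₀ = c₀ ^ m := Units.ext (by rw [Units.val_pow_eq_pow_val]; exact hw)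
        rw [h4, map_pow, mul_pow, hnm, ← pow_mul]
      · have h5 : detU hF g = (⟨_, hu⟩ : U1 F q) ^ m * ν := by
          apply Subtype.ext
          change Matrix.GeneralLinearGroup.det (g : GL (Fin n) F) = (d ^ 2 * Units.map (e : F₀ →* F) c₀) ^ m * (-1)
          rw [hdt]
          have h4 : Matrix.GeneralLinearGroup.det y₀ = -(c₀ ^ m) := Units.ext (by
            rw [Units.val_neg, Units.val_pow_eq_pow_val]; exact hw)
          apply Units.ext
          simp only [h4, hnm, Units.val_mul, Units.val_pow_eq_pow_val, Units.val_neg, Units.val_one, Units.coe_map, MonoidHom.coe_coe, map_neg, map_pow]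
          ring
        change detU hF g ∈ _
        rw [h5]
        exact Subgroup.mul_mem _ ((le_sup_left : (powMonoidHom m : U1 F q →* U1 F q).range ≤ _) ⟨_, rfl⟩) ((le_sup_right : Subgroup.zpowers ν ≤ _) (Subgroup.mem_zpowers _))
    · intro a ha
      obtain ⟨_, ⟨v, rfl⟩, s, hs', rfl⟩ := Subgroup.mem_sup.1 ha
      have hs2 : s = 1 ∨ s = ν := by
        obtain ⟨k, rfl⟩ := Subgroup.mem_zpowers_iff.1 hs'
        rcases Int.even_or_odd k with hk | hk
        · left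
          apply Subtype.ext
          change (((ν ^ k : U1 F q)) : Fˣ) = 1
          rw [Subgroup.coe_zpow]
          exact hk.neg_one_zpow
        · right
          apply Subtype.ext
          change (((ν ^ k : U1 F q)) : Fˣ) = -1
          rw [Subgroup.coe_zpow]
          exact hk.neg_one_zpow
      have hv : (v : Fˣ) * tU hF v = 1 := (mem_U1_iff hF _).1 v.2
      obtain ⟨d, hd⟩ := exists_hilb hF v hv
      obtain ⟨c₀, hc₀⟩ := exists_pre D₀ (d * tU hF d)⁻¹ (by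
        rw [tU_inv, tU_mul, tU_tU, mul_comm])
      obtain ⟨r, hr, hdr⟩ := refl_exists h2 (by omega) G₀ hG
      obtain ⟨g₀, hg₀⟩ := sym_exists h2 hm hnm G₀ hG c₀
      have hr' : ((g₀ * r : GL (Fin n) F₀) : MM₀)ᵀ * (G₀ : MM₀) * ((g₀ * r : GL (Fin n) F₀) : MM₀) = (c₀ : F₀) • (G₀ : MM₀) := by
        rw [Units.val_mul, Matrix.transpose_mul]
        calc (r : MM₀)ᵀ * (g₀ : MM₀)ᵀ * (G₀ : MM₀) * ((g₀ : MM₀) * (r : MM₀)) = (r : MM₀)ᵀ * ((g₀ : MM₀)ᵀ * (G₀ : MM₀) * (g₀ : MM₀)) * (r : MM₀) := by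
              simp only [Matrix.mul_assoc]
          _ = _ := by
              rw [hg₀, Matrix.mul_smul, Matrix.smul_mul, hr]
      have hdd : Matrix.GeneralLinearGroup.det (g₀ * r) = - Matrix.GeneralLinearGroup.det g₀ := by
        apply Units.ext
        change ((g₀ * r : GL (Fin n) F₀) : MM₀).det = - (g₀ : MM₀).det
        rw [Units.val_mul, Matrix.det_mul, hdr]
        ring
      -- the value
      have hval : ∀ y : GL (Fin n) F₀, ((y : MM₀)ᵀ * (G₀ : MM₀) * (y : MM₀) = (c₀ : F₀) • (G₀ : MM₀)) →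
          Units.map (e : F₀ →* F) (Matrix.GeneralLinearGroup.det y) = Units.map (e : F₀ →* F) (c₀ ^ m) * ((s : U1 F q) : Fˣ) →
          ∃ g, Commute (cU g : MulAut (PSU n F q)) (D.Θ D₀) ∧ detU hF g = (powMonoidHom m : U1 F q →* U1 F q) v * s := by
        intro y hy hyd
        obtain ⟨x, hx, hxd⟩ := bwd' D₀ hn hs D y c₀ hy d (by rw [hc₀]; exact mul_inv_cancel _)
        refine ⟨x, hx, ?_⟩
        apply Subtype.ext
        change Matrix.GeneralLinearGroup.det (x : GL (Fin n) F) = (v : Fˣ) ^ m * ((s : U1 F q) : Fˣ)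
        rw [hxd, hyd, map_pow, hc₀, ← mul_assoc, ← hd, hnm, pow_mul, ← mul_pow]
        congr 2
        apply Units.ext
        simp only [Units.val_mul, Units.val_inv_eq_inv_val, Units.val_pow_eq_pow_val]
        have := d.ne_zero
        have := (tU hF d).ne_zero
        field_simp
      have hneg : ∀ z : F₀ˣ, Units.map (e : F₀ →* F) (-z) = - Units.map (e : F₀ →* F) z := fun z => by
        apply Units.ext
        simp
      rcases hs2 with rfl | rfl <;> rcases sym_det hnm G₀ g₀ c₀ hg₀ with h5 | h5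
      · refine hval g₀ hg₀ ?_
        have h4 : Matrix.GeneralLinearGroup.det g₀ = c₀ ^ m := Units.ext (by rw [Units.val_pow_eq_pow_val]; exact h5)
        rw [h4]
        simp
      · refine hval _ hr' ?_
        have h4 : Matrix.GeneralLinearGroup.det g₀ = -(c₀ ^ m) := Units.ext (by rw [Units.val_neg, Units.val_pow_eq_pow_val]; exact h5)
        rw [hdd, h4, neg_neg]
        simp
      · refine hval _ hr' ?_
        have h4 : Matrix.GeneralLinearGroup.det g₀ = c₀ ^ m := Units.ext (by rw [Units.val_pow_eq_pow_val]; exact h5)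
        rw [hdd, h4, hneg]
        change _ = _ * (-1 : Fˣ)
        simp
      · refine hval g₀ hg₀ ?_
        have h4 : Matrix.GeneralLinearGroup.det g₀ = -(c₀ ^ m) := Units.ext (by rw [Units.val_neg, Units.val_pow_eq_pow_val]; exact h5)
        rw [h4, hneg]
        change _ = _ * (-1 : Fˣ)
        simp
  rw [h1, hnm, idx_neg m _ hord, card_U1 hF]

end Cfsg.Agent.Lib.Known3.GraphU
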