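import Mathlib
import Cfsg.Agent.Lib.Known3.GraphChar2
import Cfsg.Agent.Lib.Classical.OrderAlt

/-! Isometry groups of symmetric bilinear forms in characteristic two. -/

set_option autoImplicit false
set_option linter.unusedVariables false
set_option linter.unusedSectionVars false

namespace Cfsg.Agent.Lib.Known3.InvC

open Module Cfsg.Agent.Lib.Classical.Abs Cfsg.Agent.Lib.Classical.Witt Cfsg.Agent.Lib.Known3.Graph

variable {F : Type*} [Field F] [Fintype F] [CharP F 2] {W : Type*} [AddCommGroup W] [Module F W] [FiniteDimensional F W]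

/-- The linear functional whose square is the diagonal of a symmetric form. -/
noncomputable def ellB (B : LinearMap.BilinForm F W) (hs : ∀ x y, B x y = B y x) : W →ₗ[F] F where
  toFun x := rt (B x x)
  map_add' x y := by
    rw [← map_add]
    congr 1
    simp only [map_add, LinearMap.add_apply]
    rw [hs y x]
    have h2 := two_eq' (F := F)
    linear_combination (B x y) * h2
  map_smul' c x := by
    have h : B (c • x) (c • x) = c ^ 2 * B x x := by
      simp only [map_smul, LinearMap.smul_apply, smul_eq_mul]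
      ring
    simp only [RingHom.id_apply, smul_eq_mul]
    rw [h, map_mul, rt_pow]

lemma ellB_sq (B : LinearMap.BilinForm F W) (hs : ∀ x y, B x y = B y x) (x : W) : (ellB B hs x) ^ 2 = B x x := rt_sq _

lemma exists_v0 (B : LinearMap.BilinForm F W) (hs : ∀ x y, B x y = B y x) (hnd : B.Nondegenerate) :
    ∃ v₀ : W, ∀ x, B v₀ x = ellB B hs x :=
  ⟨(B.toDual hnd).symm (ellB B hs), fun x => LinearMap.BilinForm.apply_toDual_symm_apply _ _⟩

variable {B : LinearMap.BilinForm F W} {hs : ∀ x y, B x y = B y x} {v₀ : W}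

lemma ell_v0 (hv : ∀ x, B v₀ x = ellB B hs x) : ellB B hs v₀ = 0 ∨ ellB B hs v₀ = 1 := by
  have h1 := ellB_sq B hs v₀
  rw [hv] at h1
  have h2 : ellB B hs v₀ * (ellB B hs v₀ - 1) = 0 := by
    linear_combination h1
  rcases mul_eq_zero.1 h2 with h | h
  · exact Or.inl h
  · exact Or.inr (sub_eq_zero.1 h)

lemma iso_ell (g : isoG (fun u v : W => B u v)) (x : W) : ellB B hs (g.1 x) = ellB B hs x := by
  apply sq_inj'
  rw [ellB_sq, ellB_sq]
  exact g.2 x x

lemma iso_v0 (hnd : B.Nondegenerate) (hv : ∀ x, B v₀ x = ellB B hs x) (g : isoG (fun u v : W => B u v)) : g.1 v₀ = v₀ := by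
  have h1 : ∀ y, B (g.1 v₀ - v₀) y = 0 := by
    intro y
    obtain ⟨z, rfl⟩ := g.1.surjective y
    have h2 : B (g.1 v₀) (g.1 z) = B v₀ z := g.2 v₀ z
    rw [map_sub, LinearMap.sub_apply, h2, hv, hv, iso_ell g z, sub_self]
  exact sub_eq_zero.1 (hnd.1 _ h1)

/-- The alternating form attached to a symmetric form. -/
noncomputable def altB (B : LinearMap.BilinForm F W) (hs : ∀ x y, B x y = B y x) : LinearMap.BilinForm F W :=
  B + (LinearMap.mul F F).compl₁₂ (ellB B hs) (ellB B hs)

lemma altB_apply (x y : W) : altB B hs x y = B x y + ellB B hs x * ellB B hs y := rfl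

lemma altB_isAlt : (altB B hs).IsAlt := fun x => by
  rw [altB_apply, ← pow_two, ellB_sq]
  have h2 := two_eq' (F := F)
  linear_combination (B x x) * h2

lemma altB_nondeg (hnd : B.Nondegenerate) (hv : ∀ x, B v₀ x = ellB B hs x) (h0 : ellB B hs v₀ = 0) : (altB B hs).Nondegenerate := by
  have hL : (altB B hs).SeparatingLeft := by
    intro x hx
    have h1 : ∀ y, B (x - ellB B hs x • v₀) y = 0 := by
      intro y
      have h2 := hx y
      rw [altB_apply] at h2
      rw [map_sub, map_smul, LinearMap.sub_apply, LinearMap.smul_apply, hv, smul_eq_mul]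
      have h3 := two_eq' (F := F)
      linear_combination h2 - (ellB B hs x * ellB B hs y) * h3
    have h4 : x = ellB B hs x • v₀ := sub_eq_zero.1 (hnd.1 _ h1)
    have h5 : ellB B hs x = 0 := by
      conv_lhs => rw [h4]
      rw [map_smul, h0, smul_zero]
    rw [h4, h5, zero_smul]
  refine ⟨hL, ?_⟩
  intro x hx
  apply hL
  intro y
  have h1 := hx y
  rw [altB_apply] at h1 ⊢
  rw [hs, mul_comm]
  exact h1

/-- Even dimension: the order of the isometry group. -/
theorem card_even {q : ℕ} (hq : Fintype.card F = q) (hnd : B.Nondegenerate) (hv : ∀ x, B v₀ x = ellB B hs x) (h0 : ellB B hs v₀ = 0)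
    (hna : ∃ x, B x x ≠ 0) {k : ℕ} (hk : finrank F W = 2 * k) :
    Nat.card (isoG (fun u v : W => B u v)) * (q ^ (2 * k) - 1) = q ^ (k ^ 2) * ∏ i ∈ Finset.range k, (q ^ (2 * (i + 1)) - 1) := by
  classical
  have hAnd := altB_nondeg hnd hv h0
  have hAlt : (altB B hs).IsAlt := altB_isAlt
  have hcard := card_isoG_alt q hq k W (altB B hs) hAnd hAlt hk
  have hv0 : v₀ ≠ 0 := by
    rintro rfl
    obtain ⟨x, hx⟩ := hna
    apply hx
    rw [← ellB_sq B hs, ← hv]
    simp
  haveI : Finite W := Module.finite_of_finite F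
  haveI := Fintype.ofFinite W
  let f : isoG (fun u v : W => altB B hs u v) → {x : W // x ≠ 0} := fun g => ⟨g.1 v₀, fun h => hv0 (g.1.injective (by rw [h, map_zero]))⟩
  have hf : Function.Surjective f := by
    rintro ⟨y, hy⟩
    obtain ⟨g, hg, -, hgx⟩ := core_alt (altB B hs) hAnd hAlt ⊥ v₀ y (by simpa using hv0) (by simpa using hy) (by
      intro a b ha hb s t
      rw [Submodule.mem_bot] at ha hb
      subst ha
      subst hb
      simp only [zero_add, map_smul, LinearMap.smul_apply, smul_eq_mul, hAlt v₀, hAlt y])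
    exact ⟨⟨g, hg⟩, Subtype.ext hgx⟩
  have hS : ∀ g g', f g = f g' ↔ g⁻¹ * g' ∈ stabG (fun u v : W => altB B hs u v) (Submodule.span F {v₀}) := by
    intro g g'
    have h1 : (g⁻¹ * g' ∈ stabG (fun u v : W => altB B hs u v) (Submodule.span F {v₀})) ↔ (g⁻¹ * g').1 v₀ = v₀ := by
      constructor
      · intro h
        exact h v₀ (Submodule.mem_span_singleton_self _)
      · intro h p hp
        obtain ⟨c, rfl⟩ := Submodule.mem_span_singleton.1 hp
        rw [map_smul, h]
    rw [h1]
    have h2 : (g⁻¹ * g').1 v₀ = v₀ ↔ g.1 v₀ = g'.1 v₀ := by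
      change g.1⁻¹ (g'.1 v₀) = v₀ ↔ _
      constructor
      · intro h
        have := congrArg g.1 h
        rw [← this]
        exact g.1.apply_symm_apply _
      · intro h
        rw [← h]
        exact g.1.symm_apply_apply _
    rw [h2]
    exact Subtype.ext_iff
  have h1 := card_eq_mul_stab f hf _ hS
  have h2 : Nat.card {x : W // x ≠ 0} = q ^ (2 * k) - 1 := by
    rw [← hk, ← hq]
    have hV : Nat.card W = Fintype.card F ^ finrank F W := by
      rw [Module.natCard_eq_pow_finrank (K := F), Nat.card_eq_fintype_card]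
    rw [← hV, Nat.card_eq_fintype_card, Nat.card_eq_fintype_card, Fintype.card_subtype_compl, Fintype.card_subtype_eq]
  have h3 : Nat.card (stabG (fun u v : W => altB B hs u v) (Submodule.span F {v₀})) = Nat.card (isoG (fun u v : W => B u v)) := by
    symm
    apply Nat.card_congr
    refine
      { toFun := fun g => ⟨⟨g.1, fun x y => ?_⟩, ?_⟩
        invFun := fun h => ⟨h.1.1, fun x y => ?_⟩
        left_inv := fun g => rfl
        right_inv := fun g => rfl }
    · change altB B hs (g.1 x) (g.1 y) = altB B hs x y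
      rw [altB_apply, altB_apply, iso_ell g, iso_ell g]
      congr 1
      exact g.2 x y
    · intro p hp
      obtain ⟨c, rfl⟩ := Submodule.mem_span_singleton.1 hp
      change g.1 (c • v₀) = c • v₀
      rw [map_smul, iso_v0 hnd hv g]
    · have hfix : h.1.1 v₀ = v₀ := h.2 v₀ (Submodule.mem_span_singleton_self _)
      have hell : ∀ z, altB B hs z v₀ = ellB B hs z := by
        intro z
        rw [altB_apply, h0, mul_zero, add_zero, hs, hv]
      have h4 : ∀ z, ellB B hs (h.1.1 z) = ellB B hs z := by
        intro z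
        rw [← hell, ← hell]
        have h6 := h.1.2 z v₀
        change altB B hs (h.1.1 z) (h.1.1 v₀) = altB B hs z v₀ at h6
        rw [hfix] at h6
        exact h6
      have h5 := h.1.2 x y
      change altB B hs (h.1.1 x) (h.1.1 y) = altB B hs x y at h5
      rw [altB_apply, altB_apply, h4, h4] at h5
      exact add_right_cancel h5
  rw [h2, h3] at h1
  rw [← hcard, h1, mul_comm]

/-- Odd dimension: the order of the isometry group. -/
theorem card_odd {q : ℕ} (hq : Fintype.card F = q) (hnd : B.Nondegenerate) (hv : ∀ x, B v₀ x = ellB B hs x) (h1 : ellB B hs v₀ = 1)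
    {k : ℕ} (hk : finrank F W = 2 * k + 1) :
    Nat.card (isoG (fun u v : W => B u v)) = q ^ (k ^ 2) * ∏ i ∈ Finset.range k, (q ^ (2 * (i + 1)) - 1) := by
  classical
  set ℓ := ellB B hs with hℓ
  let H : Submodule F W := LinearMap.ker ℓ
  have hmem : ∀ x : W, x - ℓ x • v₀ ∈ H := by
    intro x
    change ℓ (x - ℓ x • v₀) = 0
    rw [map_sub, map_smul, h1, smul_eq_mul, mul_one, sub_self]
  have hfin : finrank F H = 2 * k := by
    have h2 := LinearMap.finrank_range_add_finrank_ker ℓ
    have h3 : LinearMap.range ℓ = ⊤ := by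
      rw [LinearMap.range_eq_top]
      intro c
      exact ⟨c • v₀, by rw [map_smul, h1, smul_eq_mul, mul_one]⟩
    rw [h3, finrank_top, Module.finrank_self, hk] at h2
    change 1 + finrank F H = _ at h2
    omega
  have hvH : ∀ z ∈ H, B v₀ z = 0 := by
    intro z hz
    rw [hv]
    exact hz
  have hvH' : ∀ z ∈ H, B z v₀ = 0 := by
    intro z hz
    rw [hs]
    exact hvH z hz
  have hvv : B v₀ v₀ = 1 := by
    rw [hv]
    exact h1
  -- the decomposition of the form
  have hdec : ∀ x y : W, B x y = B (x - ℓ x • v₀) (y - ℓ y • v₀) + ℓ x * ℓ y := by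
    intro x y
    simp only [map_sub, map_smul, LinearMap.sub_apply, LinearMap.smul_apply, smul_eq_mul, hvv, hv]
    rw [hs x v₀, hv]
    ring
  have hAlt : (B.restrict H).IsAlt := by
    intro a
    change B a a = 0
    rw [← ellB_sq B hs]
    have : ℓ (a : W) = 0 := a.2
    rw [← hℓ, this]
    simp
  have hnd' : (B.restrict H).Nondegenerate := by
    have hL : (B.restrict H).SeparatingLeft := by
      intro a ha
      apply Subtype.ext
      apply hnd.1
      intro y
      have h2 := ha ⟨_, hmem y⟩
      change B a (y - ℓ y • v₀) = 0 at h2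
      rw [map_sub, map_smul, hvH' a a.2, smul_zero, sub_zero] at h2
      exact h2
    refine ⟨hL, ?_⟩
    intro a ha
    apply hL
    intro b
    have h2 := ha b
    change B b a = 0 at h2
    change B a b = 0
    rw [hs]
    exact h2
  have hcard := card_isoG_alt q hq k H (B.restrict H) hnd' hAlt hfin
  rw [← hcard]
  -- the restriction
  have hgH : ∀ (g : isoG (fun u v : W => B u v)) (x : W), x ∈ H → g.1 x ∈ H := by
    intro g x hx
    change ellB B hs (g.1 x) = 0
    rw [iso_ell g]
    exact hx
  let res : (g : isoG (fun u v : W => B u v)) → H →ₗ[F] H := fun g => (g.1 : W →ₗ[F] W).restrict (hgH g)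
  have hres : ∀ g (a : H), ((res g a : H) : W) = g.1 a := fun g a => rfl
  have hinj : ∀ g, Function.Injective (res g) := by
    intro g a b hab
    apply Subtype.ext
    apply g.1.injective
    have := congrArg (Subtype.val) hab
    exact this
  let Φ : isoG (fun u v : W => B u v) → isoG (fun u v : H => B.restrict H u v) := fun g =>
    ⟨LinearEquiv.ofInjectiveEndo (res g) (hinj g), fun a b => by
      change B (g.1 a) (g.1 b) = B a b
      exact g.2 a b⟩
  have hΦ : ∀ g (a : H), (((Φ g).1 a : H) : W) = g.1 a := fun g a => rfl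
  apply Nat.card_eq_of_bijective Φ
  constructor
  · intro g g' hgg
    apply Subtype.ext
    apply LinearEquiv.ext
    intro x
    have h2 : x = (x - ℓ x • v₀) + ℓ x • v₀ := by simp
    have h3 : g.1 (x - ℓ x • v₀) = g'.1 (x - ℓ x • v₀) := by
      have h4 := hΦ g ⟨_, hmem x⟩
      have h5 := hΦ g' ⟨_, hmem x⟩
      rw [hgg] at h4
      exact h4.symm.trans h5
    rw [h2, map_add, map_add, h3, map_smul, map_smul, iso_v0 hnd hv g, iso_v0 hnd hv g']
  · intro h
    let π : W →ₗ[F] H := LinearMap.codRestrict H (LinearMap.id - ℓ.smulRight v₀) (fun x => hmem x)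
    have hπ : ∀ x, ((π x : H) : W) = x - ℓ x • v₀ := fun x => rfl
    let g₀ : W →ₗ[F] W := H.subtype ∘ₗ (h.1 : H →ₗ[F] H) ∘ₗ π + ℓ.smulRight v₀
    have hg₀ : ∀ x, g₀ x = ((h.1 (π x) : H) : W) + ℓ x • v₀ := fun x => rfl
    have hℓh : ∀ a : H, ℓ ((h.1 a : H) : W) = 0 := fun a => (h.1 a).2
    have hπH : ∀ a : H, π (a : W) = a := by
      intro a
      apply Subtype.ext
      rw [hπ]
      have : ℓ (a : W) = 0 := a.2
      rw [this, zero_smul, sub_zero]
    have hℓg : ∀ x, ℓ (g₀ x) = ℓ x := by
      intro x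
      rw [hg₀, map_add, hℓh, zero_add, map_smul, h1, smul_eq_mul, mul_one]
    have hπg : ∀ x, ((g₀ x) - ℓ (g₀ x) • v₀) = ((h.1 (π x) : H) : W) := by
      intro x
      rw [hℓg, hg₀]
      simp
    have hiso : ∀ x y, B (g₀ x) (g₀ y) = B x y := by
      intro x y
      rw [hdec (g₀ x) (g₀ y), hdec x y, hπg, hπg, hℓg, hℓg]
      congr 1
      exact h.2 (π x) (π y)
    have hinj₀ : Function.Injective g₀ := by
      rw [injective_iff_map_eq_zero]
      intro x hx
      apply hnd.1
      intro y
      rw [← hiso, hx]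
      simp
    refine ⟨⟨LinearEquiv.ofInjectiveEndo g₀ hinj₀, hiso⟩, ?_⟩
    apply Subtype.ext
    apply LinearEquiv.ext
    intro a
    apply Subtype.ext
    rw [hΦ]
    change g₀ (a : W) = _
    rw [hg₀, hπH]
    have : ℓ (a : W) = 0 := a.2
    rw [this, zero_smul, add_zero]

/-- The parity constraints. -/
theorem v0_of_even (hnd : B.Nondegenerate) (hv : ∀ x, B v₀ x = ellB B hs x) (hE : Even (finrank F W)) : ellB B hs v₀ = 0 := by
  classical
  rcases ell_v0 hv with h | h1
  · exact h
  exfalso
  set ℓ := ellB B hs with hℓ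
  let H : Submodule F W := LinearMap.ker ℓ
  have hmem : ∀ x : W, x - ℓ x • v₀ ∈ H := by
    intro x
    change ℓ (x - ℓ x • v₀) = 0
    rw [map_sub, map_smul, h1, smul_eq_mul, mul_one, sub_self]
  have hfin : finrank F H + 1 = finrank F W := by
    have h2 := LinearMap.finrank_range_add_finrank_ker ℓ
    have h3 : LinearMap.range ℓ = ⊤ := by
      rw [LinearMap.range_eq_top]
      intro c
      exact ⟨c • v₀, by rw [map_smul, h1, smul_eq_mul, mul_one]⟩
    rw [h3, finrank_top, Module.finrank_self] at h2
    change 1 + finrank F H = _ at h2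
    omega
  have hvH' : ∀ z ∈ H, B z v₀ = 0 := by
    intro z hz
    rw [hs, hv]
    exact hz
  have hAlt : (B.restrict H).IsAlt := by
    intro a
    change B a a = 0
    rw [← ellB_sq B hs]
    have : ℓ (a : W) = 0 := a.2
    rw [← hℓ, this]
    simp
  have hnd' : (B.restrict H).Nondegenerate := by
    have hL : (B.restrict H).SeparatingLeft := by
      intro a ha
      apply Subtype.ext
      apply hnd.1
      intro y
      have h2 := ha ⟨_, hmem y⟩
      change B a (y - ℓ y • v₀) = 0 at h2
      rw [map_sub, map_smul, hvH' a a.2, smul_zero, sub_zero] at h2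
      exact h2
    refine ⟨hL, ?_⟩
    intro a ha
    apply hL
    intro b
    have h2 := ha b
    change B b a = 0 at h2
    change B a b = 0
    rw [hs]
    exact h2
  have h5 := alt_even _ hnd' hAlt
  rw [← hfin] at hE
  exact (Nat.even_add_one.1 hE) h5

theorem v0_of_odd (hnd : B.Nondegenerate) (hv : ∀ x, B v₀ x = ellB B hs x) (hO : Odd (finrank F W)) : ellB B hs v₀ = 1 := by
  rcases ell_v0 hv with h | h1
  · exfalso
    have h5 := alt_even _ (altB_nondeg hnd hv h) altB_isAlt
    exact (Nat.not_even_iff_odd.2 hO) h5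
  · exact h1

end Cfsg.Agent.Lib.Known3.InvC
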