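import Mathlib
import Cfsg.Agent.Lib.Known3.InvForm
import Cfsg.Agent.Lib.Classical.FramesSp

/-! Centralisers of involutions of `Sp_{2m}(q)`, `q` even. -/

set_option autoImplicit false
set_option linter.unusedVariables false
set_option linter.unusedSectionVars false

namespace Cfsg.Agent.Lib.Known3.InvC

open Module Matrix Cfsg.Agent.Lib.Classical Cfsg.Agent.Lib.Classical.Abs Cfsg.Agent.Lib.Classical.Witt Cfsg.Agent.Lib.Classical.Frames Cfsg.Agent.Lib.Classical.TI
open Cfsg.Agent.Lib.Known3.Graph (two_eq')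

variable {F : Type*} [Field F] [Fintype F] {m : ℕ}

local notation "VV" => (Fin m ⊕ Fin m → F)
local notation "ff" => Cfsg.sympForm m F
local notation "SpG" => Matrix.symplecticGroup (Fin m) F
local notation "MM" => Matrix (Fin m ⊕ Fin m) (Fin m ⊕ Fin m) F

/-- The pointwise stabiliser, counted. -/
theorem fix_count {k : ℕ} (s₀ : Fin k → VV) (hs₀ : LinearIndependent F s₀) (hs₀R : ∀ a b, ff (s₀ a) (s₀ b) = 0) :
    Nat.card SpG = (∏ j ∈ Finset.range k, (Fintype.card F ^ (2 * m - j) - Fintype.card F ^ j)) *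
      Nat.card ((stabG ff (Submodule.span F (Set.range s₀))).comap (spE m F).toMonoidHom) := by
  classical
  haveI : Finite VV := Module.finite_of_finite F
  let e := spE m F
  let X := Fr F (RR ff) (fun _ => Set.univ) k
  let f : SpG → X := fun g => ⟨fun i => (e g).1 (s₀ i),
    hs₀.map' ((e g).1 : VV →ₗ[F] VV) (LinearEquiv.ker _),
    fun a b => by
      have h1 := (e g).2 (s₀ a) (s₀ b)
      change ff _ _ = 0
      rw [show ff ((e g).1 (s₀ a)) ((e g).1 (s₀ b)) = ff (s₀ a) (s₀ b) from h1]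
      exact hs₀R a b,
    fun a => trivial⟩
  have hs : Function.Surjective f := by
    rintro ⟨s, hs1, hs2, -⟩
    obtain ⟨g, hg, hgi⟩ := frame_trans ff (symp_RR m) (symp_h0l m) (symp_h0r m) (symp_core m) hs₀ hs1 hs₀R hs2
    refine ⟨e.symm ⟨g, hg⟩, ?_⟩
    apply Subtype.ext
    funext i
    change ((e (e.symm ⟨g, hg⟩)).1) (s₀ i) = s i
    rw [MulEquiv.apply_symm_apply]
    exact hgi i
  let S : Subgroup SpG := (stabG ff (Submodule.span F (Set.range s₀))).comap e.toMonoidHom
  have hS : ∀ g g', f g = f g' ↔ g⁻¹ * g' ∈ S := by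
    intro g g'
    constructor
    · intro hgg p hp
      have h1 : ∀ i, (e (g⁻¹ * g')).1 (s₀ i) = s₀ i := by
        intro i
        have h2 : (e g).1 (s₀ i) = (e g').1 (s₀ i) := congrFun (congrArg Subtype.val hgg) i
        rw [map_mul, map_inv]
        change ((e g).1)⁻¹ ((e g').1 (s₀ i)) = s₀ i
        rw [← h2]
        exact (e g).1.symm_apply_apply _
      induction hp using Submodule.span_induction with
      | mem x hx =>
        obtain ⟨i, rfl⟩ := hx
        exact h1 i
      | zero => exact map_zero _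
      | add x y _ _ hx hy =>
        change (e (g⁻¹ * g')).1 (x + y) = x + y
        rw [map_add]
        exact congrArg₂ _ hx hy
      | smul c x _ hx =>
        change (e (g⁻¹ * g')).1 (c • x) = c • x
        rw [map_smul]
        exact congrArg _ hx
    · intro hgg
      apply Subtype.ext
      funext i
      have h1 : (e (g⁻¹ * g')).1 (s₀ i) = s₀ i := hgg _ (Submodule.subset_span ⟨i, rfl⟩)
      rw [map_mul, map_inv] at h1
      change ((e g).1)⁻¹ ((e g').1 (s₀ i)) = s₀ i at h1
      change (e g).1 (s₀ i) = (e g').1 (s₀ i)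
      conv_lhs => rw [← h1]
      exact (e g).1.apply_symm_apply _
  have h1 := card_eq_mul_stab f hs S hS
  have h2 : Nat.card X = ∏ j ∈ Finset.range k, (Fintype.card F ^ (2 * m - j) - Fintype.card F ^ j) :=
    card_Fr (symp_RR m).symm _ k (fun j hj s => card_Ext_symp m s)
  rw [h1, h2]

/-- The order of the symplectic group. -/
lemma card_SpG {q : ℕ} (hq : Fintype.card F = q) : Nat.card SpG = PP q m := by
  have h1 : Nat.card SpG = Nat.card (isoG ff) := Nat.card_congr (spE m F).toEquiv
  rw [h1]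
  exact card_isoG_alt q hq m VV (sympBilin m F) sympBilin_nondegenerate sympBilin_isAlt (by simp [two_mul])

/-- The order of the pointwise stabiliser of a totally isotropic subspace. -/
theorem card_fix {q : ℕ} (hq : Fintype.card F = q) (W : Submodule F VV) (hW : ∀ x ∈ W, ∀ y ∈ W, ff x y = 0) {s r : ℕ} (hs : finrank F W = s) (hm : m = s + r) :
    Nat.card ((stabG ff W).comap (spE m F).toMonoidHom) = q ^ (s * (s + 1) / 2 + 2 * s * r) * PP q r := by
  classical
  have hq2 : 2 ≤ q := by
    rw [← hq]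
    exact Fintype.one_lt_card
  let b : Basis (Fin s) F W := Module.finBasisOfFinrankEq F W hs
  let s₀ : Fin s → VV := fun i => (b i : VV)
  have hs₀ : LinearIndependent F s₀ := b.linearIndependent.map' W.subtype (Submodule.ker_subtype W)
  have hsp : Submodule.span F (Set.range s₀) = W := by
    have h1 : s₀ = W.subtype ∘ b := rfl
    rw [h1, Set.range_comp, ← Submodule.map_span, b.span_eq, Submodule.map_top, Submodule.range_subtype]
  have h1 := fix_count s₀ hs₀ (fun a c => hW _ (b a).2 _ (b c).2)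
  rw [hsp, card_SpG hq, hq] at h1
  have h2 := arith q hq2 s r
  rw [← hm] at h2
  rw [← h2] at h1
  have hpos : 0 < ∏ j ∈ Finset.range s, (q ^ (2 * m - j) - q ^ j) := by
    apply Finset.prod_pos
    intro j hj
    have hj' : j < s := Finset.mem_range.1 hj
    have : q ^ j < q ^ (2 * m - j) := Nat.pow_lt_pow_right (by omega) (by omega)
    omega
  have h3 : q ^ (s * (s + 1) / 2 + 2 * s * r) * PP q r = Nat.card ((stabG ff W).comap (spE m F).toMonoidHom) :=
    Nat.eq_of_mul_eq_mul_left hpos (by rw [← mul_assoc]; exact h1)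
  exact h3.symm

section char2

variable [CharP F 2]

/-- `t - 1` as a linear map. -/
noncomputable def NN (t : SpG) : VV →ₗ[F] VV := ((t : MM) - 1).mulVecLin

lemma NN_apply (t : SpG) (v : VV) : NN t v = (t : MM) *ᵥ v - v := by
  simp [NN, Matrix.sub_mulVec]

lemma pres (t : SpG) (u v : VV) : ff ((t : MM) *ᵥ u) ((t : MM) *ᵥ v) = ff u v := by
  have h1 := (spE m F t).2 u v
  rw [spE_apply, spE_apply] at h1
  exact h1

lemma tt_apply {t : SpG} (ht : t ^ 2 = 1) (v : VV) : (t : MM) *ᵥ ((t : MM) *ᵥ v) = v := by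
  have h1 : (t : MM) * (t : MM) = 1 := by
    have := congrArg (fun x : SpG => (x : MM)) ht
    simpa [pow_two] using this
  rw [Matrix.mulVec_mulVec, h1, Matrix.one_mulVec]

lemma f_N {t : SpG} (ht : t ^ 2 = 1) (u v : VV) : ff u (NN t v) = ff (NN t u) v := by
  rw [NN_apply, NN_apply, sub_eq_add_neg, sympForm_add_right, sub_eq_add_neg, sympForm_add_left]
  congr 1
  · have h1 := pres t u ((t : MM) *ᵥ v)
    rw [tt_apply ht] at h1
    exact h1.symm
  · have : -v = (-1 : F) • v := by simp
    rw [this, sympForm_smul_right]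
    have : -u = (-1 : F) • u := by simp
    rw [this, sympForm_smul_left]

lemma N_N {t : SpG} (ht : t ^ 2 = 1) (v : VV) : NN t (NN t v) = 0 := by
  rw [NN_apply, NN_apply, Matrix.mulVec_sub, tt_apply ht]
  have h2 := two_eq' (F := F)
  funext i
  simp only [Pi.sub_apply, Pi.zero_apply]
  linear_combination (v i - ((t : MM) *ᵥ v) i) * h2

lemma W_ti {t : SpG} (ht : t ^ 2 = 1) : ∀ x ∈ LinearMap.range (NN t), ∀ y ∈ LinearMap.range (NN t), ff x y = 0 := by
  rintro _ ⟨a, rfl⟩ _ ⟨b, rfl⟩
  rw [← f_N ht, N_N ht]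
  simp [Cfsg.sympForm]

lemma exists_BB {t : SpG} (ht : t ^ 2 = 1) :
    ∃ B : LinearMap.BilinForm F (LinearMap.range (NN t)), ∀ (x : LinearMap.range (NN t)) (v : VV), B x ⟨NN t v, ⟨v, rfl⟩⟩ = ff x v := by
  obtain ⟨σ, hσ⟩ := LinearMap.exists_rightInverse_of_surjective (NN t).rangeRestrict (LinearMap.range_rangeRestrict (NN t))
  refine ⟨(sympBilin m F).compl₁₂ σ (LinearMap.range (NN t)).subtype, ?_⟩
  intro x v
  change ff (σ x) (NN t v) = _
  rw [f_N ht]
  have h1 : (NN t).rangeRestrict (σ x) = x := LinearMap.congr_fun hσ x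
  have h2 : NN t (σ x) = (x : VV) := congrArg Subtype.val h1
  rw [h2]

section form

variable {t : Matrix.symplecticGroup (Fin m) F} (ht : t ^ 2 = 1) {B : LinearMap.BilinForm F (LinearMap.range (NN t))}
  (hB : ∀ (x : LinearMap.range (NN t)) (v : Fin m ⊕ Fin m → F), B x ⟨NN t v, ⟨v, rfl⟩⟩ = Cfsg.sympForm m F x v)

include ht hB

lemma BB_mk (x y : LinearMap.range (NN t)) (u v : VV) (hx : (x : VV) = NN t u) (hy : (y : VV) = NN t v) : B x y = ff (NN t u) v := by
  have : y = ⟨NN t v, ⟨v, rfl⟩⟩ := Subtype.ext hy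
  rw [this, hB, hx]

lemma BB_symm (x y : LinearMap.range (NN t)) : B x y = B y x := by
  obtain ⟨u, hu⟩ := x.2
  obtain ⟨v, hv⟩ := y.2
  rw [BB_mk ht hB x y u v hu.symm hv.symm, BB_mk ht hB y x v u hv.symm hu.symm, ← f_N ht u v, sympForm_flip (NN t v) u]
  have h2 := two_eq' (F := F)
  linear_combination (-ff (NN t v) u) * h2

lemma BB_nondeg : B.Nondegenerate := by
  have hL : B.SeparatingLeft := by
    intro x hx
    apply Subtype.ext
    apply sympForm_eq_zero_iff
    intro u
    rw [sympForm_flip]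
    have h1 := hx ⟨NN t u, ⟨u, rfl⟩⟩
    rw [hB] at h1
    rw [h1]
    simp
  refine ⟨hL, ?_⟩
  intro x hx
  apply hL
  intro y
  rw [BB_symm ht hB]
  exact hx y

lemma BB_diag (v : VV) : B ⟨NN t v, ⟨v, rfl⟩⟩ ⟨NN t v, ⟨v, rfl⟩⟩ = ff v ((t : MM) *ᵥ v) := by
  rw [hB]
  change ff (NN t v) v = _
  rw [NN_apply, sub_eq_add_neg, sympForm_add_left, sympForm_flip]
  have : -v = (-1 : F) • v := by simp
  rw [this, sympForm_smul_left, sympForm_self]
  have h2 := two_eq' (F := F)
  linear_combination (- ff v ((t : MM) *ᵥ v)) * h2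

/-- Elements of the centraliser act on the range of `t - 1`. -/
lemma comm_N {g : SpG} (hg : g ∈ Subgroup.centralizer ({t} : Set SpG)) (v : VV) : (g : MM) *ᵥ (NN t v) = NN t ((g : MM) *ᵥ v) := by
  have h1 : g * t = t * g := (Subgroup.mem_centralizer_singleton_iff.1 hg)
  have h2 : (g : MM) * (t : MM) = (t : MM) * (g : MM) := congrArg (fun x : SpG => (x : MM)) h1
  rw [NN_apply, NN_apply, Matrix.mulVec_sub, Matrix.mulVec_mulVec, Matrix.mulVec_mulVec, h2]

end form

end char2

end Cfsg.Agent.Lib.Known3.InvC
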