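import Mathlib
import Cfsg.Agent.Lib.Known3.InvCent

/-! Centralisers of involutions of `Sp_{2m}(q)`, `q` even: the reduction to the form on the image. -/

set_option autoImplicit false
set_option linter.unusedVariables false
set_option linter.unusedSectionVars false

namespace Cfsg.Agent.Lib.Known3.InvC

open Module Matrix Cfsg.Agent.Lib.Classical Cfsg.Agent.Lib.Classical.Abs Cfsg.Agent.Lib.Classical.Witt Cfsg.Agent.Lib.Classical.Frames Cfsg.Agent.Lib.Classical.TI
open Cfsg.Agent.Lib.Known3.Graph (two_eq')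

variable {F : Type*} [Field F] [Fintype F] {m : ℕ}

local notation "VV" => (Fin m ⊕ Fin m → F)
local notation "ff" => Cfsg.sympForm m F
local notation "SpG" => Matrix.symplecticGroup (Fin m) F
local notation "MM" => Matrix (Fin m ⊕ Fin m) (Fin m ⊕ Fin m) F

variable [CharP F 2]

lemma mv_inj (g : Matrix.symplecticGroup (Fin m) F) : Function.Injective (fun v : Fin m ⊕ Fin m → F => (g : Matrix (Fin m ⊕ Fin m) (Fin m ⊕ Fin m) F) *ᵥ v) := by
  intro a b hab
  apply (spE m F g).1.injective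
  rw [spE_apply, spE_apply]
  exact hab

lemma comm_of_apply {g t : Matrix.symplecticGroup (Fin m) F} (h : ∀ v : Fin m ⊕ Fin m → F, (g : Matrix (Fin m ⊕ Fin m) (Fin m ⊕ Fin m) F) *ᵥ ((t : Matrix (Fin m ⊕ Fin m) (Fin m ⊕ Fin m) F) *ᵥ v) = (t : Matrix (Fin m ⊕ Fin m) (Fin m ⊕ Fin m) F) *ᵥ ((g : Matrix (Fin m ⊕ Fin m) (Fin m ⊕ Fin m) F) *ᵥ v)) :
    g ∈ Subgroup.centralizer ({t} : Set (Matrix.symplecticGroup (Fin m) F)) := by
  rw [Subgroup.mem_centralizer_singleton_iff]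
  apply Subtype.ext
  apply Matrix.mulVec_injective
  funext v
  change ((g : Matrix (Fin m ⊕ Fin m) (Fin m ⊕ Fin m) F) * (t : Matrix (Fin m ⊕ Fin m) (Fin m ⊕ Fin m) F)) *ᵥ v = ((t : Matrix (Fin m ⊕ Fin m) (Fin m ⊕ Fin m) F) * (g : Matrix (Fin m ⊕ Fin m) (Fin m ⊕ Fin m) F)) *ᵥ v
  rw [← Matrix.mulVec_mulVec, ← Matrix.mulVec_mulVec, h]

lemma t_apply (t : Matrix.symplecticGroup (Fin m) F) (v : Fin m ⊕ Fin m → F) : (t : Matrix (Fin m ⊕ Fin m) (Fin m ⊕ Fin m) F) *ᵥ v = v + NN t v := by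
  rw [NN_apply]
  simp

section form

variable {t : Matrix.symplecticGroup (Fin m) F} (ht : t ^ 2 = 1) {B : LinearMap.BilinForm F (LinearMap.range (NN t))}
  (hB : ∀ (x : LinearMap.range (NN t)) (v : Fin m ⊕ Fin m → F), B x ⟨NN t v, ⟨v, rfl⟩⟩ = Cfsg.sympForm m F x v)

include ht hB

/-- The pointwise stabiliser of the image lies in the centraliser. -/
lemma fix_comm {g : Matrix.symplecticGroup (Fin m) F} (hg : ∀ p ∈ LinearMap.range (NN t), (g : Matrix (Fin m ⊕ Fin m) (Fin m ⊕ Fin m) F) *ᵥ p = p) :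
    g ∈ Subgroup.centralizer ({t} : Set (Matrix.symplecticGroup (Fin m) F)) := by
  apply comm_of_apply
  intro v
  have h1 : NN t ((g : Matrix (Fin m ⊕ Fin m) (Fin m ⊕ Fin m) F) *ᵥ v) = NN t v := by
    apply sub_eq_zero.1
    apply sympForm_eq_zero_iff
    intro u
    rw [sub_eq_add_neg, sympForm_add_right]
    have : -(NN t v) = (-1 : F) • NN t v := by simp
    rw [this, sympForm_smul_right, f_N ht, f_N ht]
    have h2 := pres g (NN t u) v
    rw [hg _ ⟨u, rfl⟩] at h2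
    rw [h2]
    ring
  rw [t_apply t v, t_apply t ((g : Matrix (Fin m ⊕ Fin m) (Fin m ⊕ Fin m) F) *ᵥ v), Matrix.mulVec_add, hg _ ⟨v, rfl⟩, h1]

lemma act_mem {g : Matrix.symplecticGroup (Fin m) F} (hg : g ∈ Subgroup.centralizer ({t} : Set (Matrix.symplecticGroup (Fin m) F))) (x : Fin m ⊕ Fin m → F) (hx : x ∈ LinearMap.range (NN t)) :
    (g : Matrix (Fin m ⊕ Fin m) (Fin m ⊕ Fin m) F) *ᵥ x ∈ LinearMap.range (NN t) := by
  obtain ⟨v, rfl⟩ := hx
  exact ⟨_, (comm_N ht hB hg v).symm⟩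

/-- The action of the centraliser on the image. -/
noncomputable def phiL (g : Subgroup.centralizer ({t} : Set (Matrix.symplecticGroup (Fin m) F))) :
    LinearMap.range (NN t) ≃ₗ[F] LinearMap.range (NN t) :=
  LinearEquiv.ofInjectiveEndo (((g.1 : Matrix (Fin m ⊕ Fin m) (Fin m ⊕ Fin m) F).mulVecLin).restrict (act_mem ht hB g.2)) (by
    intro a b hab
    apply Subtype.ext
    apply mv_inj g.1
    exact congrArg Subtype.val hab)

lemma phiL_coe (g : Subgroup.centralizer ({t} : Set (Matrix.symplecticGroup (Fin m) F))) (x : LinearMap.range (NN t)) :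
    ((phiL ht hB g x : LinearMap.range (NN t)) : Fin m ⊕ Fin m → F) = (g.1 : Matrix (Fin m ⊕ Fin m) (Fin m ⊕ Fin m) F) *ᵥ (x : Fin m ⊕ Fin m → F) := rfl

lemma phiL_iso (g : Subgroup.centralizer ({t} : Set (Matrix.symplecticGroup (Fin m) F))) (x y : LinearMap.range (NN t)) :
    B (phiL ht hB g x) (phiL ht hB g y) = B x y := by
  obtain ⟨v, hv⟩ := y.2
  have h1 : y = ⟨NN t v, ⟨v, rfl⟩⟩ := Subtype.ext hv.symm
  have h2 : phiL ht hB g y = ⟨NN t ((g.1 : Matrix (Fin m ⊕ Fin m) (Fin m ⊕ Fin m) F) *ᵥ v), ⟨_, rfl⟩⟩ := by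
    apply Subtype.ext
    rw [phiL_coe, h1]
    exact comm_N ht hB g.2 v
  rw [h2, hB, h1, hB, phiL_coe, pres]

/-- The homomorphism to the isometry group of the form on the image. -/
noncomputable def phi : Subgroup.centralizer ({t} : Set (Matrix.symplecticGroup (Fin m) F)) →* isoG (fun u v : LinearMap.range (NN t) => B u v) :=
  MonoidHom.mk' (fun g => ⟨phiL ht hB g, phiL_iso ht hB g⟩) (by
    intro a b
    apply Subtype.ext
    apply LinearEquiv.ext
    intro x
    apply Subtype.ext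
    change (((a * b : Subgroup.centralizer ({t} : Set (Matrix.symplecticGroup (Fin m) F))) : Matrix.symplecticGroup (Fin m) F) : Matrix (Fin m ⊕ Fin m) (Fin m ⊕ Fin m) F) *ᵥ (x : Fin m ⊕ Fin m → F) = (a.1 : Matrix (Fin m ⊕ Fin m) (Fin m ⊕ Fin m) F) *ᵥ ((b.1 : Matrix (Fin m ⊕ Fin m) (Fin m ⊕ Fin m) F) *ᵥ (x : Fin m ⊕ Fin m → F))
    rw [Matrix.mulVec_mulVec]
    rfl)

lemma phi_coe (g : Subgroup.centralizer ({t} : Set (Matrix.symplecticGroup (Fin m) F))) (x : LinearMap.range (NN t)) :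
    (((phi ht hB g).1 x : LinearMap.range (NN t)) : Fin m ⊕ Fin m → F) = (g.1 : Matrix (Fin m ⊕ Fin m) (Fin m ⊕ Fin m) F) *ᵥ (x : Fin m ⊕ Fin m → F) := rfl

lemma phi_surj : Function.Surjective (phi ht hB) := by
  intro ψ
  have hnd := BB_nondeg ht hB
  obtain ⟨g, hg, hgx⟩ := extend_of_core (Cfsg.sympForm m F) (symp_core m) (LinearMap.range (NN t)) (LinearMap.range (NN t)) ψ.1 (fun a b => by
    rw [W_ti ht _ (ψ.1 a).2 _ (ψ.1 b).2, W_ti ht _ a.2 _ b.2])
  let g' : Matrix.symplecticGroup (Fin m) F := (spE m F).symm ⟨g, hg⟩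
  have hg' : ∀ v, (g' : Matrix (Fin m ⊕ Fin m) (Fin m ⊕ Fin m) F) *ᵥ v = g v := by
    intro v
    rw [← spE_apply, MulEquiv.apply_symm_apply]
  have hN : ∀ v, g (NN t v) = NN t (g v) := by
    intro v
    have h1 : g (NN t v) = ((ψ.1 ⟨NN t v, ⟨v, rfl⟩⟩ : LinearMap.range (NN t)) : Fin m ⊕ Fin m → F) := hgx ⟨NN t v, ⟨v, rfl⟩⟩
    rw [h1]
    have h2 : ψ.1 ⟨NN t v, ⟨v, rfl⟩⟩ = ⟨NN t (g v), ⟨_, rfl⟩⟩ := by
      apply sub_eq_zero.1
      apply hnd.2
      intro z
      obtain ⟨z', rfl⟩ := ψ.1.surjective z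
      have h9 : B (ψ.1 z') (ψ.1 ⟨NN t v, ⟨v, rfl⟩⟩) = B z' ⟨NN t v, ⟨v, rfl⟩⟩ := ψ.2 z' _
      rw [map_sub, h9, hB, hB]
      have h3 : ((ψ.1 z' : LinearMap.range (NN t)) : Fin m ⊕ Fin m → F) = g z' := (hgx z').symm
      rw [h3, hg, sub_self]
    rw [h2]
  refine ⟨⟨g', ?_⟩, ?_⟩
  · apply comm_of_apply
    intro v
    rw [hg', hg', t_apply t v, t_apply t (g v), map_add, hN]
  · apply Subtype.ext
    apply LinearEquiv.ext
    intro x
    apply Subtype.ext
    rw [phi_coe]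
    change (g' : Matrix (Fin m ⊕ Fin m) (Fin m ⊕ Fin m) F) *ᵥ (x : Fin m ⊕ Fin m → F) = _
    rw [hg']
    exact hgx x

/-- The order of the centraliser. -/
theorem card_cent : Nat.card (Subgroup.centralizer ({t} : Set (Matrix.symplecticGroup (Fin m) F))) =
    Nat.card ((stabG (Cfsg.sympForm m F) (LinearMap.range (NN t))).comap (spE m F).toMonoidHom) * Nat.card (isoG (fun u v : LinearMap.range (NN t) => B u v)) := by
  classical
  rw [Subgroup.card_eq_card_quotient_mul_card_subgroup (phi ht hB).ker,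
    Nat.card_congr (QuotientGroup.quotientKerEquivOfSurjective (phi ht hB) (phi_surj ht hB)).toEquiv, mul_comm]
  congr 1
  apply Nat.card_congr
  have hker : ∀ g : Subgroup.centralizer ({t} : Set (Matrix.symplecticGroup (Fin m) F)), g ∈ (phi ht hB).ker ↔ ∀ p ∈ LinearMap.range (NN t), (g.1 : Matrix (Fin m ⊕ Fin m) (Fin m ⊕ Fin m) F) *ᵥ p = p := by
    intro g
    rw [MonoidHom.mem_ker]
    constructor
    · intro h p hp
      have h1 := congrArg (fun X : isoG (fun u v : LinearMap.range (NN t) => B u v) => ((X.1 ⟨p, hp⟩ : LinearMap.range (NN t)) : Fin m ⊕ Fin m → F)) h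
      exact h1
    · intro h
      apply Subtype.ext
      apply LinearEquiv.ext
      intro x
      apply Subtype.ext
      rw [phi_coe]
      exact h _ x.2
  have hK : ∀ g : Matrix.symplecticGroup (Fin m) F, g ∈ (stabG (Cfsg.sympForm m F) (LinearMap.range (NN t))).comap (spE m F).toMonoidHom ↔ ∀ p ∈ LinearMap.range (NN t), (g : Matrix (Fin m ⊕ Fin m) (Fin m ⊕ Fin m) F) *ᵥ p = p := by
    intro g
    change (∀ p ∈ LinearMap.range (NN t), (spE m F g).1 p = p) ↔ _
    simp only [spE_apply]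
  exact
    { toFun := fun g => ⟨g.1.1, (hK _).2 ((hker _).1 g.2)⟩
      invFun := fun k => ⟨⟨k.1, fix_comm ht hB ((hK _).1 k.2)⟩, (hker _).2 ((hK _).1 k.2)⟩
      left_inv := fun g => rfl
      right_inv := fun g => rfl }

end form

/-- The final form. -/
theorem card_main {q : ℕ} (hq : Fintype.card F = q) {t : Matrix.symplecticGroup (Fin m) F} (ht : t ^ 2 = 1) :
    ∃ B : LinearMap.BilinForm F (LinearMap.range (NN t)), ∃ hs : (∀ x y, B x y = B y x), B.Nondegenerate ∧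
      ((∀ x, B x x = 0) ↔ ∀ v : Fin m ⊕ Fin m → F, Cfsg.sympForm m F v ((t : Matrix (Fin m ⊕ Fin m) (Fin m ⊕ Fin m) F) *ᵥ v) = 0) ∧
      finrank F (LinearMap.range (NN t)) ≤ m ∧
      Nat.card (Subgroup.centralizer ({t} : Set (Matrix.symplecticGroup (Fin m) F))) =
        (q ^ (finrank F (LinearMap.range (NN t)) * (finrank F (LinearMap.range (NN t)) + 1) / 2 + 2 * finrank F (LinearMap.range (NN t)) * (m - finrank F (LinearMap.range (NN t)))) * PP q (m - finrank F (LinearMap.range (NN t)))) * Nat.card (isoG (fun u v : LinearMap.range (NN t) => B u v)) := by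
  classical
  obtain ⟨B, hB⟩ := exists_BB ht
  have hle : finrank F (LinearMap.range (NN t)) ≤ m := by
    have h1 : (sympBilin m F).orthogonal (LinearMap.range (NN t)) ≥ LinearMap.range (NN t) := by
      intro y hy
      rw [LinearMap.BilinForm.mem_orthogonal_iff]
      intro x hx
      exact W_ti ht x hx y hy
    have h2 := Submodule.finrank_mono h1
    rw [LinearMap.BilinForm.finrank_orthogonal sympBilin_nondegenerate] at h2
    simp at h2
    omega
  refine ⟨B, BB_symm ht hB, BB_nondeg ht hB, ?_, hle, ?_⟩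
  · constructor
    · intro h v
      rw [← BB_diag ht hB]
      exact h _
    · intro h x
      obtain ⟨v, hv⟩ := x.2
      have h1 : x = ⟨NN t v, ⟨v, rfl⟩⟩ := Subtype.ext hv.symm
      rw [h1, BB_diag ht hB]
      exact h v
  · rw [card_cent ht hB, card_fix hq _ (W_ti ht) (r := m - finrank F (LinearMap.range (NN t))) rfl (by omega)]

end Cfsg.Agent.Lib.Known3.InvC

namespace Cfsg.Agent.Lib.Known3.InvC

lemma exp_eq (s m : ℕ) (h : s ≤ m) : 2 * m * s - (3 * s ^ 2 - s) / 2 = s * (s + 1) / 2 + 2 * s * (m - s) := by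
  obtain ⟨r, rfl⟩ := Nat.exists_eq_add_of_le h
  have h1 : s + r - s = r := by omega
  rw [h1]
  obtain ⟨T, hT⟩ : ∃ T, s * (s + 1) = 2 * T := by
    obtain ⟨T, hT⟩ := Nat.even_mul_succ_self s
    exact ⟨T, by omega⟩
  have h2 : s * (s + 1) / 2 = T := by omega
  rw [h2]
  have h3 : s ≤ s * s := Nat.le_mul_self s
  have h4 : s * s + s = 2 * T := by rw [← hT]; ring
  have h5 : 2 * (s + r) * s = 2 * (s * s) + 2 * (s * r) := by ring
  have h6 : s ^ 2 = s * s := by ring
  have h7 : 2 * s * r = 2 * (s * r) := by ring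
  rw [h5, h6, h7]
  generalize s * s = a at *
  generalize s * r = c at *
  omega

lemma exp_eq2 (s m : ℕ) (h : s ≤ m) (hs : 2 ≤ s) : 2 * m * s - (3 * s ^ 2 - 3 * s) / 2 - 1 = s * (s + 1) / 2 + 2 * s * (m - s) + (s - 1) := by
  obtain ⟨r, rfl⟩ := Nat.exists_eq_add_of_le h
  have h1 : s + r - s = r := by omega
  rw [h1]
  obtain ⟨T, hT⟩ : ∃ T, s * (s + 1) = 2 * T := by
    obtain ⟨T, hT⟩ := Nat.even_mul_succ_self s
    exact ⟨T, by omega⟩
  have h2 : s * (s + 1) / 2 = T := by omega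
  rw [h2]
  have h3 : 2 * s ≤ s * s := Nat.mul_le_mul_right s hs
  have h4 : s * s + s = 2 * T := by rw [← hT]; ring
  have h5 : 2 * (s + r) * s = 2 * (s * s) + 2 * (s * r) := by ring
  have h6 : s ^ 2 = s * s := by ring
  have h7 : 2 * s * r = 2 * (s * r) := by ring
  rw [h5, h6, h7]
  generalize s * s = a at *
  generalize s * r = c at *
  omega

end Cfsg.Agent.Lib.Known3.InvC
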