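import Mathlib
import Cfsg.Agent.Lib.Known3.InvForm
import Cfsg.Agent.Lib.Classical.OrthDickson
import Cfsg.Agent.Lib.Classical.FramesSp

/-! Centralisers of involutions of orthogonal groups in characteristic two: reduction to the form on the image. -/

set_option autoImplicit false
set_option linter.unusedVariables false
set_option linter.unusedSectionVars false

namespace Cfsg.Agent.Lib.Known3.InvC

open Module Cfsg.Agent.Lib.Classical Cfsg.Agent.Lib.Classical.Abs Cfsg.Agent.Lib.Classical.Witt Cfsg.Agent.Lib.Classical.Orth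
open Cfsg.Agent.Lib.Known3.Graph (two_eq')

local notation "P" => QuadraticMap.polarBilin

variable {F V : Type*} [Field F] [Fintype F] [CharP F 2] [AddCommGroup V] [Module F V] [FiniteDimensional F V] {Q : QuadraticForm F V}

/-- `x - 1` as a linear map. -/
noncomputable def NQ (x : OG Q) : V →ₗ[F] V := (x.1 : V →ₗ[F] V) - LinearMap.id

lemma NQ_apply (x : OG Q) (v : V) : NQ x v = x.1 v - v := rfl

lemma xx_apply {x : OG Q} (hx : x ^ 2 = 1) (v : V) : x.1 (x.1 v) = v := by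
  have h := congrArg (fun g : OG Q => g.1 v) hx
  simpa [pow_two, mul_apply', one_apply'] using h

lemma fN {x : OG Q} (hx : x ^ 2 = 1) (u v : V) : P Q u (NQ x v) = P Q (NQ x u) v := by
  have h1 := OG_polar x u (x.1 v)
  rw [xx_apply hx] at h1
  rw [NQ_apply, NQ_apply, map_sub, map_sub, LinearMap.sub_apply, h1]

lemma NQ_NQ {x : OG Q} (hx : x ^ 2 = 1) (v : V) : NQ x (NQ x v) = 0 := by
  rw [NQ_apply, NQ_apply, map_sub, xx_apply hx]
  have h2 := two_eq' (F := F)
  have h3 : v - x.1 v - (x.1 v - v) = (2 : F) • (v - x.1 v) := by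
    rw [two_smul]
    abel
  rw [h3, h2, zero_smul]

lemma WQ_ti {x : OG Q} (hx : x ^ 2 = 1) : ∀ y ∈ LinearMap.range (NQ x), ∀ z ∈ LinearMap.range (NQ x), P Q y z = 0 := by
  rintro _ ⟨a, rfl⟩ _ ⟨b, rfl⟩
  rw [← fN hx, NQ_NQ hx]
  simp

lemma Q_N (x : OG Q) (v : V) : Q (NQ x v) = P Q (NQ x v) v := by
  rw [NQ_apply, Q_sub, OG_pres, map_sub, LinearMap.sub_apply, pol_self]
  have h2 := two_eq' (F := F)
  linear_combination (2 * Q v - P Q (x.1 v) v) * h2

lemma exists_BQ {x : OG Q} (hx : x ^ 2 = 1) :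
    ∃ B : LinearMap.BilinForm F (LinearMap.range (NQ x)), ∀ (y : LinearMap.range (NQ x)) (v : V), B y ⟨NQ x v, ⟨v, rfl⟩⟩ = P Q y v := by
  obtain ⟨σ, hσ⟩ := LinearMap.exists_rightInverse_of_surjective (NQ x).rangeRestrict (LinearMap.range_rangeRestrict (NQ x))
  refine ⟨(P Q).compl₁₂ σ (LinearMap.range (NQ x)).subtype, ?_⟩
  intro y v
  change P Q (σ y) (NQ x v) = _
  rw [fN hx]
  have h1 : (NQ x).rangeRestrict (σ y) = y := LinearMap.congr_fun hσ y
  have h2 : NQ x (σ y) = (y : V) := congrArg Subtype.val h1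
  rw [h2]

section form

variable {x : OG Q} (hx : x ^ 2 = 1) (hQ : (P Q).Nondegenerate) {B : LinearMap.BilinForm F (LinearMap.range (NQ x))}
  (hB : ∀ (y : LinearMap.range (NQ x)) (v : V), B y ⟨NQ x v, ⟨v, rfl⟩⟩ = P Q y v)

include hx hB

lemma BQ_mk (y z : LinearMap.range (NQ x)) (u v : V) (hy : (y : V) = NQ x u) (hz : (z : V) = NQ x v) : B y z = P Q (NQ x u) v := by
  have : z = ⟨NQ x v, ⟨v, rfl⟩⟩ := Subtype.ext hz
  rw [this, hB, hy]

lemma BQ_symm (y z : LinearMap.range (NQ x)) : B y z = B z y := by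
  obtain ⟨u, hu⟩ := y.2
  obtain ⟨v, hv⟩ := z.2
  rw [BQ_mk hx hB y z u v hu.symm hv.symm, BQ_mk hx hB z y v u hv.symm hu.symm, ← fN hx u v, pol_comm]

lemma BQ_diag (y : LinearMap.range (NQ x)) : B y y = Q y := by
  obtain ⟨u, hu⟩ := y.2
  rw [BQ_mk hx hB y y u u hu.symm hu.symm, ← hu, ← Q_N]

include hQ

lemma BQ_nondeg : B.Nondegenerate := by
  have hL : B.SeparatingLeft := by
    intro y hy
    apply Subtype.ext
    apply hQ.1
    intro u
    have h1 := hy ⟨NQ x u, ⟨u, rfl⟩⟩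
    rw [hB] at h1
    exact h1
  refine ⟨hL, ?_⟩
  intro y hy
  apply hL
  intro z
  rw [BQ_symm hx hB]
  exact hy z

omit hQ in
lemma comm_NQ {g : OG Q} (hg : g ∈ Subgroup.centralizer ({x} : Set (OG Q))) (v : V) : g.1 (NQ x v) = NQ x (g.1 v) := by
  have h1 : g * x = x * g := Subgroup.mem_centralizer_singleton_iff.1 hg
  have h2 : g.1 (x.1 v) = x.1 (g.1 v) := congrArg (fun a : OG Q => a.1 v) h1
  rw [NQ_apply, NQ_apply, map_sub, h2]

lemma fixQ_comm {g : OG Q} (hg : ∀ p ∈ LinearMap.range (NQ x), g.1 p = p) : g ∈ Subgroup.centralizer ({x} : Set (OG Q)) := by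
  rw [Subgroup.mem_centralizer_singleton_iff]
  apply OG_ext
  intro v
  change g.1 (x.1 v) = x.1 (g.1 v)
  have h1 : NQ x (g.1 v) = NQ x v := by
    apply sub_eq_zero.1
    apply hQ.2
    intro u
    rw [map_sub, fN hx, fN hx]
    have h2 := OG_polar g (NQ x u) v
    rw [hg _ ⟨u, rfl⟩] at h2
    rw [h2, sub_self]
  have h3 : ∀ w, x.1 w = w + NQ x w := fun w => by simp [NQ_apply]
  rw [h3 v, h3 (g.1 v), map_add, hg _ ⟨v, rfl⟩, h1]

omit hQ in
lemma actQ_mem {g : OG Q} (hg : g ∈ Subgroup.centralizer ({x} : Set (OG Q))) (y : V) (hy : y ∈ LinearMap.range (NQ x)) :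
    g.1 y ∈ LinearMap.range (NQ x) := by
  obtain ⟨v, rfl⟩ := hy
  exact ⟨_, (comm_NQ hx hB hg v).symm⟩

omit hQ in
/-- The action of the centraliser on the image. -/
noncomputable def phiQL (g : Subgroup.centralizer ({x} : Set (OG Q))) :
    LinearMap.range (NQ x) ≃ₗ[F] LinearMap.range (NQ x) :=
  LinearEquiv.ofInjectiveEndo (((g.1.1 : V →ₗ[F] V)).restrict (actQ_mem hx hB g.2)) (by
    intro a b hab
    apply Subtype.ext
    apply g.1.1.injective
    exact congrArg Subtype.val hab)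

omit hQ in
lemma phiQL_coe (g : Subgroup.centralizer ({x} : Set (OG Q))) (y : LinearMap.range (NQ x)) :
    ((phiQL hx hB g y : LinearMap.range (NQ x)) : V) = g.1.1 (y : V) := rfl

omit hQ in
lemma phiQL_iso (g : Subgroup.centralizer ({x} : Set (OG Q))) (y z : LinearMap.range (NQ x)) :
    B (phiQL hx hB g y) (phiQL hx hB g z) = B y z := by
  obtain ⟨v, hv⟩ := z.2
  have h1 : z = ⟨NQ x v, ⟨v, rfl⟩⟩ := Subtype.ext hv.symm
  have h2 : phiQL hx hB g z = ⟨NQ x (g.1.1 v), ⟨_, rfl⟩⟩ := by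
    apply Subtype.ext
    rw [phiQL_coe, h1]
    exact comm_NQ hx hB g.2 v
  rw [h2, hB, h1, hB, phiQL_coe, OG_polar]

omit hQ in
/-- The homomorphism to the isometry group of the form on the image. -/
noncomputable def phiQ : Subgroup.centralizer ({x} : Set (OG Q)) →* isoG (fun u v : LinearMap.range (NQ x) => B u v) :=
  MonoidHom.mk' (fun g => ⟨phiQL hx hB g, phiQL_iso hx hB g⟩) (by
    intro a b
    apply Subtype.ext
    apply LinearEquiv.ext
    intro y
    apply Subtype.ext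
    rfl)

omit hQ in
lemma phiQ_coe (g : Subgroup.centralizer ({x} : Set (OG Q))) (y : LinearMap.range (NQ x)) :
    (((phiQ hx hB g).1 y : LinearMap.range (NQ x)) : V) = g.1.1 (y : V) := rfl

lemma phiQ_surj : Function.Surjective (phiQ hx hB) := by
  intro ψ
  have hnd := BQ_nondeg hx hQ hB
  obtain ⟨g, hg, hgx⟩ := extend_of_core (fun u (_ : V) => Q u) (fun X₀ a b ha hb hyp => by
      obtain ⟨g, h1, h2, h3⟩ := core_quad Q hQ X₀ a b ha hb (fun c hc s => hyp c 0 hc X₀.zero_mem s 0)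
      exact ⟨g, fun u _ => h1 u, h2, h3⟩) (LinearMap.range (NQ x)) (LinearMap.range (NQ x)) ψ.1 (fun a b => by
    change Q ((ψ.1 a : LinearMap.range (NQ x)) : V) = Q (a : V)
    rw [← BQ_diag hx hB, ← BQ_diag hx hB]
    exact ψ.2 a a)
  let g' : OG Q := ⟨g, hg⟩
  have hN : ∀ v, g (NQ x v) = NQ x (g v) := by
    intro v
    have h1 : g (NQ x v) = ((ψ.1 ⟨NQ x v, ⟨v, rfl⟩⟩ : LinearMap.range (NQ x)) : V) := hgx ⟨NQ x v, ⟨v, rfl⟩⟩
    rw [h1]
    have h2 : ψ.1 ⟨NQ x v, ⟨v, rfl⟩⟩ = ⟨NQ x (g v), ⟨_, rfl⟩⟩ := by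
      apply sub_eq_zero.1
      apply hnd.2
      intro z
      obtain ⟨z', rfl⟩ := ψ.1.surjective z
      have h9 : B (ψ.1 z') (ψ.1 ⟨NQ x v, ⟨v, rfl⟩⟩) = B z' ⟨NQ x v, ⟨v, rfl⟩⟩ := ψ.2 z' _
      rw [map_sub, h9, hB, hB]
      have h3 : ((ψ.1 z' : LinearMap.range (NQ x)) : V) = g z' := (hgx z').symm
      rw [h3]
      have h4 := OG_polar g' (z' : V) v
      change P Q (g z') (g v) = _ at h4
      rw [h4, sub_self]
    rw [h2]
  refine ⟨⟨g', ?_⟩, ?_⟩
  · rw [Subgroup.mem_centralizer_singleton_iff]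
    apply OG_ext
    intro v
    change g (x.1 v) = x.1 (g v)
    have h3 : ∀ w, x.1 w = w + NQ x w := fun w => by simp [NQ_apply]
    rw [h3 v, h3 (g v), map_add, hN]
  · apply Subtype.ext
    apply LinearEquiv.ext
    intro y
    apply Subtype.ext
    rw [phiQ_coe]
    exact hgx y

/-- The order of the centraliser in the orthogonal group. -/
theorem card_centO : Nat.card (Subgroup.centralizer ({x} : Set (OG Q))) =
    Nat.card (stabG (fun u (_ : V) => Q u) (LinearMap.range (NQ x))) * Nat.card (isoG (fun u v : LinearMap.range (NQ x) => B u v)) := by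
  classical
  rw [Subgroup.card_eq_card_quotient_mul_card_subgroup (phiQ hx hB).ker,
    Nat.card_congr (QuotientGroup.quotientKerEquivOfSurjective (phiQ hx hB) (phiQ_surj hx hQ hB)).toEquiv, mul_comm]
  congr 1
  apply Nat.card_congr
  have hker : ∀ g : Subgroup.centralizer ({x} : Set (OG Q)), g ∈ (phiQ hx hB).ker ↔ ∀ p ∈ LinearMap.range (NQ x), g.1.1 p = p := by
    intro g
    rw [MonoidHom.mem_ker]
    constructor
    · intro h p hp
      have h1 := congrArg (fun X : isoG (fun u v : LinearMap.range (NQ x) => B u v) => ((X.1 ⟨p, hp⟩ : LinearMap.range (NQ x)) : V)) h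
      exact h1
    · intro h
      apply Subtype.ext
      apply LinearEquiv.ext
      intro y
      apply Subtype.ext
      rw [phiQ_coe]
      exact h _ y.2
  exact
    { toFun := fun g => ⟨g.1.1, (hker _).1 g.2⟩
      invFun := fun k => ⟨⟨k.1, fixQ_comm hx hQ hB k.2⟩, (hker _).2 k.2⟩
      left_inv := fun g => rfl
      right_inv := fun g => rfl }

end form

end Cfsg.Agent.Lib.Known3.InvC
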