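import Mathlib
import Cfsg.Agent.Lib.Known3.InvO1
import Cfsg.Agent.Lib.Classical.OrderForms

/-! Frames of orthogonal spaces in characteristic two and their stabilisers. -/

set_option autoImplicit false
set_option linter.unusedVariables false
set_option linter.unusedSectionVars false

namespace Cfsg.Agent.Lib.Known3.InvC

open Module Cfsg.Agent.Lib.Classical Cfsg.Agent.Lib.Classical.Abs Cfsg.Agent.Lib.Classical.Witt Cfsg.Agent.Lib.Classical.Orth Cfsg.Agent.Lib.Classical.Frames
open Cfsg.Agent.Lib.Known3.Graph (two_eq')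

local notation "P" => QuadraticMap.polarBilin

section gen

variable {F V : Type*} [Field F] [AddCommGroup V] [Module F V] [FiniteDimensional F V] {Q : QuadraticForm F V}

/-- The orthogonality relation. -/
def RQ (Q : QuadraticForm F V) : V → V → Prop := fun u v => P Q u v = 0

/-- Prescribed values. -/
def DQ (Q : QuadraticForm F V) (c : ℕ → F) : ℕ → Set V := fun i => {v | Q v = c i}

lemma RQ_symm (x y : V) (h : RQ Q x y) : RQ Q y x := by
  change P Q y x = 0
  rw [pol_comm]
  exact h

omit [FiniteDimensional F V] in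
lemma Q_sum_orth {ι : Type*} (t : Finset ι) (r : ι → F) (y : ι → V) (hy : ∀ i j, P Q (y i) (y j) = 0) :
    Q (∑ i ∈ t, r i • y i) = ∑ i ∈ t, r i * r i * Q (y i) := by
  classical
  induction t using Finset.induction_on with
  | empty => simp
  | insert a t ha ih =>
    rw [Finset.sum_insert ha, Finset.sum_insert ha, Q_add, Q_smul, ih]
    have h1 : P Q (r a • y a) (∑ i ∈ t, r i • y i) = 0 := by
      simp [map_sum, hy]
    rw [h1, add_zero]

/-- Witt's theorem for frames with prescribed values. -/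
theorem frameQ_trans (hQ : (P Q).Nondegenerate) {k : ℕ} {s s' : Fin k → V} (hs : LinearIndependent F s) (hs' : LinearIndependent F s')
    (hR : ∀ a b, P Q (s a) (s b) = 0) (hR' : ∀ a b, P Q (s' a) (s' b) = 0) (hc : ∀ i, Q (s i) = Q (s' i)) :
    ∃ g : OG Q, ∀ i, g.1 (s i) = s' i := by
  classical
  let b := Basis.span hs
  let b' := Basis.span hs'
  let φ := b.equiv b' (Equiv.refl _)
  have hb : ∀ i, ((b i : Submodule.span F (Set.range s)) : V) = s i := fun i => by simp [b, Basis.span_apply]
  have hb' : ∀ i, ((b' i : Submodule.span F (Set.range s')) : V) = s' i := fun i => by simp [b', Basis.span_apply]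
  have hφ : ∀ a, ((φ a : Submodule.span F (Set.range s')) : V) = ∑ i, b.repr a i • s' i := by
    intro a
    conv_lhs => rw [← b.sum_repr a]
    simp only [map_sum, map_smul, φ, Basis.equiv_apply, Equiv.refl_apply]
    simp [hb']
  have ha : ∀ a : Submodule.span F (Set.range s), (a : V) = ∑ i, b.repr a i • s i := by
    intro a
    have h0 := congrArg (Subtype.val) (b.sum_repr a)
    rw [AddSubmonoidClass.coe_finset_sum] at h0
    simp only [SetLike.val_smul, hb] at h0
    exact h0.symm
  obtain ⟨g, hg, hgx⟩ := extend_of_core (fun u (_ : V) => Q u) (fun X₀ a c ha hc hyp => by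
      obtain ⟨g, h1, h2, h3⟩ := core_quad Q hQ X₀ a c ha hc (fun z hz t => hyp z 0 hz X₀.zero_mem t 0)
      exact ⟨g, fun u _ => h1 u, h2, h3⟩) _ _ φ (fun a _ => by
    change Q ((φ a : Submodule.span F (Set.range s')) : V) = Q (a : V)
    rw [hφ, Q_sum_orth _ _ _ hR', ha a, Q_sum_orth _ _ _ hR]
    simp only [hc])
  refine ⟨⟨g, hg⟩, fun i => ?_⟩
  have h1 := hgx (b i)
  rw [hb] at h1
  have h2 : φ (b i) = b' i := by simp [φ]
  rw [h2, hb'] at h1
  exact h1

variable [Fintype F]

/-- The frame count. -/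
theorem fixQ_count (hQ : (P Q).Nondegenerate) (c : ℕ → F) {k : ℕ} (s₀ : Fin k → V) (hs₀ : LinearIndependent F s₀)
    (hR : ∀ a b, P Q (s₀ a) (s₀ b) = 0) (hc : ∀ i : Fin k, Q (s₀ i) = c i) :
    Nat.card (OG Q) = Nat.card (Fr F (RQ Q) (DQ Q c) k) * Nat.card (stabG (fun u (_ : V) => Q u) (Submodule.span F (Set.range s₀))) := by
  classical
  let f : OG Q → Fr F (RQ Q) (DQ Q c) k := fun g => ⟨fun i => g.1 (s₀ i),
    hs₀.map' (g.1 : V →ₗ[F] V) (LinearEquiv.ker _),
    fun a b => by
      change P Q _ _ = 0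
      rw [OG_polar]
      exact hR a b,
    fun a => by
      change Q (g.1 (s₀ a)) = c a
      rw [OG_pres]
      exact hc a⟩
  have hs : Function.Surjective f := by
    rintro ⟨s, hs1, hs2, hs3⟩
    obtain ⟨g, hgi⟩ := frameQ_trans hQ hs₀ hs1 hR hs2 (fun i => by
      rw [hc]
      exact (hs3 i).symm)
    refine ⟨g, ?_⟩
    apply Subtype.ext
    funext i
    exact hgi i
  have hS : ∀ g g', f g = f g' ↔ g⁻¹ * g' ∈ stabG (fun u (_ : V) => Q u) (Submodule.span F (Set.range s₀)) := by
    intro g g'
    constructor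
    · intro hgg p hp
      have h1 : ∀ i, (g⁻¹ * g').1 (s₀ i) = s₀ i := by
        intro i
        have h2 : g.1 (s₀ i) = g'.1 (s₀ i) := congrFun (congrArg Subtype.val hgg) i
        change g.1⁻¹ (g'.1 (s₀ i)) = s₀ i
        rw [← h2]
        exact g.1.symm_apply_apply _
      induction hp using Submodule.span_induction with
      | mem x hx =>
        obtain ⟨i, rfl⟩ := hx
        exact h1 i
      | zero => exact map_zero _
      | add x y _ _ hx hy =>
        change (g⁻¹ * g').1 (x + y) = x + y
        rw [map_add]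
        exact congrArg₂ _ hx hy
      | smul c x _ hx =>
        change (g⁻¹ * g').1 (c • x) = c • x
        rw [map_smul]
        exact congrArg _ hx
    · intro hgg
      apply Subtype.ext
      funext i
      have h1 : (g⁻¹ * g').1 (s₀ i) = s₀ i := hgg _ (Submodule.subset_span ⟨i, rfl⟩)
      change g.1⁻¹ (g'.1 (s₀ i)) = s₀ i at h1
      change g.1 (s₀ i) = g'.1 (s₀ i)
      conv_lhs => rw [← h1]
      exact g.1.apply_symm_apply _
  exact card_eq_mul_stab f hs _ hS

omit [FiniteDimensional F V] [Fintype F] in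
/-- Removing a subspace from a set containing it. -/
lemma card_diff [Finite V] (p : V → Prop) (U : Submodule F V) (hU : ∀ u ∈ U, p u) :
    Nat.card {v // p v ∧ v ∉ U} + Nat.card U = Nat.card {v // p v} := by
  classical
  have h1 := Nat.card_congr (Equiv.sumCompl (fun v : {v // p v} => v.1 ∈ U))
  rw [Nat.card_sum] at h1
  have h2 : Nat.card {x : {v // p v} // x.1 ∈ U} = Nat.card U := by
    apply Nat.card_congr
    exact
      { toFun := fun x => ⟨x.1.1, x.2⟩
        invFun := fun u => ⟨⟨u.1, hU _ u.2⟩, u.2⟩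
        left_inv := fun _ => rfl
        right_inv := fun _ => rfl }
  have h3 : Nat.card {x : {v // p v} // ¬ x.1 ∈ U} = Nat.card {v // p v ∧ v ∉ U} := by
    apply Nat.card_congr
    exact
      { toFun := fun x => ⟨x.1.1, x.1.2, x.2⟩
        invFun := fun u => ⟨⟨u.1, u.2.1⟩, u.2.2⟩
        left_inv := fun _ => rfl
        right_inv := fun _ => rfl }
  rw [h2, h3] at h1
  omega

end gen

section plus

variable {F : Type*} [Field F] [Fintype F] [CharP F 2]

local notation "VV" k => (Fin k ⊕ Fin k → F)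
local notation "QQ" k => Qplus k F

/-- Number of vectors of a given value. -/
noncomputable def NV (F : Type*) [Field F] (k : ℕ) (c : F) : ℕ := Nat.card {v : Fin k ⊕ Fin k → F // Qplus k F v = c}

/-- One step of the standard frame. -/
theorem std_step (n j : ℕ) (s' : Fin j → (Fin n ⊕ Fin n → F)) (hLI : LinearIndependent F s') (hR : ∀ a b, P (Qplus n F) (s' a) (s' b) = 0)
    (hQ : ∀ a, Qplus n F (s' a) = 0) : ∃ s : Fin (j + 1) → (Fin (n + 1) ⊕ Fin (n + 1) → F), LinearIndependent F s ∧ (∀ a b, P (Qplus (n + 1) F) (s a) (s b) = 0) ∧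
    (∀ a, Qplus (n + 1) F (s a) = 0) ∧ ∀ c : F, Nat.card {v // (∀ i, P (Qplus (n + 1) F) (s i) v = 0) ∧ Qplus (n + 1) F v = c} =
      Fintype.card F * Nat.card {u // (∀ i, P (Qplus n F) (s' i) u = 0) ∧ Qplus n F u = c} := by
  classical
  let E := Eplus n F
  have he : ∀ (a b : F) (u : Fin n ⊕ Fin n → F), Qplus (n + 1) F (E ((a, b), u)) = a * b + Qplus n F u := Qplus_E (F := F) n
  have hpol := hyp_polar (Qplus (n + 1) F) (Qplus n F) E he
  let ι : (Fin n ⊕ Fin n → F) →ₗ[F] (Fin (n + 1) ⊕ Fin (n + 1) → F) := (E : _ →ₗ[F] _) ∘ₗ LinearMap.inr F (F × F) (Fin n ⊕ Fin n → F)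
  have hι : ∀ u, ι u = E ((0, 0), u) := fun u => rfl
  let x₀ : Fin (n + 1) ⊕ Fin (n + 1) → F := E ((1, 0), 0)
  let s : Fin (j + 1) → (Fin (n + 1) ⊕ Fin (n + 1) → F) := Fin.cons x₀ (fun i => ι (s' i))
  have hιinj : LinearMap.ker ι = ⊥ := by
    rw [LinearMap.ker_eq_bot]
    intro a b hab
    have h1 := E.injective hab
    exact (Prod.ext_iff.1 h1).2
  have hLI' : LinearIndependent F (fun i => ι (s' i)) := hLI.map' ι hιinj
  have hx₀ : x₀ ∉ Submodule.span F (Set.range (fun i => ι (s' i))) := by
    let φ₀ : (Fin (n + 1) ⊕ Fin (n + 1) → F) →ₗ[F] F := (LinearMap.fst F F F) ∘ₗ (LinearMap.fst F (F × F) (Fin n ⊕ Fin n → F)) ∘ₗ (E.symm : _ →ₗ[F] _)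
    have h1 : Submodule.span F (Set.range (fun i => ι (s' i))) ≤ LinearMap.ker φ₀ := by
      rw [Submodule.span_le]
      rintro _ ⟨i, rfl⟩
      change φ₀ (ι (s' i)) = 0
      simp [φ₀, hι]
    intro h
    have h2 : φ₀ x₀ = 0 := h1 h
    have h3 : φ₀ x₀ = 1 := by simp [φ₀, x₀]
    rw [h2] at h3
    exact zero_ne_one h3
  refine ⟨s, linearIndependent_finCons.2 ⟨hLI', hx₀⟩, ?_, ?_, fun c => ?_⟩
  · intro a b
    refine Fin.cases ?_ (fun a' => ?_) a <;> refine Fin.cases ?_ (fun b' => ?_) b
    · simp only [s, Fin.cons_zero, x₀]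
      rw [hpol]
      simp
    · simp only [s, Fin.cons_zero, Fin.cons_succ, x₀, hι]
      rw [hpol]
      simp
    · simp only [s, Fin.cons_zero, Fin.cons_succ, x₀, hι]
      rw [hpol]
      simp
    · simp only [s, Fin.cons_succ, hι]
      rw [hpol, hR]
      simp
  · intro a
    refine Fin.cases ?_ (fun a' => ?_) a
    · simp only [s, Fin.cons_zero, x₀]
      rw [he]
      simp
    · simp only [s, Fin.cons_succ, hι]
      rw [he, hQ]
      simp
  · have hs0 : ∀ v : Fin (n + 1) ⊕ Fin (n + 1) → F, P (Qplus (n + 1) F) (s 0) v = (E.symm v).1.2 := by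
      intro v
      have h1 : v = E (((E.symm v).1.1, (E.symm v).1.2), (E.symm v).2) := by simp
      conv_lhs => rw [h1]
      simp only [s, Fin.cons_zero, x₀]
      rw [hpol]
      simp
    have hsi : ∀ (i : Fin j) (v : Fin (n + 1) ⊕ Fin (n + 1) → F), P (Qplus (n + 1) F) (s i.succ) v = P (Qplus n F) (s' i) (E.symm v).2 := by
      intro i v
      have h1 : v = E (((E.symm v).1.1, (E.symm v).1.2), (E.symm v).2) := by simp
      conv_lhs => rw [h1]
      simp only [s, Fin.cons_succ, hι]
      rw [hpol]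
      simp
    have hcard : Nat.card F = Fintype.card F := Nat.card_eq_fintype_card
    have h1 : Nat.card {v // (∀ i, P (Qplus (n + 1) F) (s i) v = 0) ∧ Qplus (n + 1) F v = c} =
        Nat.card (F × {u // (∀ i, P (Qplus n F) (s' i) u = 0) ∧ Qplus n F u = c}) := by
      apply Nat.card_congr
      refine
        { toFun := fun v => ((E.symm v.1).1.1, ⟨(E.symm v.1).2, fun i => ?_, ?_⟩)
          invFun := fun p => ⟨E ((p.1, 0), p.2.1), fun i => ?_, ?_⟩
          left_inv := fun v => ?_
          right_inv := fun p => ?_ }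
      · rw [← hsi]
        exact v.2.1 i.succ
      · have h2 := he (E.symm v.1).1.1 (E.symm v.1).1.2 (E.symm v.1).2
        have h3 : E (((E.symm v.1).1.1, (E.symm v.1).1.2), (E.symm v.1).2) = v.1 := by simp
        rw [h3, v.2.2] at h2
        have h4 : (E.symm v.1).1.2 = 0 := by
          rw [← hs0]
          exact v.2.1 0
        rw [h4, mul_zero, zero_add] at h2
        exact h2.symm
      · refine Fin.cases ?_ (fun i' => ?_) i
        · rw [hs0]
          simp
        · rw [hsi]
          simp only [LinearEquiv.symm_apply_apply]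
          exact p.2.2.1 i'
      · rw [he, p.2.2.2]
        simp
      · apply Subtype.ext
        have h4 : (E.symm v.1).1.2 = 0 := by
          rw [← hs0]
          exact v.2.1 0
        change E (((E.symm v.1).1.1, 0), (E.symm v.1).2) = v.1
        have h6 : ((E.symm v.1).1.1, (0 : F)) = (E.symm v.1).1 := Prod.ext rfl h4.symm
        rw [h6]
        simp
      · apply Prod.ext
        · simp
        · apply Subtype.ext
          simp
    rw [h1, Nat.card_prod, hcard]

/-- The standard frame. -/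
theorem exists_std (k j : ℕ) : ∃ s : Fin j → (Fin (k + j) ⊕ Fin (k + j) → F), LinearIndependent F s ∧ (∀ a b, P (Qplus (k + j) F) (s a) (s b) = 0) ∧
    (∀ a, Qplus (k + j) F (s a) = 0) ∧ ∀ c : F, Nat.card {v // (∀ i, P (Qplus (k + j) F) (s i) v = 0) ∧ Qplus (k + j) F v = c} = Fintype.card F ^ j * NV F k c := by
  classical
  induction j with
  | zero =>
    refine ⟨Fin.elim0, linearIndependent_empty_type, fun a => a.elim0, fun a => a.elim0, fun c => ?_⟩
    rw [pow_zero, one_mul, NV]
    apply Nat.card_congr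
    exact
      { toFun := fun v => ⟨v.1, v.2.2⟩
        invFun := fun v => ⟨v.1, fun i => i.elim0, v.2⟩
        left_inv := fun _ => rfl
        right_inv := fun _ => rfl }
  | succ j ih =>
    obtain ⟨s', hLI, hR, hQ, hcount⟩ := ih
    obtain ⟨s, h1, h2, h3, h4⟩ := std_step (k + j) j s' hLI hR hQ
    refine ⟨s, h1, h2, h3, fun c => ?_⟩
    have h5 := h4 c
    rw [hcount c] at h5
    rw [pow_succ]
    refine h5.trans ?_
    ring

/-- Transport to any frame. -/
theorem count_frame (k j : ℕ) (s : Fin j → (Fin (k + j) ⊕ Fin (k + j) → F)) (hLI : LinearIndependent F s) (hR : ∀ a b, P (Qplus (k + j) F) (s a) (s b) = 0)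
    (hQ : ∀ a, Qplus (k + j) F (s a) = 0) (c : F) :
    Nat.card {v // (∀ i, P (Qplus (k + j) F) (s i) v = 0) ∧ Qplus (k + j) F v = c} = Fintype.card F ^ j * NV F k c := by
  classical
  obtain ⟨s', hLI', hR', hQ', hcount⟩ := exists_std (F := F) k j
  obtain ⟨g, hg⟩ := frameQ_trans (Qplus_nondeg _) hLI hLI' hR hR' (fun i => by rw [hQ, hQ'])
  rw [← hcount c]
  apply Nat.card_congr
  refine
    { toFun := fun v => ⟨g.1 v.1, fun i => ?_, ?_⟩
      invFun := fun v => ⟨g.1.symm v.1, fun i => ?_, ?_⟩
      left_inv := fun v => ?_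
      right_inv := fun v => ?_ }
  · rw [← hg i, OG_polar]
    exact v.2.1 i
  · rw [OG_pres]
    exact v.2.2
  · have h1 := OG_polar g (s i) (g.1.symm v.1)
    rw [hg i, LinearEquiv.apply_symm_apply] at h1
    rw [← h1]
    exact v.2.1 i
  · have h1 := OG_pres g (g.1.symm v.1)
    rw [LinearEquiv.apply_symm_apply] at h1
    rw [← h1]
    exact v.2.2
  · apply Subtype.ext
    exact g.1.symm_apply_apply _
  · apply Subtype.ext
    exact g.1.apply_symm_apply _

omit [Fintype F] [CharP F 2] in
lemma Q_span_zero {V : Type*} [AddCommGroup V] [Module F V] {Q : QuadraticForm F V} {k : ℕ} (s : Fin k → V) (hR : ∀ a b, P Q (s a) (s b) = 0) (hQ : ∀ a, Q (s a) = 0) :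
    ∀ u ∈ Submodule.span F (Set.range s), Q u = 0 ∧ ∀ i, P Q (s i) u = 0 := by
  have h1 : ∀ u ∈ Submodule.span F (Set.range s), ∀ i, P Q (s i) u = 0 := by
    intro u hu i
    induction hu using Submodule.span_induction with
    | mem x hx =>
      obtain ⟨j, rfl⟩ := hx
      exact hR i j
    | zero => simp
    | add x y _ _ hx hy => rw [map_add, hx, hy, add_zero]
    | smul c x _ hx => rw [map_smul, hx, smul_zero]
  have h2 : ∀ x ∈ Submodule.span F (Set.range s), ∀ u ∈ Submodule.span F (Set.range s), P Q x u = 0 := by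
    intro x hx u hu
    induction hx using Submodule.span_induction with
    | mem z hz =>
      obtain ⟨j, rfl⟩ := hz
      exact h1 u hu j
    | zero => simp
    | add a b _ _ ha hb => rw [map_add, LinearMap.add_apply, ha, hb, add_zero]
    | smul c a _ ha => rw [map_smul, LinearMap.smul_apply, ha, smul_zero]
  intro u hu
  refine ⟨?_, h1 u hu⟩
  induction hu using Submodule.span_induction with
  | mem x hx =>
    obtain ⟨i, rfl⟩ := hx
    exact hQ i
  | zero => simp
  | add x y hx' hy' hx hy => rw [Q_add, hx, hy, h2 x hx' y hy', add_zero, add_zero]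
  | smul c x _ hx => rw [Q_smul, hx, mul_zero]

end plus

end Cfsg.Agent.Lib.Known3.InvC
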