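import Mathlib
import Cfsg.Agent.Lib.Known3.InvO2

/-! Orders of stabilisers of frames in the plus-type orthogonal groups in characteristic two. -/

set_option autoImplicit false
set_option linter.unusedVariables false
set_option linter.unusedSectionVars false

namespace Cfsg.Agent.Lib.Known3.InvC

open Module Cfsg.Agent.Lib.Classical Cfsg.Agent.Lib.Classical.Abs Cfsg.Agent.Lib.Classical.Witt Cfsg.Agent.Lib.Classical.Orth Cfsg.Agent.Lib.Classical.Frames
open Cfsg.Agent.Lib.Known3.Graph (two_eq')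

local notation "P" => QuadraticMap.polarBilin

variable {F : Type*} [Field F] [Fintype F] [CharP F 2]

/-- The order of the orthogonal group. -/
noncomputable def OP (F : Type*) [Field F] (k : ℕ) : ℕ := Nat.card (OG (Qplus k F))

lemma OP_pos (k : ℕ) : 0 < OP F k := by
  haveI : Finite (Fin k ⊕ Fin k → F) := Module.finite_of_finite F
  haveI : Finite ((Fin k ⊕ Fin k → F) ≃ₗ[F] (Fin k ⊕ Fin k → F)) :=
    Finite.of_injective (fun g : (Fin k ⊕ Fin k → F) ≃ₗ[F] (Fin k ⊕ Fin k → F) => (⇑g : (Fin k ⊕ Fin k → F) → (Fin k ⊕ Fin k → F))) DFunLike.coe_injective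
  exact Nat.card_pos

lemma OP_succ (k : ℕ) : OP F (k + 1) = (NV F (k + 1) 0 - 1) * Fintype.card F ^ (2 * k) * OP F k := by
  have h := hyp_card_isoG (Qplus (k + 1) F) (Qplus k F) (Eplus k F) (Qplus_E k) (Qplus_nondeg k)
  rw [card_Vplus] at h
  exact h

lemma tri_aux (s : ℕ) : (s + 1) * s / 2 = s * (s - 1) / 2 + s := by
  cases s with
  | zero => simp
  | succ t =>
    have h := tri_succ t
    have e1 : (t + 1 + 1) * (t + 1) = (t + 1) * (t + 1 + 1) := by ring
    have e2 : t + 1 - 1 = t := by omega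
    rw [e1, e2, h, mul_comm (t + 1) t]

/-- The counting identity. -/
lemma J_id (s r : ℕ) : (∏ j ∈ Finset.range s, (Fintype.card F ^ j * (NV F (s + r - j) 0 - 1))) * Fintype.card F ^ (2 * s * r + s * (s - 1) / 2) * OP F r = OP F (s + r) := by
  set q := Fintype.card F with hq
  induction s with
  | zero => simp
  | succ s ih =>
    have e0 : s + 1 + r = (s + r) + 1 := by omega
    have h1 : ∏ j ∈ Finset.range (s + 1), (q ^ j * (NV F (s + 1 + r - j) 0 - 1)) =
        q ^ s * (∏ j ∈ Finset.range s, (q ^ j * (NV F (s + r - j) 0 - 1))) * (NV F (s + r + 1) 0 - 1) := by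
      rw [Finset.prod_range_succ']
      congr 1
      · have h2 : ∀ j ∈ Finset.range s, q ^ (j + 1) * (NV F (s + 1 + r - (j + 1)) 0 - 1) = q * (q ^ j * (NV F (s + r - j) 0 - 1)) := by
          intro j _
          have e : s + 1 + r - (j + 1) = s + r - j := by omega
          rw [e, pow_succ]
          ring
        rw [Finset.prod_congr rfl h2, Finset.prod_mul_distrib, Finset.prod_const, Finset.card_range]
      · rw [pow_zero, one_mul, Nat.sub_zero, e0]
    have e1 : 2 * (s + 1) * r + (s + 1) * (s + 1 - 1) / 2 = (2 * s * r + s * (s - 1) / 2) + (2 * r + s) := by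
      have e2 : s + 1 - 1 = s := by omega
      rw [e2, tri_aux]
      ring
    rw [h1, e1, e0, OP_succ (s + r), ← ih, pow_add q _ (2 * r + s)]
    have e3 : 2 * (s + r) = s + (2 * r + s) := by ring
    rw [e3, pow_add q s (2 * r + s)]
    ring

open scoped _root_.Classical in
/-- Counting extensions of frames. -/
theorem ext_count (k j : ℕ) (c : ℕ → F) (hc0 : ∀ i < j, c i = 0) (s : Fr F (RQ (Qplus (k + j) F)) (DQ (Qplus (k + j) F) c) j) :
    Nat.card (Ext F (RQ (Qplus (k + j) F)) (DQ (Qplus (k + j) F) c) s) = Fintype.card F ^ j * (if c j = 0 then NV F k 0 - 1 else NV F k (c j)) := by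
  classical
  haveI : Finite (Fin (k + j) ⊕ Fin (k + j) → F) := Module.finite_of_finite F
  have hQ0 : ∀ a, Qplus (k + j) F (s.1 a) = 0 := by
    intro a
    have h1 : Qplus (k + j) F (s.1 a) = c a := s.2.2.2 a
    rw [h1, hc0 _ a.2]
  have hR : ∀ a b, P (Qplus (k + j) F) (s.1 a) (s.1 b) = 0 := s.2.2.1
  have hcount := count_frame k j s.1 s.2.1 hR hQ0 (c j)
  set U := Submodule.span F (Set.range s.1) with hU
  have hUz := Q_span_zero s.1 hR hQ0
  have h2 := two_eq' (F := F)
  let e : Ext F (RQ (Qplus (k + j) F)) (DQ (Qplus (k + j) F) c) s ≃ {v // ((∀ i, P (Qplus (k + j) F) (s.1 i) v = 0) ∧ Qplus (k + j) F v = c j) ∧ v ∉ U} :=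
    { toFun := fun x => ⟨x.1, ⟨x.2.2.1, x.2.2.2.2⟩, x.2.2.2.1⟩
      invFun := fun y => ⟨y.1, by
        change P _ _ _ = 0
        rw [pol_self, h2, zero_mul], y.2.1.1, y.2.2, y.2.1.2⟩
      left_inv := fun _ => rfl
      right_inv := fun _ => rfl }
  rw [Nat.card_congr e]
  by_cases h0 : c j = 0
  · rw [if_pos h0]
    have h3 := card_diff (fun v => (∀ i, P (Qplus (k + j) F) (s.1 i) v = 0) ∧ Qplus (k + j) F v = c j) U (fun u hu => ⟨(hUz u hu).2, by rw [(hUz u hu).1, h0]⟩)
    have h4 : Nat.card U = Fintype.card F ^ j := by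
      rw [Module.natCard_eq_pow_finrank (K := F), Nat.card_eq_fintype_card, hU, finrank_span_eq_card s.2.1]
      simp
    rw [h4, hcount, h0] at h3
    rw [h0, Nat.mul_sub, mul_one]
    omega
  · rw [if_neg h0, ← hcount]
    apply Nat.card_congr
    exact
      { toFun := fun x => ⟨x.1, x.2.1⟩
        invFun := fun y => ⟨y.1, y.2, fun h => h0 (by rw [← y.2.2, (hUz _ h).1])⟩
        left_inv := fun _ => rfl
        right_inv := fun _ => rfl }

open scoped _root_.Classical in
/-- Counting frames. -/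
theorem frame_count (m n : ℕ) (hn : n ≤ m) (c : ℕ → F) (hc : ∀ i j, i < j → j < n → c i = 0) :
    Nat.card (Fr F (RQ (Qplus m F)) (DQ (Qplus m F) c) n) = ∏ j ∈ Finset.range n, (Fintype.card F ^ j * (if c j = 0 then NV F (m - j) 0 - 1 else NV F (m - j) (c j))) := by
  haveI : Finite (Fin m ⊕ Fin m → F) := Module.finite_of_finite F
  apply card_Fr RQ_symm
  intro j hj s
  obtain ⟨k, rfl⟩ : ∃ k, m = k + j := ⟨m - j, by omega⟩
  have e : k + j - j = k := by omega
  rw [e]
  exact ext_count k j c (fun i hi => hc i j hi hj) s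

/-- Vectors of norm one. -/
lemma NV_succ_one (k : ℕ) : NV F (k + 1) 1 = Fintype.card F * NV F k 1 + (Fintype.card F - 1) * Fintype.card F ^ (2 * k) := by
  classical
  haveI : Finite (Fin k ⊕ Fin k → F) := Module.finite_of_finite F
  haveI := Fintype.ofFinite (Fin k ⊕ Fin k → F)
  let e := Eplus k F
  have he : ∀ (a b : F) (u : Fin k ⊕ Fin k → F), Qplus (k + 1) F (e ((a, b), u)) = a * b + Qplus k F u := Qplus_E k
  have e1 : {v // Qplus (k + 1) F v = 1} ≃ Σ u : (Fin k ⊕ Fin k → F), {p : F × F // p.1 * p.2 = 1 - Qplus k F u} :=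
    { toFun := fun v => ⟨(e.symm v.1).2, ⟨(e.symm v.1).1, by
        have h1 := he (e.symm v.1).1.1 (e.symm v.1).1.2 (e.symm v.1).2
        have h2 : e (((e.symm v.1).1.1, (e.symm v.1).1.2), (e.symm v.1).2) = v.1 := by simp
        rw [h2, v.2] at h1
        linear_combination -h1⟩⟩
      invFun := fun s => ⟨e (s.2.1, s.1), by
        have h1 := he s.2.1.1 s.2.1.2 s.1
        have h2 := s.2.2
        change Qplus (k + 1) F (e ((s.2.1.1, s.2.1.2), s.1)) = 1
        rw [h1, h2]
        ring⟩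
      left_inv := by
        intro v
        apply Subtype.ext
        exact e.apply_symm_apply v.1
      right_inv := by
        rintro ⟨u, p, hp⟩
        have h : e.symm (e (p, u)) = (p, u) := e.symm_apply_apply _
        exact Sigma.subtype_ext (congrArg Prod.snd h) (congrArg Prod.fst h) }
  rw [NV, Nat.card_congr e1, Nat.card_sigma]
  have hfib : ∀ u : (Fin k ⊕ Fin k → F), Nat.card {p : F × F // p.1 * p.2 = 1 - Qplus k F u} =
      if Qplus k F u = 1 then 2 * Fintype.card F - 1 else Fintype.card F - 1 := by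
    intro u
    by_cases h : Qplus k F u = 1
    · simp only [h, sub_self, if_true]
      exact card_mul_eq_zero
    · simp only [h, if_false]
      exact card_mul_eq _ (sub_ne_zero.2 (Ne.symm h))
  simp only [hfib]
  rw [Finset.sum_ite]
  simp only [Finset.sum_const, smul_eq_mul]
  have h1 : NV F k 1 = (Finset.univ.filter (fun u => Qplus k F u = 1)).card := by
    rw [NV, Nat.card_eq_fintype_card, Fintype.card_subtype]
  have h2 := Finset.card_filter_add_card_filter_not (s := (Finset.univ : Finset (Fin k ⊕ Fin k → F))) (fun u => Qplus k F u = 1)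
  have h3 : Fintype.card F ^ (2 * k) = (Finset.univ : Finset (Fin k ⊕ Fin k → F)).card := by
    rw [Finset.card_univ, ← Nat.card_eq_fintype_card (α := Fin k ⊕ Fin k → F), card_Vplus]
  rw [h1, h3, ← h2]
  set A := (Finset.univ.filter (fun u => Qplus k F u = 1)).card
  set B := (Finset.univ.filter (fun u => ¬ Qplus k F u = 1)).card
  obtain ⟨t, ht⟩ : ∃ t, Fintype.card F = t + 1 := ⟨Fintype.card F - 1, by
    have : 1 ≤ Fintype.card F := Fintype.card_pos
    omega⟩
  rw [ht]
  have e2 : 2 * (t + 1) - 1 = 2 * t + 1 := by omega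
  have e3 : t + 1 - 1 = t := by omega
  rw [e2, e3]
  ring

lemma NV_zero_one : NV F 0 (1 : F) = 0 := by
  rw [NV]
  have : IsEmpty {v : Fin 0 ⊕ Fin 0 → F // Qplus 0 F v = 1} := by
    constructor
    rintro ⟨v, hv⟩
    have h1 : v = 0 := Subsingleton.elim _ _
    rw [h1, map_zero] at hv
    exact zero_ne_one hv
  simp

lemma NV_one_add (k : ℕ) : NV F (k + 1) 1 + Fintype.card F ^ k = Fintype.card F ^ (2 * k + 1) := by
  set q := Fintype.card F with hq
  have hq1 : 1 ≤ q := Fintype.card_pos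
  obtain ⟨t, ht⟩ : ∃ t, q = t + 1 := ⟨q - 1, by omega⟩
  induction k with
  | zero =>
    rw [NV_succ_one, NV_zero_one, ← hq, ht]
    simp
  | succ k ih =>
    rw [NV_succ_one, ← hq]
    have h1 : q * NV F (k + 1) 1 + (q - 1) * q ^ (2 * (k + 1)) + q ^ (k + 1) = q * (NV F (k + 1) 1 + q ^ k) + (q - 1) * q ^ (2 * (k + 1)) := by
      rw [pow_succ q k]
      ring
    rw [h1, ih]
    have e1 : t + 1 - 1 = t := by omega
    rw [ht, e1]
    have e2 : 2 * (k + 1) + 1 = (2 * k + 1) + 2 := by ring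
    have e3 : 2 * (k + 1) = (2 * k + 1) + 1 := by ring
    rw [e2, e3]
    ring

lemma NV_one_eq (k : ℕ) : NV F (k + 1) 1 = Fintype.card F ^ k * (Fintype.card F ^ (k + 1) - 1) := by
  have h := NV_one_add (F := F) k
  set q := Fintype.card F with hq
  have hq1 : 1 ≤ q := Fintype.card_pos
  have h1 : 1 ≤ q ^ (k + 1) := Nat.one_le_pow _ _ hq1
  rw [Nat.mul_sub, mul_one]
  have h2 : q ^ (2 * k + 1) = q ^ k * q ^ (k + 1) := by
    rw [← pow_add]
    congr 1
    ring
  rw [h2] at h
  omega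

/-- The stabiliser of a totally singular subspace. -/
theorem fix_a {m s r : ℕ} (hm : m = s + r) (W : Submodule F (Fin m ⊕ Fin m → F)) (hW : ∀ y ∈ W, ∀ z ∈ W, P (Qplus m F) y z = 0) (hWQ : ∀ y ∈ W, Qplus m F y = 0)
    (hs : finrank F W = s) :
    Nat.card (stabG (fun u (_ : Fin m ⊕ Fin m → F) => Qplus m F u) W) = Fintype.card F ^ (2 * s * r + s * (s - 1) / 2) * OP F r := by
  classical
  subst hm
  let b : Basis (Fin s) F W := Module.finBasisOfFinrankEq F W hs
  let s₀ : Fin s → (Fin (s + r) ⊕ Fin (s + r) → F) := fun i => (b i : Fin (s + r) ⊕ Fin (s + r) → F)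
  have hs₀ : LinearIndependent F s₀ := b.linearIndependent.map' W.subtype (Submodule.ker_subtype W)
  have hsp : Submodule.span F (Set.range s₀) = W := by
    have h1 : s₀ = W.subtype ∘ b := rfl
    rw [h1, Set.range_comp, ← Submodule.map_span, b.span_eq, Submodule.map_top, Submodule.range_subtype]
  have h1 := fixQ_count (Qplus_nondeg _) (fun _ => (0 : F)) s₀ hs₀ (fun a c => hW _ (b a).2 _ (b c).2) (fun i => hWQ _ (b i).2)
  rw [hsp, frame_count _ _ (by omega) _ (fun _ _ _ _ => rfl)] at h1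
  have hprod : ∀ j ∈ Finset.range s, (Fintype.card F ^ j * (if (fun _ : ℕ => (0 : F)) j = 0 then NV F (s + r - j) 0 - 1 else NV F (s + r - j) ((fun _ : ℕ => (0 : F)) j))) = Fintype.card F ^ j * (NV F (s + r - j) 0 - 1) := by
    intro j _
    rw [if_pos rfl]
  rw [Finset.prod_congr rfl hprod] at h1
  have h2 := J_id (F := F) s r
  have h3 : OP F (s + r) = Nat.card (OG (Qplus (s + r) F)) := rfl
  rw [h3, h1] at h2
  have hpos : 0 < ∏ j ∈ Finset.range s, (Fintype.card F ^ j * (NV F (s + r - j) 0 - 1)) := by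
    apply Nat.pos_of_ne_zero
    intro h0
    have h4 := OP_pos (F := F) (s + r)
    rw [h3, h1, h0, zero_mul] at h4
    exact lt_irrefl _ h4
  have h5 := Nat.eq_of_mul_eq_mul_left hpos (show _ * (Fintype.card F ^ (2 * s * r + s * (s - 1) / 2) * OP F r) = _ * Nat.card (stabG (fun u (_ : Fin (s + r) ⊕ Fin (s + r) → F) => Qplus (s + r) F u) W) by
    rw [← mul_assoc]
    exact h2)
  exact h5.symm

/-- The stabiliser of a frame with a non-singular last vector. -/
theorem fix_b {m j₀ r : ℕ} (hm : m = j₀ + (r + 1)) (W : Submodule F (Fin m ⊕ Fin m → F)) (s₀ : Fin (j₀ + 1) → (Fin m ⊕ Fin m → F)) (hLI : LinearIndependent F s₀)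
    (hsp : Submodule.span F (Set.range s₀) = W) (hW : ∀ a b, P (Qplus m F) (s₀ a) (s₀ b) = 0)
    (hQ0 : ∀ i : Fin (j₀ + 1), (i : ℕ) ≠ j₀ → Qplus m F (s₀ i) = 0) (hQ1 : Qplus m F (s₀ (Fin.last j₀)) = 1) :
    Nat.card (stabG (fun u (_ : Fin m ⊕ Fin m → F) => Qplus m F u) W) = 2 * Fintype.card F ^ (2 * j₀ * r + j₀ * (j₀ + 1) / 2) * PP (Fintype.card F) r := by
  classical
  set q := Fintype.card F with hq
  have hq2 : 2 ≤ q := by
    rw [hq]
    exact Fintype.one_lt_card
  let c : ℕ → F := fun i => if i = j₀ then 1 else 0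
  have hc : ∀ i : Fin (j₀ + 1), Qplus m F (s₀ i) = c i := by
    intro i
    by_cases hi : (i : ℕ) = j₀
    · simp only [c, if_pos hi]
      have : i = Fin.last j₀ := Fin.ext hi
      rw [this, hQ1]
    · simp only [c, if_neg hi]
      exact hQ0 i hi
  have h1 := fixQ_count (Qplus_nondeg _) c s₀ hLI hW hc
  rw [hsp, frame_count _ _ (by omega) _ (fun i j hij hj => by
    have : i ≠ j₀ := by omega
    simp [c, this])] at h1
  rw [Finset.prod_range_succ] at h1
  have h2 : ∏ j ∈ Finset.range j₀, (q ^ j * (if c j = 0 then NV F (m - j) 0 - 1 else NV F (m - j) (c j))) =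
      ∏ j ∈ Finset.range j₀, (q ^ j * (NV F (m - j) 0 - 1)) := by
    apply Finset.prod_congr rfl
    intro j hj
    have : j ≠ j₀ := (Finset.mem_range.1 hj).ne
    have h3 : c j = 0 := by simp [c, this]
    rw [if_pos h3]
  have hcj : c j₀ = 1 := by simp [c]
  have e1 : m - j₀ = r + 1 := by omega
  rw [h2, hcj, if_neg one_ne_zero, e1, NV_one_eq, ← hq] at h1
  have h3 := J_id (F := F) j₀ (r + 1)
  rw [← hq, ← hm] at h3
  have h4 : OP F m = Nat.card (OG (Qplus m F)) := rfl
  rw [h4, h1] at h3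
  have hOP : OP F (r + 1) = q ^ r * (q ^ (r + 1) - 1) * (2 * PP q r) := by
    have h5 := Qplus_order (F := F) r
    rw [← hq] at h5
    have h6 : OP F (r + 1) = Nat.card (isoG (fun u _ : Fin (r + 1) ⊕ Fin (r + 1) → F => Qplus (r + 1) F u)) := rfl
    rw [h6, h5, PP]
    have e2 : (r + 1) * r = r + r ^ 2 := by ring
    rw [e2, pow_add]
    ring
  rw [hOP] at h3
  set Pr := ∏ j ∈ Finset.range j₀, (q ^ j * (NV F (m - j) 0 - 1))
  have hPrpos : 0 < Pr := by
    apply Nat.pos_of_ne_zero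
    intro h0
    have h7 := OP_pos (F := F) m
    rw [h4, h1, h0, zero_mul, zero_mul] at h7
    exact lt_irrefl _ h7
  have hqpos : 0 < q := by omega
  have h8 : 0 < q ^ (r + 1) - 1 := by
    have : 1 < q ^ (r + 1) := Nat.one_lt_pow (by omega) (by omega)
    omega
  have e3 : 2 * j₀ * (r + 1) + j₀ * (j₀ - 1) / 2 = (2 * j₀ * r + j₀ * (j₀ + 1) / 2) + j₀ := by
    have e4 : j₀ * (j₀ + 1) / 2 = j₀ * (j₀ - 1) / 2 + j₀ := by
      rw [mul_comm j₀ (j₀ + 1), tri_aux]
    rw [e4]
    ring
  rw [e3, pow_add q _ j₀] at h3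
  set St := Nat.card (stabG (fun u (_ : Fin m ⊕ Fin m → F) => Qplus m F u) W)
  set E := q ^ (2 * j₀ * r + j₀ * (j₀ + 1) / 2)
  have h9 : (Pr * (q ^ j₀ * (q ^ r * (q ^ (r + 1) - 1)))) * (2 * E * PP q r) = (Pr * (q ^ j₀ * (q ^ r * (q ^ (r + 1) - 1)))) * St := by
    rw [mul_assoc Pr] at h3
    calc _ = Pr * (E * q ^ j₀ * (q ^ r * (q ^ (r + 1) - 1) * (2 * PP q r))) := by ring
      _ = _ := h3
  have hpos : 0 < Pr * (q ^ j₀ * (q ^ r * (q ^ (r + 1) - 1))) := by positivity
  exact (Nat.eq_of_mul_eq_mul_left hpos h9).symm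

end Cfsg.Agent.Lib.Known3.InvC
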