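import Mathlib
import Cfsg.Agent.Lib.Known3.InvO3

/-! Centralisers of involutions in `Ω⁺_{2m}(q)`, `q` even. -/

set_option autoImplicit false
set_option linter.unusedVariables false
set_option linter.unusedSectionVars false

namespace Cfsg.Agent.Lib.Known3.InvC

open Module Cfsg.Agent.Lib.Classical Cfsg.Agent.Lib.Classical.Abs Cfsg.Agent.Lib.Classical.Witt Cfsg.Agent.Lib.Classical.Orth Cfsg.Agent.Lib.Classical.Frames
open Cfsg.Agent.Lib.Known3.Graph (two_eq')

local notation "P" => QuadraticMap.polarBilin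

variable {F : Type*} [Field F] [Fintype F] [CharP F 2] {m : ℕ}

/-- A vector of norm one. -/
lemma exists_norm_one (hm : 1 ≤ m) : ∃ v : Fin m ⊕ Fin m → F, Qplus m F v = 1 := by
  classical
  refine ⟨Sum.elim (Pi.single ⟨0, hm⟩ 1) (Pi.single ⟨0, hm⟩ 1), ?_⟩
  rw [Qplus_apply]
  simp [Cfsg.quadFormPlus, Pi.single_apply]

/-- The commutator subgroup is the kernel of the Dickson invariant. -/
theorem comm_eq_ker (h : Fintype.card F ≠ 2 ∨ m ≠ 2) (hm : 1 ≤ m) :
    ∃ D : OG (Qplus m F) →* ℤˣ, commutator (OG (Qplus m F)) = D.ker ∧ (∀ v (hv : Qplus m F v ≠ 0), D (refl (Qplus m F) v hv) = -1) ∧ ∀ g, D g = dk g := by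
  classical
  have h2 := two_eq' (F := F)
  have hQ := Qplus_nondeg (F := F) m
  have hsq := exists_sq_of_two_eq_zero h2
  have hfin : finrank F (Fin m ⊕ Fin m → F) = 2 * m := by simp [two_mul]
  have hcard : Fintype.card F ≠ 2 ∨ finrank F (Fin m ⊕ Fin m → F) ≠ 4 := by
    rcases h with h | h
    · exact Or.inl h
    · right
      rw [hfin]
      omega
  have hR := Rf_eq_top_even h2 hsq hQ hcard
  let D := Dk h2 hQ hR
  refine ⟨D, ?_, fun v hv => Dk_refl h2 hQ hR hv, fun g => rfl⟩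
  have hle : commutator (OG (Qplus m F)) ≤ D.ker := by
    unfold commutator
    rw [Subgroup.commutator_le]
    intro g₁ _ g₂ _
    rw [MonoidHom.mem_ker, map_commutatorElement, commutatorElement_eq_one_iff_commute]
    exact mul_comm _ _
  obtain ⟨v, hv⟩ := exists_norm_one (F := F) hm
  have hv0 : Qplus m F v ≠ 0 := by
    rw [hv]
    exact one_ne_zero
  have h3 : D.ker.index = 2 := index_ker_units_of_neg D (Dk_refl h2 hQ hR hv0)
  have h4 := index_commutator_even (Q := Qplus m F) h2 hQ (by omega) hcard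
  have h5 := Subgroup.relIndex_mul_index hle
  rw [h3, h4] at h5
  have h6 : (commutator (OG (Qplus m F))).relIndex D.ker = 1 := by omega
  exact le_antisymm hle (Subgroup.relIndex_eq_one.1 h6)

/-- The centraliser in `Ω`, transported. -/
lemma card_omega_transport (x : Cfsg.isometryGroup F ⇑(Qplus m F)) :
    Nat.card {g : Cfsg.Omega F ⇑(Qplus m F) // (g : Cfsg.isometryGroup F ⇑(Qplus m F)) * x = x * g} =
      Nat.card {g : OG (Qplus m F) // g ∈ commutator (OG (Qplus m F)) ∧ g * toOG (Qplus m F) x = toOG (Qplus m F) x * g} := by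
  apply Nat.card_congr
  refine
    { toFun := fun g => ⟨toOG _ g.1.1, (mem_Omega_iff _ _).1 g.1.2, by rw [← map_mul, g.2, map_mul]⟩
      invFun := fun k => ⟨⟨(toOG _).symm k.1, (mem_Omega_iff _ _).2 (by simpa using k.2.1)⟩, by
        apply (toOG _).injective
        simpa using k.2.2⟩
      left_inv := fun g => ?_
      right_inv := fun k => ?_ }
  · apply Subtype.ext
    apply Subtype.ext
    simp
  · apply Subtype.ext
    simp

section half

variable {G : Type*} [Group G] [Finite G]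

lemma card_half (D : G →* ℤˣ) (y c : G) (hc : c * y = y * c) (hDc : D c = -1) :
    Nat.card {g : G // g ∈ D.ker ∧ g * y = y * g} * 2 = Nat.card (Subgroup.centralizer ({y} : Set G)) := by
  classical
  let C := Subgroup.centralizer ({y} : Set G)
  let D' : C →* ℤˣ := D.comp C.subtype
  have hcC : c ∈ C := Subgroup.mem_centralizer_singleton_iff.2 hc
  have h1 : D'.ker.index = 2 := index_ker_units_of_neg D' (x := ⟨c, hcC⟩) hDc
  have h2 := Subgroup.card_mul_index D'.ker
  rw [h1] at h2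
  rw [← h2]
  congr 1
  apply Nat.card_congr
  exact
    { toFun := fun g => ⟨⟨g.1, Subgroup.mem_centralizer_singleton_iff.2 g.2.2⟩, g.2.1⟩
      invFun := fun k => ⟨k.1.1, k.2, Subgroup.mem_centralizer_singleton_iff.1 k.1.2⟩
      left_inv := fun _ => rfl
      right_inv := fun _ => rfl }

lemma card_full (D : G →* ℤˣ) (y : G) (hall : ∀ g, g * y = y * g → D g = 1) :
    Nat.card {g : G // g ∈ D.ker ∧ g * y = y * g} = Nat.card (Subgroup.centralizer ({y} : Set G)) := by
  apply Nat.card_congr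
  exact
    { toFun := fun g => ⟨g.1, Subgroup.mem_centralizer_singleton_iff.2 g.2.2⟩
      invFun := fun k => ⟨k.1, hall _ (Subgroup.mem_centralizer_singleton_iff.1 k.2), Subgroup.mem_centralizer_singleton_iff.1 k.2⟩
      left_inv := fun _ => rfl
      right_inv := fun _ => rfl }

end half

lemma toOG_sq {x : Cfsg.isometryGroup F ⇑(Qplus m F)} (hx : x ^ 2 = 1) : (toOG (Qplus m F) x) ^ 2 = 1 := by
  rw [← map_pow, hx, map_one]

lemma NQ_rank (x : Cfsg.isometryGroup F ⇑(Qplus m F)) :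
    finrank F (LinearMap.range (NQ (toOG (Qplus m F) x))) = (((x : Matrix.GeneralLinearGroup (Fin m ⊕ Fin m) F) : Matrix (Fin m ⊕ Fin m) (Fin m ⊕ Fin m) F) - 1).rank := by
  have h : NQ (toOG (Qplus m F) x) = (((x : Matrix.GeneralLinearGroup (Fin m ⊕ Fin m) F) : Matrix (Fin m ⊕ Fin m) (Fin m ⊕ Fin m) F) - 1).mulVecLin := by
    apply LinearMap.ext
    intro v
    rw [NQ_apply, toOG_apply]
    simp [Matrix.sub_mulVec]
  rw [h]
  rfl

lemma NQ_apply' (x : Cfsg.isometryGroup F ⇑(Qplus m F)) (v : Fin m ⊕ Fin m → F) :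
    NQ (toOG (Qplus m F) x) v = Matrix.mulVec (((x : Matrix.GeneralLinearGroup (Fin m ⊕ Fin m) F) : Matrix (Fin m ⊕ Fin m) (Fin m ⊕ Fin m) F) - 1) v := by
  rw [NQ_apply, toOG_apply]
  simp [Matrix.sub_mulVec]

lemma WQ_le {x : OG (Qplus m F)} (hx : x ^ 2 = 1) : finrank F (LinearMap.range (NQ x)) ≤ m := by
  have hQ := Qplus_nondeg (F := F) m
  have h1 : LinearMap.BilinForm.orthogonal (P (Qplus m F)) (LinearMap.range (NQ x)) ≥ LinearMap.range (NQ x) := by
    intro y hy
    rw [LinearMap.BilinForm.mem_orthogonal_iff]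
    intro z hz
    exact WQ_ti hx z hz y hy
  have h2 := Submodule.finrank_mono h1
  rw [LinearMap.BilinForm.finrank_orthogonal hQ] at h2
  have h3 : finrank F (Fin m ⊕ Fin m → F) = 2 * m := by simp [two_mul]
  rw [h3] at h2
  omega

/-- A frame of the image with a non-singular last vector. -/
theorem exists_frame_b {V : Type*} [AddCommGroup V] [Module F V] [FiniteDimensional F V] (Q : QuadraticForm F V) (W : Submodule F V) (B : LinearMap.BilinForm F W)
    (hsym : ∀ x y, B x y = B y x) (hdiag : ∀ z : W, B z z = Q z) (hna : ∃ z : W, B z z ≠ 0) {j₀ : ℕ} (hs : finrank F W = j₀ + 1) :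
    ∃ s₀ : Fin (j₀ + 1) → V, LinearIndependent F s₀ ∧ Submodule.span F (Set.range s₀) = W ∧ (∀ i, s₀ i ∈ W) ∧
      (∀ i : Fin (j₀ + 1), (i : ℕ) ≠ j₀ → Q (s₀ i) = 0) ∧ Q (s₀ (Fin.last j₀)) = 1 := by
  classical
  let ℓ := ellB B hsym
  obtain ⟨z, hz⟩ := hna
  have hℓz : ℓ z ≠ 0 := by
    intro h
    apply hz
    rw [← ellB_sq B hsym]
    change (ℓ z) ^ 2 = 0
    rw [h]
    simp
  let w₀ : W := (ℓ z)⁻¹ • z
  have hw₀ : ℓ w₀ = 1 := by
    simp only [w₀, map_smul, smul_eq_mul]
    exact inv_mul_cancel₀ hℓz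
  let H : Submodule F W := LinearMap.ker ℓ
  have hfin : finrank F H = j₀ := by
    have h2 := LinearMap.finrank_range_add_finrank_ker ℓ
    have h3 : LinearMap.range ℓ = ⊤ := by
      rw [LinearMap.range_eq_top]
      intro c
      exact ⟨c • w₀, by rw [map_smul, hw₀, smul_eq_mul, mul_one]⟩
    rw [h3, finrank_top, Module.finrank_self, hs] at h2
    change 1 + finrank F H = _ at h2
    omega
  let b : Basis (Fin j₀) F H := Module.finBasisOfFinrankEq F H hfin
  let s₁ : Fin (j₀ + 1) → W := Fin.snoc (fun i => ((b i : H) : W)) w₀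
  have hLI₁ : LinearIndependent F s₁ := by
    apply linearIndependent_finSnoc.2
    refine ⟨b.linearIndependent.map' H.subtype (Submodule.ker_subtype H), ?_⟩
    intro h
    have h1 : Submodule.span F (Set.range (fun i => ((b i : H) : W))) ≤ H := by
      rw [Submodule.span_le]
      rintro _ ⟨i, rfl⟩
      exact (b i).2
    have h2 : ℓ w₀ = 0 := h1 h
    rw [hw₀] at h2
    exact one_ne_zero h2
  let s₀ : Fin (j₀ + 1) → V := fun i => ((s₁ i : W) : V)
  have hLI₀ : LinearIndependent F s₀ := hLI₁.map' W.subtype (Submodule.ker_subtype W)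
  have hdiag' : ∀ i, Q (s₀ i) = (ℓ (s₁ i)) ^ 2 := by
    intro i
    rw [← hdiag]
    exact (ellB_sq B hsym _).symm
  refine ⟨s₀, hLI₀, ?_, fun i => (s₁ i).2, ?_, ?_⟩
  · apply Submodule.eq_of_le_of_finrank_eq
    · rw [Submodule.span_le]
      rintro _ ⟨i, rfl⟩
      exact (s₁ i).2
    · rw [finrank_span_eq_card hLI₀, hs]
      simp
  · intro i hi
    rw [hdiag']
    have h1 : i = (⟨i, by omega⟩ : Fin j₀).castSucc := Fin.ext (by
      simp only [Fin.val_castSucc])
    have h2 : ℓ (s₁ i) = 0 := by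
      rw [h1]
      simp only [s₁, Fin.snoc_castSucc]
      exact (b _).2
    rw [h2]
    simp
  · rw [hdiag']
    simp only [s₁, Fin.snoc_last]
    rw [hw₀]
    simp

lemma finite_OG : Finite (OG (Qplus m F)) := by
  haveI : Finite (Fin m ⊕ Fin m → F) := Module.finite_of_finite F
  haveI : Finite ((Fin m ⊕ Fin m → F) ≃ₗ[F] (Fin m ⊕ Fin m → F)) :=
    Finite.of_injective (fun g : (Fin m ⊕ Fin m → F) ≃ₗ[F] (Fin m ⊕ Fin m → F) => (⇑g : (Fin m ⊕ Fin m → F) → (Fin m ⊕ Fin m → F))) DFunLike.coe_injective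
  infer_instance

/-- The reduction for non-singular images. -/
theorem main_nonsing (hcase : Fintype.card F ≠ 2 ∨ m ≠ 2) (y : OG (Qplus m F)) (hy : y ^ 2 = 1)
    (B : LinearMap.BilinForm F (LinearMap.range (NQ y)))
    (hB : ∀ (z : LinearMap.range (NQ y)) (v : Fin m ⊕ Fin m → F), B z ⟨NQ y v, ⟨v, rfl⟩⟩ = P (Qplus m F) z v)
    (hna : ∃ z, B z z ≠ 0) {j₀ r : ℕ} (hs : finrank F (LinearMap.range (NQ y)) = j₀ + 1) (hm : m = j₀ + (r + 1)) :
    Nat.card {g : OG (Qplus m F) // g ∈ commutator (OG (Qplus m F)) ∧ g * y = y * g} =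
      Fintype.card F ^ (2 * j₀ * r + j₀ * (j₀ + 1) / 2) * PP (Fintype.card F) r * Nat.card (isoG (fun u v : LinearMap.range (NQ y) => B u v)) := by
  classical
  have hQ := Qplus_nondeg (F := F) m
  haveI := finite_OG (F := F) (m := m)
  obtain ⟨s₀, hLI, hsp, hmem, hQ0, hQ1⟩ := exists_frame_b (Qplus m F) (LinearMap.range (NQ y)) B (BQ_symm hy hB) (BQ_diag hy hB) hna hs
  have hfix := fix_b hm (LinearMap.range (NQ y)) s₀ hLI hsp (fun a b => WQ_ti hy _ (hmem a) _ (hmem b)) hQ0 hQ1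
  have hcent := card_centO hy hQ hB
  rw [hfix] at hcent
  obtain ⟨D, hD, hDr, -⟩ := comm_eq_ker (F := F) hcase (by omega)
  rw [hD]
  have hv0 : Qplus m F (s₀ (Fin.last j₀)) ≠ 0 := by
    rw [hQ1]
    exact one_ne_zero
  have hcc := fixQ_comm hy hQ hB (g := refl (Qplus m F) _ hv0) (fun p hp => refl_fix hv0 (WQ_ti hy _ (hmem _) _ hp))
  have h2 := card_half D y (refl (Qplus m F) _ hv0) (Subgroup.mem_centralizer_singleton_iff.1 hcc) (hDr _ hv0)
  rw [hcent] at h2
  have h3 : Nat.card {g : OG (Qplus m F) // g ∈ D.ker ∧ g * y = y * g} * 2 =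
      (Fintype.card F ^ (2 * j₀ * r + j₀ * (j₀ + 1) / 2) * PP (Fintype.card F) r * Nat.card (isoG (fun u v : LinearMap.range (NQ y) => B u v))) * 2 := by
    rw [h2]
    ring
  exact Nat.eq_of_mul_eq_mul_right (by norm_num) h3

/-- The exponent identity, odd and even rank. -/
lemma exp_eq3 (j r : ℕ) : 2 * (j + (r + 1)) * j - (3 * (j + 1) ^ 2 - 3 * (j + 1)) / 2 = 2 * j * r + j * (j + 1) / 2 := by
  obtain ⟨T, hT⟩ : ∃ T, j * (j + 1) = 2 * T := by
    obtain ⟨T, hT⟩ := Nat.even_mul_succ_self j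
    exact ⟨T, by omega⟩
  have h2 : j * (j + 1) / 2 = T := by omega
  rw [h2]
  have h3 : 3 * (j + 1) ^ 2 - 3 * (j + 1) = 3 * (2 * T) := by
    rw [← hT]
    have : 3 * (j + 1) ^ 2 = 3 * (j * (j + 1)) + 3 * (j + 1) := by ring
    omega
  rw [h3]
  have h4 : 2 * (j + (r + 1)) * j = 2 * (2 * T) + 2 * j * r := by
    rw [← hT]
    ring
  rw [h4]
  omega

end Cfsg.Agent.Lib.Known3.InvC
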