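import Mathlib
import Cfsg.Agent.Lib.Known3.InvO4

/-! Centralisers of involutions in `Ω⁺_{2m}(q)`, `q` even: the types `b_s` and `c_s`. -/

set_option autoImplicit false
set_option linter.unusedVariables false
set_option linter.unusedSectionVars false

namespace Cfsg.Agent.Lib.Known3.InvC

open Module Cfsg.Agent.Lib.Classical Cfsg.Agent.Lib.Classical.Abs Cfsg.Agent.Lib.Classical.Witt Cfsg.Agent.Lib.Classical.Orth Cfsg.Agent.Lib.Classical.Frames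
open Cfsg.Agent.Lib.Known3.Graph (two_eq' alt_even)

local notation "P" => QuadraticMap.polarBilin

variable {F : Type*} [Field F] [Fintype F] [CharP F 2] {m : ℕ}

lemma exp_eq4 (j r : ℕ) (hj : 1 ≤ j) : 2 * (j + (r + 1)) * j - (3 * (j + 1) ^ 2 - 5 * (j + 1)) / 2 - 1 = 2 * j * r + j * (j + 1) / 2 + j := by
  obtain ⟨T, hT⟩ : ∃ T, j * (j + 1) = 2 * T := by
    obtain ⟨T, hT⟩ := Nat.even_mul_succ_self j
    exact ⟨T, by omega⟩
  have h2 : j * (j + 1) / 2 = T := by omega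
  rw [h2]
  have h5 : j + 1 ≤ j * (j + 1) := Nat.le_mul_of_pos_left _ hj
  have h3 : 3 * (j + 1) ^ 2 - 5 * (j + 1) = 3 * (2 * T) - 2 * (j + 1) := by
    rw [← hT]
    have : 3 * (j + 1) ^ 2 = 3 * (j * (j + 1)) + 3 * (j + 1) := by ring
    omega
  rw [h3]
  have h4 : 2 * (j + (r + 1)) * j = 2 * (2 * T) + 2 * j * r := by
    rw [← hT]
    ring
  rw [h4]
  omega

/-- Type `b_s`. -/
theorem main_b {q : ℕ} (hF : Fintype.card F = q) {s : ℕ} (h : Fintype.card F ≠ 2 ∨ m ≠ 2) (x : Cfsg.isometryGroup F ⇑(Qplus m F)) (hx : x ^ 2 = 1)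
    (hs : (((x : Matrix.GeneralLinearGroup (Fin m ⊕ Fin m) F) : Matrix (Fin m ⊕ Fin m) (Fin m ⊕ Fin m) F) - 1).rank = s) (hodd : Odd s) :
    Nat.card {g : Cfsg.Omega F ⇑(Qplus m F) // (g : Cfsg.isometryGroup F ⇑(Qplus m F)) * x = x * g} =
      q ^ (2 * m * (s - 1) - (3 * s ^ 2 - 3 * s) / 2) * ((q : ℕ) ^ (((s - 1) / 2) ^ 2) * ∏ i : Fin ((s - 1) / 2), (q ^ (2 * ((i : ℕ) + 1)) - 1)) *
        ((q : ℕ) ^ ((m - s) ^ 2) * ∏ i : Fin (m - s), (q ^ (2 * ((i : ℕ) + 1)) - 1)) := by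
  classical
  have hy := toOG_sq hx
  have hQ := Qplus_nondeg (F := F) m
  have hN : finrank F (LinearMap.range (NQ (toOG (Qplus m F) x))) = s := (NQ_rank x).trans hs
  rw [card_omega_transport]
  generalize toOG (Qplus m F) x = y at *
  obtain ⟨B, hB⟩ := exists_BQ hy
  have hsym := BQ_symm hy hB
  have hnd := BQ_nondeg hy hQ hB
  have hle := WQ_le hy
  rw [hN] at hle
  have hna : ∃ z, B z z ≠ 0 := by
    by_contra hc
    push Not at hc
    have h5 := alt_even B hnd hc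
    rw [hN] at h5
    exact (Nat.not_even_iff_odd.2 hodd) h5
  obtain ⟨k, hk⟩ := hodd
  obtain ⟨r, hr⟩ : ∃ r, m = 2 * k + (r + 1) := ⟨m - s, by omega⟩
  have hmain := main_nonsing h y hy B hB hna (j₀ := 2 * k) (r := r) (by rw [hN, hk]) hr
  obtain ⟨v₀, hv⟩ := exists_v0 B hsym hnd
  have h1 := card_odd hF hnd hv (v0_of_odd hnd hv (by rw [hN, hk]; exact ⟨k, rfl⟩)) (k := k) (by rw [hN, hk])
  rw [hmain, h1, hF, hk, hr]
  have e1 : 2 * k + 1 - 1 = 2 * k := by omega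
  have e2 : 2 * k / 2 = k := by omega
  have e3 : 2 * k + (r + 1) - (2 * k + 1) = r := by omega
  have e4 := exp_eq3 (2 * k) r
  rw [e1, e2, e3, e4, Fin.prod_univ_eq_prod_range (fun i => q ^ (2 * (i + 1)) - 1) k, Fin.prod_univ_eq_prod_range (fun i => q ^ (2 * (i + 1)) - 1) r]
  unfold PP
  ring

/-- Type `c_s`. -/
theorem main_c {q : ℕ} (hF : Fintype.card F = q) {s : ℕ} (h : Fintype.card F ≠ 2 ∨ m ≠ 2) (x : Cfsg.isometryGroup F ⇑(Qplus m F)) (hx : x ^ 2 = 1)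
    (hs : (((x : Matrix.GeneralLinearGroup (Fin m ⊕ Fin m) F) : Matrix (Fin m ⊕ Fin m) (Fin m ⊕ Fin m) F) - 1).rank = s) (heven : Even s)
    (hna : ∃ v : Fin m ⊕ Fin m → F, Qplus m F ((((x : Matrix.GeneralLinearGroup (Fin m ⊕ Fin m) F) : Matrix (Fin m ⊕ Fin m) (Fin m ⊕ Fin m) F) - 1).mulVec v) ≠ 0) :
    Nat.card {g : Cfsg.Omega F ⇑(Qplus m F) // (g : Cfsg.isometryGroup F ⇑(Qplus m F)) * x = x * g} =
      q ^ (2 * m * (s - 1) - (3 * s ^ 2 - 5 * s) / 2 - 1) * ((q : ℕ) ^ (((s - 2) / 2) ^ 2) * ∏ i : Fin ((s - 2) / 2), (q ^ (2 * ((i : ℕ) + 1)) - 1)) *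
        ((q : ℕ) ^ ((m - s) ^ 2) * ∏ i : Fin (m - s), (q ^ (2 * ((i : ℕ) + 1)) - 1)) := by
  classical
  have hy := toOG_sq hx
  have hQ := Qplus_nondeg (F := F) m
  have hN : finrank F (LinearMap.range (NQ (toOG (Qplus m F) x))) = s := (NQ_rank x).trans hs
  obtain ⟨v, hvv⟩ := hna
  rw [← NQ_apply'] at hvv
  rw [card_omega_transport]
  generalize toOG (Qplus m F) x = y at *
  obtain ⟨B, hB⟩ := exists_BQ hy
  have hsym := BQ_symm hy hB
  have hnd := BQ_nondeg hy hQ hB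
  have hle := WQ_le hy
  rw [hN] at hle
  have hna' : ∃ z, B z z ≠ 0 := ⟨⟨NQ y v, ⟨v, rfl⟩⟩, by
    rw [BQ_diag hy hB]
    exact hvv⟩
  obtain ⟨l, hl⟩ : ∃ l, s = 2 * (l + 1) := by
    obtain ⟨k, hk⟩ := heven
    have hk0 : k ≠ 0 := by
      rintro rfl
      obtain ⟨z, hz⟩ := hna'
      apply hz
      have : Subsingleton (LinearMap.range (NQ y)) := by
        apply (Module.finrank_zero_iff (R := F)).1
        rw [hN, hk]
      rw [Subsingleton.elim z 0]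
      simp
    exact ⟨k - 1, by omega⟩
  obtain ⟨r, hr⟩ : ∃ r, m = (2 * l + 1) + (r + 1) := ⟨m - s, by omega⟩
  have hmain := main_nonsing h y hy B hB hna' (j₀ := 2 * l + 1) (r := r) (by rw [hN, hl]; ring) hr
  obtain ⟨v₀, hv⟩ := exists_v0 B hsym hnd
  have h1 := card_even hF hnd hv (v0_of_even hnd hv (by rw [hN, hl]; exact ⟨l + 1, by ring⟩)) hna' (k := l + 1) (by rw [hN, hl])
  rw [Finset.prod_range_succ] at h1
  have hq2 : 2 ≤ q := by
    rw [← hF]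
    exact Fintype.one_lt_card
  have hpos : 0 < q ^ (2 * (l + 1)) - 1 := by
    have : 1 < q ^ (2 * (l + 1)) := Nat.one_lt_pow (by omega) (by omega)
    omega
  have h2 : Nat.card (isoG (fun u v : LinearMap.range (NQ y) => B u v)) = q ^ ((l + 1) ^ 2) * ∏ i ∈ Finset.range l, (q ^ (2 * (i + 1)) - 1) :=
    Nat.eq_of_mul_eq_mul_right hpos (by rw [h1, mul_assoc])
  rw [hmain, h2, hF]
  have e0 : s = (2 * l + 1) + 1 := by omega
  rw [e0, hr]
  have e1 : 2 * l + 1 + 1 - 1 = 2 * l + 1 := by omega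
  have e2 : (2 * l + 1 + 1 - 2) / 2 = l := by omega
  have e3 : 2 * l + 1 + (r + 1) - (2 * l + 1 + 1) = r := by omega
  have e4 := exp_eq4 (2 * l + 1) r (by omega)
  rw [e1, e2, e3, e4, Fin.prod_univ_eq_prod_range (fun i => q ^ (2 * (i + 1)) - 1) l, Fin.prod_univ_eq_prod_range (fun i => q ^ (2 * (i + 1)) - 1) r]
  unfold PP
  have e5 : (l + 1) ^ 2 = l ^ 2 + (2 * l + 1) := by ring
  rw [e5, pow_add, pow_add q (2 * (2 * l + 1) * r + (2 * l + 1) * (2 * l + 1 + 1) / 2) (2 * l + 1)]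
  ring

end Cfsg.Agent.Lib.Known3.InvC
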