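import Mathlib
import Cfsg.Agent.Lib.Known3.InvO5

/-! The Dickson invariant on the stabiliser of a maximal totally singular subspace, and the type `a_s`. -/

set_option autoImplicit false
set_option linter.unusedVariables false
set_option linter.unusedSectionVars false

namespace Cfsg.Agent.Lib.Known3.InvC

open Module Cfsg.Agent.Lib.Classical Cfsg.Agent.Lib.Classical.Abs Cfsg.Agent.Lib.Classical.Witt Cfsg.Agent.Lib.Classical.Orth Cfsg.Agent.Lib.Classical.Frames
open Cfsg.Agent.Lib.Known3.Graph (two_eq' alt_even)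

local notation "P" => QuadraticMap.polarBilin

section lin

variable {F V V' : Type*} [Field F] [AddCommGroup V] [Module F V] [FiniteDimensional F V] [AddCommGroup V'] [Module F V'] [FiniteDimensional F V']

lemma finrank_map_ker (T : V →ₗ[F] V') (S : Submodule F V) :
    finrank F (S.map T) + finrank F ↥(S ⊓ LinearMap.ker T) = finrank F S := by
  have h := LinearMap.finrank_range_add_finrank_ker (T.domRestrict S)
  rw [LinearMap.range_domRestrict, LinearMap.ker_domRestrict] at h
  have h2 : finrank F ↥((LinearMap.ker T).comap S.subtype) = finrank F ↥(S ⊓ LinearMap.ker T) := by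
    rw [← Submodule.finrank_map_subtype_eq S, Submodule.map_comap_subtype]
  rw [h2] at h
  exact h

end lin

section main

variable {F V : Type*} [Field F] [Fintype F] [CharP F 2] [AddCommGroup V] [Module F V] [FiniteDimensional F V]

/-- Parity of the radical of an alternating form. -/
lemma alt_radical_parity {X : Type*} [AddCommGroup X] [Module F X] [FiniteDimensional F X] (χ : LinearMap.BilinForm F X) (hA : χ.IsAlt) (Rd : Submodule F X)
    (hRd : ∀ z, z ∈ Rd ↔ ∀ y, χ y z = 0) : Even (finrank F X + finrank F Rd) := by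
  classical
  obtain ⟨K, hK⟩ := Submodule.exists_isCompl Rd
  have hanti := alt_antisymm χ hA
  have hdec : ∀ y : X, ∃ r ∈ Rd, ∃ k ∈ K, r + k = y := by
    intro y
    have h1 : y ∈ Rd ⊔ K := by
      rw [hK.sup_eq_top]
      trivial
    obtain ⟨r, hr, k, hk, hrk⟩ := Submodule.mem_sup.1 h1
    exact ⟨r, hr, k, hk, hrk⟩
  have hR : (χ.restrict K).SeparatingRight := by
    intro a ha
    apply Subtype.ext
    have h1 : (a : X) ∈ Rd := by
      rw [hRd]
      intro y
      obtain ⟨r, hr, k, hk, rfl⟩ := hdec y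
      rw [map_add, LinearMap.add_apply]
      have h2 : χ k a = 0 := ha ⟨k, hk⟩
      have h3 : χ a r = 0 := (hRd r).1 hr a
      rw [h2, add_zero, hanti, h3, neg_zero]
    have h4 : (a : X) ∈ Rd ⊓ K := ⟨h1, a.2⟩
    rw [hK.inf_eq_bot] at h4
    exact h4
  have hnd : (χ.restrict K).Nondegenerate := by
    refine ⟨?_, hR⟩
    intro a ha
    apply hR
    intro b
    have h1 : χ a b = 0 := ha b
    change χ b a = 0
    rw [hanti, h1, neg_zero]
  have h5 := alt_even _ hnd (fun w => hA w)
  have h6 := Submodule.finrank_add_eq_of_isCompl hK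
  rw [← h6]
  obtain ⟨t, ht⟩ := h5
  exact ⟨finrank F Rd + t, by omega⟩

/-- The Dickson parity on the stabiliser of a maximal totally singular subspace. -/
theorem wall_even {Q : QuadraticForm F V} (hQ : (P Q).Nondegenerate) (g : OG Q) (W : Submodule F V) (hPW : ∀ y ∈ W, ∀ z ∈ W, P Q y z = 0) (hQW : ∀ y ∈ W, Q y = 0)
    (hdim : 2 * finrank F W = finrank F V) (hg : ∀ y ∈ W, g.1 y ∈ W) : Even (finrank F (LinearMap.range (NQ g))) := by
  classical
  have h2 := two_eq' (F := F)
  set T := NQ g with hT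
  have hadj : ∀ u w, P Q u (T w) = - P Q (T u) (g.1 w) := by
    intro u w
    rw [hT, NQ_apply, NQ_apply, map_sub, map_sub, LinearMap.sub_apply, OG_polar]
    ring
  have hker : ∀ z, z ∈ LinearMap.ker T ↔ g.1 z = z := by
    intro z
    rw [LinearMap.mem_ker, hT, NQ_apply, sub_eq_zero]
  have hperp : ∀ z ∈ LinearMap.ker T, ∀ v, P Q z (T v) = 0 := by
    intro z hz v
    have h3 := (hker z).1 hz
    rw [hadj, show T z = 0 from hz]
    simp
  -- orthogonals
  let O := LinearMap.BilinForm.orthogonal (P Q)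
  have hfo : ∀ S : Submodule F V, finrank F (O S) + finrank F S = finrank F V := by
    intro S
    have h3 : finrank F (O S) = finrank F V - finrank F S := LinearMap.BilinForm.finrank_orthogonal hQ S
    have h4 : finrank F S ≤ finrank F V := Submodule.finrank_le S
    omega
  have hmemO : ∀ (S : Submodule F V) (x : V), x ∈ O S ↔ ∀ n ∈ S, P Q n x = 0 := by
    intro S x
    exact LinearMap.BilinForm.mem_orthogonal_iff
  have hWW : O W = W := by
    symm
    apply Submodule.eq_of_le_of_finrank_eq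
    · intro y hy
      rw [hmemO]
      intro n hn
      exact hPW n hn y hy
    · have := hfo W
      omega
  have hR : O (LinearMap.ker T) = LinearMap.range T := by
    symm
    apply Submodule.eq_of_le_of_finrank_eq
    · rintro _ ⟨v, rfl⟩
      rw [hmemO]
      intro n hn
      exact hperp n hn v
    · have h3 := hfo (LinearMap.ker T)
      have h4 := LinearMap.finrank_range_add_finrank_ker T
      omega
  set R := LinearMap.range T with hRdef
  set A := LinearMap.ker T ⊔ W with hA
  have hAO : O A = R ⊓ W := by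
    ext x
    rw [Submodule.mem_inf]
    constructor
    · intro hx
      rw [hmemO] at hx
      refine ⟨?_, ?_⟩
      · rw [← hR, hmemO]
        intro n hn
        exact hx n (Submodule.mem_sup_left hn)
      · rw [← hWW, hmemO]
        intro n hn
        exact hx n (Submodule.mem_sup_right hn)
    · rintro ⟨h3, h4⟩
      rw [hmemO]
      intro n hn
      obtain ⟨a, ha, w, hw, rfl⟩ := Submodule.mem_sup.1 hn
      rw [← hR, hmemO] at h3
      rw [← hWW, hmemO] at h4
      rw [map_add, LinearMap.add_apply, h3 a ha, h4 w hw, add_zero]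
  have d1 := hfo A
  rw [hAO] at d1
  have d2 := Submodule.finrank_sup_add_finrank_inf_eq (LinearMap.ker T) W
  rw [← hA] at d2
  have d3 := finrank_map_ker T W
  rw [inf_comm] at d3
  have d4 := LinearMap.finrank_range_add_finrank_ker T
  rw [← hRdef] at d4
  have key1 : finrank F R = finrank F ↥(R ⊓ W) + finrank F (W.map T) := by
    omega
  -- the preimage
  set U₀ := W.comap T with hU₀
  have d5 := finrank_map_ker T U₀
  have h5 : U₀.map T = R ⊓ W := by
    rw [hU₀, Submodule.map_comap_eq, hRdef]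
  have h6 : U₀ ⊓ LinearMap.ker T = LinearMap.ker T := by
    apply inf_eq_right.2
    intro z hz
    change T z ∈ W
    rw [show T z = 0 from hz]
    exact W.zero_mem
  rw [h5, h6] at d5
  have h7 : W.map T ≤ O U₀ := by
    rintro _ ⟨w, hw, rfl⟩
    rw [hmemO]
    intro u hu
    rw [hadj]
    have h8 : T u ∈ W := hu
    rw [hPW _ h8 _ (hg w hw), neg_zero]
  have h8 : W.map T = O U₀ := by
    apply Submodule.eq_of_le_of_finrank_eq h7
    have := hfo U₀
    omega
  have hR₁ : W.map T ≤ R ⊓ W := by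
    rintro _ ⟨w, hw, rfl⟩
    refine ⟨⟨w, rfl⟩, ?_⟩
    rw [hT, NQ_apply]
    exact W.sub_mem (hg w hw) hw
  -- the alternating form
  obtain ⟨σ₀, hσ₀⟩ := LinearMap.exists_rightInverse_of_surjective T.rangeRestrict (LinearMap.range_rangeRestrict T)
  let σ : ↥(R ⊓ W) →ₗ[F] V := σ₀ ∘ₗ Submodule.inclusion (inf_le_left : R ⊓ W ≤ R)
  have hσ : ∀ y : ↥(R ⊓ W), T (σ y) = y := by
    intro y
    have h1 := LinearMap.congr_fun hσ₀ (Submodule.inclusion (inf_le_left : R ⊓ W ≤ R) y)
    exact congrArg Subtype.val h1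
  let χ : LinearMap.BilinForm F ↥(R ⊓ W) := (P Q).compl₁₂ σ (R ⊓ W).subtype
  have hχ : ∀ y z : ↥(R ⊓ W), χ y z = P Q (σ y) z := fun y z => rfl
  have hAlt : χ.IsAlt := by
    intro z
    rw [hχ]
    have h9 := Q_N g (σ z)
    rw [← hT, hσ, hQW _ z.2.2] at h9
    rw [pol_comm]
    exact h9.symm
  have hRd : ∀ z, z ∈ (W.map T).comap (R ⊓ W).subtype ↔ ∀ y, χ y z = 0 := by
    intro z
    constructor
    · intro hz y
      obtain ⟨w, hw, hwz⟩ := hz
      have hz' : (z : V) = T w := hwz.symm
      rw [hχ, hz', hadj, hσ, hPW _ y.2.2 _ (hg w hw), neg_zero]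
    · intro hz
      change (z : V) ∈ W.map T
      rw [h8, hmemO]
      intro u hu
      have hTu : T u ∈ R ⊓ W := ⟨⟨u, rfl⟩, hu⟩
      have h10 := hz ⟨T u, hTu⟩
      rw [hχ] at h10
      have h11 : σ ⟨T u, hTu⟩ - u ∈ LinearMap.ker T := by
        rw [LinearMap.mem_ker, map_sub, hσ, sub_self]
      obtain ⟨v, hv⟩ := z.2.1
      have h12 := hperp _ h11 v
      rw [hv, map_sub, LinearMap.sub_apply, h10, zero_sub, neg_eq_zero] at h12
      exact h12
  have hpar := alt_radical_parity χ hAlt _ hRd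
  have h13 : finrank F ↥((W.map T).comap (R ⊓ W).subtype) = finrank F (W.map T) :=
    LinearEquiv.finrank_eq (Submodule.comapSubtypeEquivOfLe hR₁)
  rw [h13, ← key1] at hpar
  exact hpar

end main

section final

variable {F : Type*} [Field F] [Fintype F] [CharP F 2] {m : ℕ}

lemma exp_eq5 (s r : ℕ) : 2 * (s + r) * s - (3 * s ^ 2 + s) / 2 = 2 * s * r + s * (s - 1) / 2 := by
  obtain ⟨U, hU⟩ : ∃ U, s * (s - 1) = 2 * U := by
    obtain ⟨U, hU⟩ := Nat.even_mul_pred_self s
    exact ⟨U, by omega⟩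
  have h2 : s * (s - 1) / 2 = U := by omega
  rw [h2]
  have h3 : s * s = 2 * U + s := by
    rw [← hU]
    cases s with
    | zero => simp
    | succ t =>
      have : t + 1 - 1 = t := by omega
      rw [this]
      ring
  have h4 : 2 * (s + r) * s = 2 * (s * s) + 2 * s * r := by ring
  have h5 : s ^ 2 = s * s := by ring
  rw [h4, h5, h3]
  omega

/-- Type `a_s`. -/
theorem main_a {q : ℕ} (hF : Fintype.card F = q) {s : ℕ} (h : Fintype.card F ≠ 2 ∨ m ≠ 2) (x : Cfsg.isometryGroup F ⇑(Qplus m F)) (hx : x ^ 2 = 1) (hx1 : x ≠ 1)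
    (hs : (((x : Matrix.GeneralLinearGroup (Fin m ⊕ Fin m) F) : Matrix (Fin m ⊕ Fin m) (Fin m ⊕ Fin m) F) - 1).rank = s) (heven : Even s)
    (halt : ∀ v : Fin m ⊕ Fin m → F, Qplus m F ((((x : Matrix.GeneralLinearGroup (Fin m ⊕ Fin m) F) : Matrix (Fin m ⊕ Fin m) (Fin m ⊕ Fin m) F) - 1).mulVec v) = 0) :
    Nat.card {g : Cfsg.Omega F ⇑(Qplus m F) // (g : Cfsg.isometryGroup F ⇑(Qplus m F)) * x = x * g} =
      q ^ (2 * m * s - (3 * s ^ 2 + s) / 2) * ((q : ℕ) ^ ((s / 2) ^ 2) * ∏ i : Fin (s / 2), (q ^ (2 * ((i : ℕ) + 1)) - 1)) *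
        (if s = m then 1 else q ^ ((m - s) * (m - s - 1)) * (q ^ (m - s) - 1) * ∏ i : Fin (m - s - 1), (q ^ (2 * ((i : ℕ) + 1)) - 1)) := by
  classical
  have hy := toOG_sq hx
  have hQ := Qplus_nondeg (F := F) m
  have hN : finrank F (LinearMap.range (NQ (toOG (Qplus m F) x))) = s := (NQ_rank x).trans hs
  have hy1 : toOG (Qplus m F) x ≠ 1 := by
    intro h1
    apply hx1
    apply (toOG (Qplus m F)).injective
    rw [h1, map_one]
  have halt' : ∀ v, Qplus m F (NQ (toOG (Qplus m F) x) v) = 0 := by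
    intro v
    rw [NQ_apply']
    exact halt v
  rw [card_omega_transport]
  generalize toOG (Qplus m F) x = y at *
  obtain ⟨B, hB⟩ := exists_BQ hy
  have hsym := BQ_symm hy hB
  have hnd := BQ_nondeg hy hQ hB
  have hle := WQ_le hy
  rw [hN] at hle
  have hs0 : 1 ≤ s := by
    by_contra hc
    have hs0 : s = 0 := by omega
    apply hy1
    apply OG_ext
    intro v
    have h1 : Subsingleton (LinearMap.range (NQ y)) := by
      apply (Module.finrank_zero_iff (R := F)).1
      rw [hN, hs0]
    have h2 : (⟨NQ y v, ⟨v, rfl⟩⟩ : LinearMap.range (NQ y)) = 0 := Subsingleton.elim _ _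
    have h3 : NQ y v = 0 := congrArg Subtype.val h2
    exact sub_eq_zero.1 h3
  have hm1 : 1 ≤ m := by omega
  have hWQ : ∀ z ∈ LinearMap.range (NQ y), Qplus m F z = 0 := by
    rintro _ ⟨v, rfl⟩
    exact halt' v
  have hAlt : B.IsAlt := by
    intro z
    rw [BQ_diag hy hB]
    exact hWQ _ z.2
  obtain ⟨k, hk⟩ : ∃ k, s = 2 * k := by
    obtain ⟨k, hk⟩ := heven
    exact ⟨k, by omega⟩
  have hk2 : s / 2 = k := by omega
  have h1 := card_isoG_alt q hF k _ B hnd hAlt (by rw [hN, hk])
  obtain ⟨r, rfl⟩ : ∃ r, m = s + r := ⟨m - s, by omega⟩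
  have hfix := fix_a rfl (LinearMap.range (NQ y)) (WQ_ti hy) hWQ hN
  have hcent := card_centO hy hQ hB
  rw [hfix, h1] at hcent
  obtain ⟨D, hD, hDr, hDk⟩ := comm_eq_ker (F := F) h hm1
  rw [hD, hk2, Fin.prod_univ_eq_prod_range (fun i => q ^ (2 * (i + 1)) - 1) k, exp_eq5 s r]
  haveI := finite_OG (F := F) (m := s + r)
  rw [hF] at hcent
  by_cases hr0 : r = 0
  · subst hr0
    have hall : ∀ g : OG (Qplus (s + 0) F), g * y = y * g → D g = 1 := by
      intro g hg
      have hgC : g ∈ Subgroup.centralizer ({y} : Set (OG (Qplus (s + 0) F))) := Subgroup.mem_centralizer_singleton_iff.2 hg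
      have h3 := wall_even hQ g (LinearMap.range (NQ y)) (WQ_ti hy) hWQ (by
        rw [hN]
        simp [two_mul]) (fun z hz => actQ_mem hy hB hgC z hz)
      rw [hDk, dk]
      have h4 := LinearMap.finrank_range_add_finrank_ker (NQ g)
      have h5 : finrank F ↥(Fx g) = finrank F ↥(LinearMap.ker (NQ g)) := rfl
      have h6 : Even (finrank F (Fin (s + 0) ⊕ Fin (s + 0) → F) + finrank F ↥(Fx g)) := by
        obtain ⟨a, ha⟩ := h3
        rw [h5, ← h4, ha]
        exact ⟨a + finrank F ↥(LinearMap.ker (NQ g)), by ring⟩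
      exact h6.neg_one_pow
    have e0 : s = s + 0 := rfl
    rw [card_full D y hall, hcent, if_pos e0]
    have hOP0 : OP F 0 = 1 := by
      have : Subsingleton (OG (Qplus 0 F)) := by
        constructor
        intro a b
        apply Subtype.ext
        apply LinearEquiv.ext
        intro v
        exact Subsingleton.elim _ _
      exact Nat.card_unique
    rw [hOP0]
    ring_nf
  · obtain ⟨t, rfl⟩ : ∃ t, r = t + 1 := ⟨r - 1, by omega⟩
    have hu : ∃ u, (∀ n ∈ LinearMap.range (NQ y), P (Qplus (s + (t + 1)) F) n u = 0) ∧ Qplus (s + (t + 1)) F u ≠ 0 := by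
      by_contra hc
      push Not at hc
      let O := LinearMap.BilinForm.orthogonal (P (Qplus (s + (t + 1)) F))
      have hfo : ∀ S : Submodule F (Fin (s + (t + 1)) ⊕ Fin (s + (t + 1)) → F), finrank F (O S) + finrank F S = 2 * (s + (t + 1)) := by
        intro S
        have h3 : finrank F (O S) = finrank F (Fin (s + (t + 1)) ⊕ Fin (s + (t + 1)) → F) - finrank F S := LinearMap.BilinForm.finrank_orthogonal hQ S
        have h4 : finrank F S ≤ finrank F (Fin (s + (t + 1)) ⊕ Fin (s + (t + 1)) → F) := Submodule.finrank_le S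
        have h5 : finrank F (Fin (s + (t + 1)) ⊕ Fin (s + (t + 1)) → F) = 2 * (s + (t + 1)) := by simp [two_mul]
        omega
      have hmemO : ∀ (S : Submodule F (Fin (s + (t + 1)) ⊕ Fin (s + (t + 1)) → F)) (x), x ∈ O S ↔ ∀ n ∈ S, P (Qplus (s + (t + 1)) F) n x = 0 := by
        intro S x
        exact LinearMap.BilinForm.mem_orthogonal_iff
      have hQ0 : ∀ u ∈ O (LinearMap.range (NQ y)), Qplus (s + (t + 1)) F u = 0 := fun u hu => hc u ((hmemO _ _).1 hu)
      have hle2 : O (LinearMap.range (NQ y)) ≤ O (O (LinearMap.range (NQ y))) := by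
        intro a ha
        rw [hmemO]
        intro b hb
        have h3 := Q_add (Qplus (s + (t + 1)) F) b a
        rw [hQ0 _ ha, hQ0 _ hb, hQ0 _ (Submodule.add_mem _ hb ha)] at h3
        simpa using h3.symm
      have h3 := Submodule.finrank_mono hle2
      have h4 := hfo (LinearMap.range (NQ y))
      have h5 := hfo (O (LinearMap.range (NQ y)))
      rw [hN] at h4
      omega
    obtain ⟨u, hu1, hu0⟩ := hu
    have hcc := fixQ_comm hy hQ hB (g := refl (Qplus (s + (t + 1)) F) u hu0) (fun p hp => refl_fix hu0 (by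
      rw [pol_comm]
      exact hu1 p hp))
    have h2 := card_half D y (refl _ u hu0) (Subgroup.mem_centralizer_singleton_iff.1 hcc) (hDr _ hu0)
    rw [hcent] at h2
    have hOP : OP F (t + 1) = 2 * (q ^ ((t + 1) * t) * (q ^ (t + 1) - 1) * ∏ i ∈ Finset.range t, (q ^ (2 * (i + 1)) - 1)) := by
      have h5 := Qplus_order (F := F) t
      rw [hF] at h5
      have h6 : OP F (t + 1) = Nat.card (isoG (fun u _ : Fin (t + 1) ⊕ Fin (t + 1) → F => Qplus (t + 1) F u)) := rfl
      rw [h6, h5]
      ring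
    rw [hOP] at h2
    have e0 : s ≠ s + (t + 1) := by omega
    have e1 : s + (t + 1) - s = t + 1 := by omega
    have e2 : t + 1 - 1 = t := by omega
    rw [if_neg e0, e1, e2, Fin.prod_univ_eq_prod_range (fun i => q ^ (2 * (i + 1)) - 1) t]
    apply Nat.eq_of_mul_eq_mul_right (show 0 < 2 by norm_num)
    rw [h2]
    ring

end final

end Cfsg.Agent.Lib.Known3.InvC
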