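import Cfsg.Prelude.Def_Classical
import Mathlib

set_option autoImplicit false

namespace Cfsg.Agent.Lib.Known3.Iso

open Matrix

/-- Group homomorphisms preserve commutator subgroups. -/
theorem map_mem_commutator {G H : Type*} [Group G] [Group H] (f : G →* H) {x : G}
    (hx : x ∈ commutator G) : f x ∈ commutator H := by
  have : commutator G ≤ (commutator H).comap f := by
    rw [commutator_def, Subgroup.commutator_le]
    intro a _ b _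
    rw [Subgroup.mem_comap, map_commutatorElement]
    exact Subgroup.commutator_mem_commutator (Subgroup.mem_top _) (Subgroup.mem_top _)
  exact this hx

variable (F : Type*) [Field F] {ι₁ ι₂ : Type} [Fintype ι₁] [Fintype ι₂] [DecidableEq ι₁] [DecidableEq ι₂]

/-- Membership in the isometry group, unfolded. -/
theorem mem_isometryGroup_iff {ι : Type} [Fintype ι] [DecidableEq ι] {Q : (ι → F) → F}
    {g : Matrix.GeneralLinearGroup ι F} :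
    g ∈ Cfsg.isometryGroup F Q ↔ ∀ v, Q ((g : Matrix ι ι F) *ᵥ v) = Q v :=
  ⟨fun h v => h v 0, fun h u _ => h u⟩

/-- The block diagonal map on matrices, as a monoid homomorphism. -/
def blockMat (ι₁ ι₂ : Type) [Fintype ι₁] [Fintype ι₂] [DecidableEq ι₁] [DecidableEq ι₂] :
    (Matrix ι₁ ι₁ F × Matrix ι₂ ι₂ F) →* Matrix (ι₁ ⊕ ι₂) (ι₁ ⊕ ι₂) F where
  toFun p := Matrix.fromBlocks p.1 0 0 p.2
  map_one' := Matrix.fromBlocks_one
  map_mul' p q := by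
    simp [Matrix.fromBlocks_multiply]

variable {F}

/-- A block diagonal matrix of isometries is an isometry of the orthogonal sum. -/
theorem block_isometry {Q₁ : (ι₁ → F) → F} {Q₂ : (ι₂ → F) → F} {A : Matrix ι₁ ι₁ F} {D : Matrix ι₂ ι₂ F}
    (hA : ∀ v, Q₁ (A *ᵥ v) = Q₁ v) (hD : ∀ v, Q₂ (D *ᵥ v) = Q₂ v) (v : ι₁ ⊕ ι₂ → F) :
    Q₁ ((Matrix.fromBlocks A 0 0 D *ᵥ v) ∘ Sum.inl) + Q₂ ((Matrix.fromBlocks A 0 0 D *ᵥ v) ∘ Sum.inr)
      = Q₁ (v ∘ Sum.inl) + Q₂ (v ∘ Sum.inr) := by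
  rw [Matrix.fromBlocks_mulVec]
  have e1 : (Sum.elim (A *ᵥ (v ∘ Sum.inl) + (0 : Matrix ι₁ ι₂ F) *ᵥ (v ∘ Sum.inr))
      ((0 : Matrix ι₂ ι₁ F) *ᵥ (v ∘ Sum.inl) + D *ᵥ (v ∘ Sum.inr)) ∘ Sum.inl) = A *ᵥ (v ∘ Sum.inl) := by
    funext i; simp
  have e2 : (Sum.elim (A *ᵥ (v ∘ Sum.inl) + (0 : Matrix ι₁ ι₂ F) *ᵥ (v ∘ Sum.inr))
      ((0 : Matrix ι₂ ι₁ F) *ᵥ (v ∘ Sum.inl) + D *ᵥ (v ∘ Sum.inr)) ∘ Sum.inr) = D *ᵥ (v ∘ Sum.inr) := by
    funext i; simp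
  rw [e1, e2, hA, hD]

/-- The block diagonal embedding of the product of two isometry groups into the isometry group of the
orthogonal sum. -/
noncomputable def blockIso (F : Type*) [Field F] {ι₁ ι₂ : Type} [Fintype ι₁] [Fintype ι₂] [DecidableEq ι₁] [DecidableEq ι₂]
    (Q₁ : (ι₁ → F) → F) (Q₂ : (ι₂ → F) → F) :
    ↥(Cfsg.isometryGroup F Q₁) × ↥(Cfsg.isometryGroup F Q₂) →*
      ↥(Cfsg.isometryGroup F (fun v : ι₁ ⊕ ι₂ → F => Q₁ (v ∘ Sum.inl) + Q₂ (v ∘ Sum.inr))) :=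
  MonoidHom.codRestrict
    (MonoidHom.toHomUnits
      ((blockMat F ι₁ ι₂).comp
        (MonoidHom.prodMap
          ((Units.coeHom (Matrix ι₁ ι₁ F)).comp (Cfsg.isometryGroup F Q₁).subtype)
          ((Units.coeHom (Matrix ι₂ ι₂ F)).comp (Cfsg.isometryGroup F Q₂).subtype))))
    _
    (by
      rintro ⟨g₁, g₂⟩
      rw [mem_isometryGroup_iff]
      intro v
      exact block_isometry ((mem_isometryGroup_iff F).1 g₁.2) ((mem_isometryGroup_iff F).1 g₂.2) v)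

@[simp]
theorem blockIso_val {F : Type*} [Field F] {ι₁ ι₂ : Type} [Fintype ι₁] [Fintype ι₂] [DecidableEq ι₁] [DecidableEq ι₂]
    (Q₁ : (ι₁ → F) → F) (Q₂ : (ι₂ → F) → F)
    (p : ↥(Cfsg.isometryGroup F Q₁) × ↥(Cfsg.isometryGroup F Q₂)) :
    (((blockIso F Q₁ Q₂ p : ↥(Cfsg.isometryGroup F (fun v : ι₁ ⊕ ι₂ → F => Q₁ (v ∘ Sum.inl) + Q₂ (v ∘ Sum.inr)))) :
      Matrix.GeneralLinearGroup (ι₁ ⊕ ι₂) F) : Matrix (ι₁ ⊕ ι₂) (ι₁ ⊕ ι₂) F)
      = Matrix.fromBlocks ((p.1 : Matrix.GeneralLinearGroup ι₁ F) : Matrix ι₁ ι₁ F) 0 0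
          ((p.2 : Matrix.GeneralLinearGroup ι₂ F) : Matrix ι₂ ι₂ F) := rfl

end Cfsg.Agent.Lib.Known3.Iso
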