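import Mathlib
import Cfsg.Agent.Lib.Known3.PSLBasic

/-! Elements of order three in `PSL_3(4)`. -/

set_option autoImplicit false

namespace Cfsg.Agent.Lib.Known3.PSL34

open Matrix Polynomial Cfsg.Agent.Lib.Known3.PSLBasic

variable {F : Type*} [Field F] [Fintype F]

lemma cube_eq_one (hF : Fintype.card F = 4) (c : F) (hc : c ≠ 0) : c ^ 3 = 1 := by
  have := FiniteField.pow_card_sub_one_eq_one c hc
  rwa [hF] at this

lemma char_two (hF : Fintype.card F = 4) : (2 : F) = 0 := by
  have h : ((Fintype.card F : ℕ) : F) = 0 := Nat.cast_card_eq_zero F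
  rw [hF] at h
  have h2 : (2 : F) ^ 2 = 0 := by
    rw [← h]; norm_num
  exact pow_eq_zero_iff (by norm_num) |>.1 h2

lemma exists_omega (hF : Fintype.card F = 4) : ∃ w : F, w ≠ 1 ∧ w ≠ 0 ∧ w ^ 3 = 1 ∧ w ^ 2 + w + 1 = 0 := by
  classical
  obtain ⟨w, hw⟩ : ∃ w : F, w ∉ ({0, 1} : Finset F) := by
    by_contra hcon
    push Not at hcon
    have h1 : (Finset.univ : Finset F) ⊆ {0, 1} := fun x _ => hcon x
    have h2 := Finset.card_le_card h1
    have h3 : ({0, 1} : Finset F).card ≤ 2 := Finset.card_le_two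
    rw [Finset.card_univ, hF] at h2
    omega
  simp only [Finset.mem_insert, Finset.mem_singleton, not_or] at hw
  have h3 := cube_eq_one hF w hw.1
  refine ⟨w, hw.2, hw.1, h3, ?_⟩
  have h4 : (w - 1) * (w ^ 2 + w + 1) = 0 := by linear_combination h3
  rcases mul_eq_zero.1 h4 with h5 | h5
  · exact absurd (sub_eq_zero.1 h5) hw.2
  · exact h5

lemma charpoly_eq (hF : Fintype.card F = 4) (d : Matrix (Fin 3) (Fin 3) F) (hdet : d.det = 1) (c : F)
    (hc : d ^ 3 = c • 1) (hns : ¬ ∃ r : F, d = r • 1) : c = 1 ∧ d.charpoly = X ^ 3 - 1 := by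
  have h2 := char_two hF
  have hc0 : c ≠ 0 := by
    intro h
    have h1 := congrArg Matrix.det hc
    rw [Matrix.det_pow, hdet, h] at h1
    simp at h1
  have hmon : d.charpoly.Monic := Matrix.charpoly_monic d
  have hdeg : d.charpoly.natDegree = 3 := by
    have := Matrix.charpoly_natDegree_eq_dim d
    simpa using this
  have hdetco : d.charpoly.coeff 0 = -1 := by
    have := Matrix.det_eq_sign_charpoly_coeff d
    simp [hdet] at this
    linear_combination this
  have hc1 : c = 1 := by
    by_contra hne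
    have hirr : Irreducible (X ^ 3 - C c : F[X]) := by
      apply X_pow_sub_C_irreducible_of_prime Nat.prime_three
      intro b hb
      by_cases hb0 : b = 0
      · rw [hb0] at hb
        exact hc0 (by rw [← hb]; norm_num)
      · exact hne (by rw [← hb, cube_eq_one hF b hb0])
    have hmp : minpoly F d = X ^ 3 - C c := by
      symm
      apply minpoly.eq_of_irreducible_of_monic hirr
      · simp [hc, Algebra.algebraMap_eq_smul_one]
      · exact monic_X_pow_sub_C c (by norm_num)
    have hdvd : (X ^ 3 - C c : F[X]) ∣ d.charpoly := by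
      rw [← hmp]
      exact Matrix.minpoly_dvd_charpoly d
    have heq : d.charpoly = X ^ 3 - C c := by
      apply Polynomial.eq_of_monic_of_dvd_of_natDegree_le (monic_X_pow_sub_C c (by norm_num)) hmon hdvd
      rw [hdeg, natDegree_X_pow_sub_C]
    rw [heq] at hdetco
    simp at hdetco
    exact hne hdetco
  subst hc1
  refine ⟨rfl, ?_⟩
  -- expansion of the characteristic polynomial
  have hexp : d.charpoly = X ^ 3 + C (d.charpoly.coeff 2) * X ^ 2 + C (d.charpoly.coeff 1) * X - 1 := by
    ext i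
    by_cases hi : i ≤ 3
    · interval_cases i
      · simp [hdetco, coeff_X, coeff_one, coeff_X_pow]
      · simp [coeff_X, coeff_one, coeff_X_pow, coeff_C_mul]
      · simp [coeff_X, coeff_one, coeff_X_pow, coeff_C_mul]
      · have : d.charpoly.coeff 3 = 1 := by
          have := hmon.coeff_natDegree
          rwa [hdeg] at this
        simp [coeff_X, coeff_one, coeff_X_pow, coeff_C_mul, this]
    · push Not at hi
      rw [coeff_eq_zero_of_natDegree_lt (by omega)]
      have h3 : i ≠ 3 := by omega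
      have h4 : i ≠ 2 := by omega
      have h5 : i ≠ 1 := by omega
      have h6 : i ≠ 0 := by omega
      simp [coeff_X, coeff_one, coeff_X_pow, coeff_C_mul, h3, h4, h5, h6, Ne.symm h5]
  obtain ⟨a, b, hab⟩ : ∃ a b, d.charpoly = X ^ 3 + C a * X ^ 2 + C b * X - 1 := ⟨_, _, hexp⟩
  have hCH := Matrix.aeval_self_charpoly d
  rw [hab] at hCH
  simp [hc, Algebra.algebraMap_eq_smul_one] at hCH
  -- `a • d² + b • d = 0`
  have h1 : a • d ^ 2 + b • d = 0 := by
    have : (1 : Matrix (Fin 3) (Fin 3) F) + a • d ^ 2 + b • d - 1 = 0 := hCH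
    rw [← this]; abel
  have hunit : IsUnit d := (Matrix.isUnit_iff_isUnit_det d).2 (by rw [hdet]; exact isUnit_one)
  have h3 : a • d + b • (1 : Matrix (Fin 3) (Fin 3) F) = 0 := by
    have h4 : (a • d + b • (1 : Matrix (Fin 3) (Fin 3) F)) * d = 0 := by
      rw [← h1]
      simp [add_mul, pow_two]
    exact (hunit.mul_left_eq_zero).1 h4
  by_cases ha : a = 0
  · have hb : b = 0 := by
      by_contra hb
      have h5 := h3
      rw [ha, zero_smul, zero_add] at h5
      have h6 := (smul_eq_zero.1 h5).resolve_left hb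
      have := congrArg Matrix.det h6
      simp at this
    rw [hab, ha, hb]
    simp
  · exfalso
    apply hns
    refine ⟨-(a⁻¹ * b), ?_⟩
    have h5 : a • d = -(b • (1 : Matrix (Fin 3) (Fin 3) F)) := by
      rw [eq_neg_iff_add_eq_zero]; exact h3
    calc d = a⁻¹ • (a • d) := by rw [smul_smul, inv_mul_cancel₀ ha, one_smul]
      _ = _ := by rw [h5, smul_neg, smul_smul, neg_smul]

/-- Eigenvectors. -/
lemma exists_eigenvector (d : Matrix (Fin 3) (Fin 3) F) (hχ : d.charpoly = X ^ 3 - 1) (l : F)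
    (hl : l ^ 3 = 1) : ∃ v : Fin 3 → F, v ≠ 0 ∧ d *ᵥ v = l • v := by
  have h1 : (Matrix.scalar (Fin 3) l - d).det = 0 := by
    rw [← Matrix.eval_charpoly, hχ]
    simp [hl]
  obtain ⟨v, hv, hv2⟩ := Matrix.exists_mulVec_eq_zero_iff.2 h1
  refine ⟨v, hv, ?_⟩
  rw [Matrix.sub_mulVec, sub_eq_zero] at hv2
  rw [← hv2]
  ext i
  simp [Matrix.scalar_apply, Matrix.mulVec_diagonal]

/-- The standard form of a nonscalar element with `d³ = c`. -/
theorem exists_diag (hF : Fintype.card F = 4) (w : F) (hw1 : w ≠ 1) (hw3 : w ^ 3 = 1) (hw : w ^ 2 + w + 1 = 0)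
    (d : Matrix (Fin 3) (Fin 3) F) (hdet : d.det = 1) (c : F)
    (hc : d ^ 3 = c • 1) (hns : ¬ ∃ r : F, d = r • 1) :
    ∃ P : Matrix (Fin 3) (Fin 3) F, IsUnit P ∧ d * P = P * Matrix.diagonal ![1, w, w ^ 2] := by
  obtain ⟨-, hχ⟩ := charpoly_eq hF d hdet c hc hns
  have h2 := char_two hF
  have hw2 : w ^ 2 ≠ w := by
    intro h
    apply hw1
    have hw0 : w ≠ 0 := by
      intro h0
      rw [h0] at hw3
      simp at hw3
    have : w * (w - 1) = 0 := by linear_combination h
    exact sub_eq_zero.1 ((mul_eq_zero.1 this).resolve_left hw0)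
  have hw3' : w ^ 2 ≠ 1 := by
    intro h
    apply hw1
    have : w * w ^ 2 = 1 := by rw [← pow_succ']; exact hw3
    rw [h, mul_one] at this
    exact this
  obtain ⟨v₁, hv₁, hd₁⟩ := exists_eigenvector d hχ 1 (by norm_num)
  obtain ⟨v₂, hv₂, hd₂⟩ := exists_eigenvector d hχ w hw3
  obtain ⟨v₃, hv₃, hd₃⟩ := exists_eigenvector d hχ (w ^ 2) (by rw [← pow_mul, mul_comm, pow_mul, hw3, one_pow])
  let v : Fin 3 → (Fin 3 → F) := ![v₁, v₂, v₃]
  let μ : Fin 3 → F := ![1, w, w ^ 2]
  have hμ : Function.Injective μ := by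
    intro i j hij
    fin_cases i <;> fin_cases j <;> first
      | rfl
      | exact absurd (show (1:F) = w from hij) (Ne.symm hw1)
      | exact absurd (show (1:F) = w^2 from hij) (Ne.symm hw3')
      | exact absurd (show w = 1 from hij) hw1
      | exact absurd (show w = w^2 from hij) (Ne.symm hw2)
      | exact absurd (show w^2 = 1 from hij) hw3'
      | exact absurd (show w^2 = w from hij) hw2
  have hev : ∀ i, Module.End.HasEigenvector (Matrix.mulVecLin d) (μ i) (v i) := by
    intro i
    rw [Module.End.hasEigenvector_iff, Module.End.mem_eigenspace_iff]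
    fin_cases i
    · exact ⟨hd₁, hv₁⟩
    · exact ⟨hd₂, hv₂⟩
    · exact ⟨hd₃, hv₃⟩
  have hli : LinearIndependent F v := Module.End.eigenvectors_linearIndependent' _ μ hμ v hev
  let P : Matrix (Fin 3) (Fin 3) F := Matrix.of (fun i j => v j i)
  refine ⟨P, ?_, ?_⟩
  · have : P = (Matrix.of v)ᵀ := rfl
    rw [this, Matrix.isUnit_transpose]
    exact Matrix.linearIndependent_rows_iff_isUnit.1 hli
  · ext i j
    rw [Matrix.mul_diagonal]
    have h3 : (d * P) i j = (d *ᵥ v j) i := rfl
    rw [h3]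
    have h4 : d *ᵥ v j = μ j • v j := (hev j).1 |> Module.End.mem_eigenspace_iff.1
    rw [h4]
    change μ j * v j i = v j i * μ j
    ring

end Cfsg.Agent.Lib.Known3.PSL34
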