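import Mathlib
import Cfsg.Agent.Lib.Known3.Dichotomy

/-! Every endomorphism of a finite-dimensional space is self-adjoint for some non-degenerate
bilinear form; hence every square matrix is conjugate to its transpose. -/

namespace Cfsg.Agent.Lib.Known3.SelfDual

open Polynomial Module
open scoped Matrix

universe u v

variable {F : Type u} [Field F]

/-- The cyclic primary case. -/
theorem selfDual_cyclic {V : Type v} [AddCommGroup V] [Module F V] [FiniteDimensional F V]
    (T : V →ₗ[F] V) {p : F[X]} {e : ℕ} {v₀ : V} (hp : Irreducible p) (he : 1 ≤ e)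
    (h1 : ∀ r : F[X], aeval T r v₀ = 0 ↔ p ^ e ∣ r) (h2 : ∀ v, ∃ r : F[X], aeval T r v₀ = v) :
    ∃ B : V →ₗ[F] V →ₗ[F] F, (∀ v, (∀ w, B v w = 0) → v = 0) ∧ ∀ v w, B (T v) w = B v (T w) := by
  classical
  -- the surjection `r ↦ r(T) v₀`
  let A : F[X] →ₗ[F] V :=
    { toFun := fun r => aeval T r v₀
      map_add' := fun a b => by simp
      map_smul' := fun c a => by simp }
  have hA : ∀ r, A r = aeval T r v₀ := fun r => rfl
  have hAsurj : Function.Surjective A := h2
  obtain ⟨s, hs⟩ := LinearMap.exists_rightInverse_of_surjective A (LinearMap.range_eq_top.2 hAsurj)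
  have hs' : ∀ v, aeval T (s v) v₀ = v := fun v => LinearMap.congr_fun hs v
  -- annihilators of `v₀` kill everything
  have hann : ∀ r : F[X], aeval T r v₀ = 0 → aeval T r = 0 := by
    intro r hr
    ext v
    obtain ⟨r', rfl⟩ := h2 v
    rw [← Module.End.mul_apply, ← map_mul, mul_comm, map_mul, Module.End.mul_apply, hr, map_zero]
    rfl
  -- the socle element
  have hpe : ¬ p ^ e ∣ p ^ (e - 1) := by
    intro h
    have h3 : p ^ (e - 1 + 1) ∣ p ^ (e - 1) := by rwa [Nat.sub_add_cancel he]
    exact (pow_dvd_pow_iff (hp.ne_zero) hp.not_isUnit).1 h3 |> fun h4 => by omega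
  let s₀ := aeval T (p ^ (e - 1)) v₀
  have hs₀ : s₀ ≠ 0 := fun h => hpe ((h1 _).1 h)
  -- every invariant non-zero subspace contains the socle element
  have hsoc : ∀ r : F[X], aeval T r v₀ ≠ 0 → ∃ c : F[X], aeval T c (aeval T r v₀) = s₀ := by
    intro r hr
    have hr0 : r ≠ 0 := by
      rintro rfl
      simp at hr
    obtain ⟨k, r', hr', rfl⟩ := WfDvdMonoid.max_power_factor hr0 hp
    have hk : k < e := by
      by_contra hk
      push Not at hk
      apply hr
      rw [(h1 _)]
      exact (pow_dvd_pow p hk).trans (dvd_mul_right _ _)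
    have hcop : IsCoprime r' p := ((hp.coprime_iff_not_dvd).2 hr').symm
    obtain ⟨a, b, hab⟩ := hcop
    refine ⟨p ^ (e - 1 - k) * a, ?_⟩
    rw [← Module.End.mul_apply, ← map_mul]
    have h5 : p ^ (e - 1 - k) * a * (p ^ k * r') = p ^ (e - 1) - b * p ^ e := by
      have h6 : p ^ (e - 1) = p ^ (e - 1 - k) * p ^ k := by
        rw [← pow_add]
        congr 1
        omega
      have h7 : p ^ e = p ^ (e - 1) * p := by
        rw [← pow_succ, Nat.sub_add_cancel he]
      rw [h7, h6]
      linear_combination (p ^ (e - 1 - k) * p ^ k) * hab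
    rw [h5, map_sub, LinearMap.sub_apply]
    have h8 : aeval T (b * p ^ e) v₀ = 0 := (h1 _).2 (dvd_mul_left _ _)
    rw [h8, sub_zero]
  obtain ⟨lam, hlam⟩ : ∃ lam : Dual F V, lam s₀ ≠ 0 := by
    by_contra h
    push Not at h
    exact hs₀ ((Module.forall_dual_apply_eq_zero_iff F s₀).1 h)
  -- the form
  let Ψ : V →ₗ[F] (V →ₗ[F] V) :=
    { toFun := fun v => aeval T (s v)
      map_add' := fun a b => by simp
      map_smul' := fun c a => by simp }
  have hΨ : ∀ r : F[X], Ψ (aeval T r v₀) = aeval T r := by
    intro r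
    have h3 : aeval T (s (aeval T r v₀) - r) v₀ = 0 := by
      rw [map_sub, LinearMap.sub_apply, hs', sub_self]
    have h4 := hann _ h3
    rw [map_sub, sub_eq_zero] at h4
    exact h4
  refine ⟨LinearMap.compr₂ Ψ lam, ?_, ?_⟩
  · intro v hv
    by_contra hv0
    obtain ⟨r, rfl⟩ := h2 v
    obtain ⟨c, hc⟩ := hsoc r hv0
    apply hlam
    have h3 := hv (aeval T c v₀)
    rw [LinearMap.compr₂_apply, hΨ] at h3
    rw [← h3, ← hc, ← Module.End.mul_apply, ← Module.End.mul_apply, ← map_mul, ← map_mul, mul_comm]
  · intro v w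
    obtain ⟨r, rfl⟩ := h2 v
    have h3 : T (aeval T r v₀) = aeval T (X * r) v₀ := by
      rw [map_mul, aeval_X]
      rfl
    rw [LinearMap.compr₂_apply, LinearMap.compr₂_apply, h3, hΨ, hΨ]
    congr 1
    have h4 : (aeval T (X * r) : V →ₗ[F] V) = aeval T (r * X) := by rw [mul_comm]
    rw [h4, map_mul, aeval_X]
    rfl

theorem exists_selfDual (n : ℕ) : ∀ (V : Type v) [AddCommGroup V] [Module F V] [FiniteDimensional F V]
    (_ : finrank F V = n) (T : V →ₗ[F] V),
    ∃ B : V →ₗ[F] V →ₗ[F] F, (∀ v, (∀ w, B v w = 0) → v = 0) ∧ ∀ v w, B (T v) w = B v (T w) := by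
  induction n using Nat.strong_induction_on with
  | _ n ih =>
    intro V _ _ _ hn T
    by_cases hV : Nontrivial V
    · rcases Dichotomy.decomp_or_cyclic T with
        ⟨V₁, V₂, hc, h1, h2, hi1, hi2⟩ | ⟨p, e, v₀, hp, he, h1, h2⟩
      · have hdim := Submodule.finrank_add_eq_of_isCompl hc
        have hd1 : 0 < finrank F V₁ := by
          rw [Module.finrank_pos_iff]
          exact Submodule.nontrivial_iff_ne_bot.2 h1
        have hd2 : 0 < finrank F V₂ := by
          rw [Module.finrank_pos_iff]
          exact Submodule.nontrivial_iff_ne_bot.2 h2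
        let T₁ : V₁ →ₗ[F] V₁ := T.restrict hi1
        let T₂ : V₂ →ₗ[F] V₂ := T.restrict hi2
        obtain ⟨B₁, hB₁, hT₁⟩ := ih (finrank F V₁) (by omega) V₁ rfl T₁
        obtain ⟨B₂, hB₂, hT₂⟩ := ih (finrank F V₂) (by omega) V₂ rfl T₂
        let π₁ : V →ₗ[F] V₁ := Submodule.projectionOnto V₁ V₂ hc
        let π₂ : V →ₗ[F] V₂ := Submodule.projectionOnto V₂ V₁ hc.symm
        have hdec : ∀ v : V, (π₁ v : V) + (π₂ v : V) = v := by
          intro v
          have hv : v ∈ V₁ ⊔ V₂ := by rw [hc.sup_eq_top]; trivial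
          obtain ⟨y, hy, z, hz, rfl⟩ := Submodule.mem_sup.1 hv
          have e1 : π₁ y = ⟨y, hy⟩ := Submodule.projectionOnto_apply_of_mem_left hc hy
          have e2 : π₁ z = 0 := Submodule.projectionOnto_apply_of_mem_right hc hz
          have e3 : π₂ y = 0 := Submodule.projectionOnto_apply_of_mem_right hc.symm hy
          have e4 : π₂ z = ⟨z, hz⟩ := Submodule.projectionOnto_apply_of_mem_left hc.symm hz
          rw [map_add, map_add, e1, e2, e3, e4]
          simp
        have hπ₁ : ∀ v, π₁ (T v) = T₁ (π₁ v) := by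
          intro v
          conv_lhs => rw [← hdec v, map_add, map_add]
          have h3 : π₁ (T (π₂ v)) = 0 :=
            Submodule.projectionOnto_apply_of_mem_right hc (hi2 _ (π₂ v).2)
          have h4 : π₁ (T (π₁ v)) = T₁ (π₁ v) :=
            Submodule.projectionOnto_apply_left hc (T₁ (π₁ v))
          rw [h3, h4, add_zero]
        have hπ₂ : ∀ v, π₂ (T v) = T₂ (π₂ v) := by
          intro v
          conv_lhs => rw [← hdec v, map_add, map_add]
          have h3 : π₂ (T (π₁ v)) = 0 :=
            Submodule.projectionOnto_apply_of_mem_right hc.symm (hi1 _ (π₁ v).2)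
          have h4 : π₂ (T (π₂ v)) = T₂ (π₂ v) :=
            Submodule.projectionOnto_apply_left hc.symm (T₂ (π₂ v))
          rw [h3, h4, zero_add]
        refine ⟨B₁.compl₁₂ π₁ π₁ + B₂.compl₁₂ π₂ π₂, ?_, ?_⟩
        · intro v hv
          have h3 : π₁ v = 0 := by
            apply hB₁
            intro w
            have h4 := hv (w : V)
            simp only [LinearMap.add_apply, LinearMap.compl₁₂_apply] at h4
            have h5 : π₁ (w : V) = w := Submodule.projectionOnto_apply_left hc w
            have h6 : π₂ (w : V) = 0 := Submodule.projectionOnto_apply_of_mem_right hc.symm w.2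
            rwa [h5, h6, map_zero, add_zero] at h4
          have h3' : π₂ v = 0 := by
            apply hB₂
            intro w
            have h4 := hv (w : V)
            simp only [LinearMap.add_apply, LinearMap.compl₁₂_apply] at h4
            have h5 : π₂ (w : V) = w := Submodule.projectionOnto_apply_left hc.symm w
            have h6 : π₁ (w : V) = 0 := Submodule.projectionOnto_apply_of_mem_right hc w.2
            rwa [h5, h6, map_zero, zero_add] at h4
          rw [← hdec v, h3, h3']
          simp
        · intro v w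
          simp only [LinearMap.add_apply, LinearMap.compl₁₂_apply, hπ₁, hπ₂, hT₁, hT₂]
      · exact selfDual_cyclic T hp he h1 h2
    · have hsub : Subsingleton V := not_nontrivial_iff_subsingleton.1 hV
      exact ⟨0, fun v _ => Subsingleton.elim _ _, fun v w => by simp⟩

/-- Every square matrix is conjugate to its transpose, over any field. -/
theorem isConj_transpose {ι : Type*} [Fintype ι] [DecidableEq ι] (A : Matrix ι ι F) :
    IsConj A A.transpose := by
  classical
  obtain ⟨B, hB, hT⟩ := exists_selfDual (F := F) _ (ι → F) rfl A.mulVecLin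
  let G := LinearMap.BilinForm.toMatrix' (B : LinearMap.BilinForm F (ι → F))
  have hG : A.transpose * G = G * A := by
    have h1 : LinearMap.BilinForm.compLeft (B : LinearMap.BilinForm F (ι → F)) A.mulVecLin =
        LinearMap.BilinForm.compRight (B : LinearMap.BilinForm F (ι → F)) A.mulVecLin := by
      apply LinearMap.ext₂
      intro v w
      exact hT _ _
    have h2 := congrArg LinearMap.BilinForm.toMatrix' h1
    have h3 : LinearMap.toMatrix' A.mulVecLin = A := by
      rw [← Matrix.toLin'_apply', LinearMap.toMatrix'_toLin']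
    rw [LinearMap.BilinForm.toMatrix'_compLeft, LinearMap.BilinForm.toMatrix'_compRight, h3] at h2
    exact h2
  have hdet : G.det ≠ 0 := by
    intro h0
    obtain ⟨v, hv, hv0⟩ := Matrix.exists_vecMul_eq_zero_iff.2 h0
    apply hv
    apply hB
    intro w
    have h1 : B v w = v ⬝ᵥ (G.mulVec w) := by
      have h2 : Matrix.toBilin' G v w = v ⬝ᵥ (G.mulVec w) := Matrix.toBilin'_apply' G v w
      rw [← h2]
      simp only [G, Matrix.toBilin'_toMatrix']
    rw [h1, Matrix.dotProduct_mulVec, hv0, zero_dotProduct]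
  let U : (Matrix ι ι F)ˣ := Matrix.GeneralLinearGroup.mkOfDetNeZero G hdet
  exact ⟨U, hG.symm⟩

end Cfsg.Agent.Lib.Known3.SelfDual
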