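import Mathlib

/-! No sharply two-transitive set of collineations in dimension at least three. -/

set_option autoImplicit false

namespace Cfsg.Agent.Lib.Known3.Sharp

open Module LinearAlgebra.Projectivization
open scoped LinearAlgebra.Projectivization

variable {F : Type*} [Field F] [Finite F] {V : Type*} [AddCommGroup V] [Module F V] [Finite V]

open scoped Classical in
/-- The points of a subspace. -/
noncomputable def Pt (U : Submodule F V) : Finset (ℙ F V) :=
  (Set.toFinite {p : ℙ F V | p.submodule ≤ U}).toFinset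

lemma mem_Pt {U : Submodule F V} {p : ℙ F V} : p ∈ Pt U ↔ p.submodule ≤ U := by
  simp [Pt]

lemma mk_mem_Pt {U : Submodule F V} {v : V} {hv : v ≠ 0} : Projectivization.mk F v hv ∈ Pt U ↔ v ∈ U := by
  rw [mem_Pt, Projectivization.submodule_mk, Submodule.span_singleton_le_iff_mem]

lemma mem_inter_Pt {U W : Submodule F V} {p : ℙ F V} : p ∈ Pt (U ⊓ W) ↔ p ∈ Pt U ∧ p ∈ Pt W := by
  simp [mem_Pt, le_inf_iff]

/-- The number of points of a subspace. -/
lemma card_Pt (U : Submodule F V) : (Pt U).card = ∑ i ∈ Finset.range (finrank F U), Nat.card F ^ i := by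
  classical
  rw [← Projectivization.card_of_finrank (k := F) (V := U) rfl]
  have hinj : Function.Injective (Projectivization.map U.subtype U.injective_subtype) :=
    Projectivization.map_injective (σ := RingHom.id F) (τ := RingHom.id F) _ _
  have hmem : ∀ p : ℙ F U, Projectivization.map U.subtype U.injective_subtype p ∈ Pt U := by
    intro p
    induction p using Projectivization.ind with
    | h v hv =>
      rw [Projectivization.map_mk, mk_mem_Pt]
      exact v.2
  let e : ℙ F U → {p // p ∈ Pt U} := fun p => ⟨_, hmem p⟩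
  have he : Function.Bijective e := by
    constructor
    · intro a b hab
      exact hinj (congrArg Subtype.val hab)
    · rintro ⟨p, hp⟩
      induction p using Projectivization.ind with
      | h v hv =>
        have hvU := mk_mem_Pt.1 hp
        have hv' : (⟨v, hvU⟩ : U) ≠ 0 := by
          intro h0
          exact hv (congrArg Subtype.val h0)
        refine ⟨Projectivization.mk F (⟨v, hvU⟩ : U) hv', ?_⟩
        apply Subtype.ext
        simp only [e]
        rw [Projectivization.map_mk]
        rfl
  rw [Nat.card_congr (Equiv.ofBijective e he), Nat.card_eq_fintype_card, Fintype.card_coe]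

/-- The sums of powers. -/
noncomputable def gs (q d : ℕ) : ℕ := ∑ i ∈ Finset.range d, q ^ i

lemma gs_succ (q d : ℕ) : gs q (d + 1) = q * gs q d + 1 := by
  simp only [gs]
  rw [Finset.sum_range_succ', Finset.mul_sum]
  simp [pow_succ']

lemma gs_succ' (q d : ℕ) : gs q (d + 1) = gs q d + q ^ d := by
  simp only [gs]
  rw [Finset.sum_range_succ]

/-- A semilinear injection carries the points of a subspace onto the points of a subspace of the same dimension. -/
lemma image_Pt [DecidableEq (ℙ F V)] (s : Equiv.Perm (ℙ F V)) (σ : F ≃+* F) (f : V →ₛₗ[(σ : F →+* F)] V) (hf : Function.Injective f)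
    (hs : ∀ x, s x = Projectivization.map f hf x) (U : Submodule F V) :
    ∃ W : Submodule F V, finrank F W = finrank F U ∧ (Pt U).image s = Pt W := by
  refine ⟨U.map f, ?_, ?_⟩
  · have h1 : Nat.card (U.map f) = Nat.card U := by
      refine (Nat.card_congr (Equiv.ofBijective (fun u : U => (⟨f u.1, Submodule.mem_map_of_mem u.2⟩ : U.map f)) ⟨?_, ?_⟩)).symm
      · intro a b hab
        exact Subtype.ext (hf (congrArg Subtype.val hab))
      · rintro ⟨_, v, hv, rfl⟩
        exact ⟨⟨v, hv⟩, rfl⟩
    rw [Module.natCard_eq_pow_finrank (K := F), Module.natCard_eq_pow_finrank (K := F) (V := U)] at h1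
    exact Nat.pow_right_injective (Finite.one_lt_card (α := F)) h1
  · ext p
    simp only [Finset.mem_image]
    constructor
    · rintro ⟨a, ha, rfl⟩
      induction a using Projectivization.ind with
      | h v hv =>
        rw [hs, Projectivization.map_mk, mk_mem_Pt]
        exact ⟨v, mk_mem_Pt.1 ha, rfl⟩
    · intro hp
      induction p using Projectivization.ind with
      | h w hw =>
        obtain ⟨v, hv, rfl⟩ := mk_mem_Pt.1 hp
        have hv0 : v ≠ 0 := by
          rintro rfl
          exact hw (map_zero f)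
        refine ⟨Projectivization.mk F v hv0, mk_mem_Pt.2 hv, ?_⟩
        rw [hs, Projectivization.map_mk]

/-- The intersection of two distinct hyperplanes. -/
lemma finrank_inter {d : ℕ} (hV : finrank F V = d + 2) {U W : Submodule F V} (hU : finrank F U = d + 1) (hW : finrank F W = d + 1)
    (hne : U ≠ W) : finrank F ↥(U ⊓ W) = d := by
  have h1 := Submodule.finrank_sup_add_finrank_inf_eq U W
  have h2 : finrank F ↥(U ⊔ W) ≤ d + 2 := by
    rw [← hV]
    exact Submodule.finrank_le _
  have h3 : d + 1 < finrank F ↥(U ⊔ W) := by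
    rw [← hU]
    apply Submodule.finrank_lt_finrank_of_lt
    apply lt_of_le_of_ne le_sup_left
    intro h4
    have h5 : W ≤ U := by
      rw [h4]
      exact le_sup_right
    exact hne (Submodule.eq_of_le_of_finrank_eq h5 (by rw [hU, hW])).symm
  omega

/-- The counting argument. -/
theorem no_sharp {d : ℕ} (hd : 1 ≤ d) (hV : finrank F V = d + 2) (H₀ : Submodule F V) (hH : finrank F H₀ = d + 1)
    (e : V) (he : e ∉ H₀) (S : Set (Equiv.Perm (ℙ F V)))
    (hS : ∀ s ∈ S, ∃ (σ : F ≃+* F) (f : V →ₛₗ[(σ : F →+* F)] V) (hf : Function.Injective f), ∀ x, s x = Projectivization.map f hf x)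
    (hsharp : ∀ a b c d' : ℙ F V, a ≠ b → c ≠ d' → ∃! s, s ∈ S ∧ s a = c ∧ s b = d') : False := by
  classical
  set q := Nat.card F with hq
  have hq1 : 1 < q := Finite.one_lt_card
  have he0 : e ≠ 0 := by
    rintro rfl
    exact he (Submodule.zero_mem _)
  set x : ℙ F V := Projectivization.mk F e he0 with hx
  have hxH : x ∉ Pt H₀ := fun h => he (mk_mem_Pt.1 h)
  set k := gs q (d + 1) with hk
  set lam := gs q d with hlam
  have hPk : (Pt H₀).card = k := by rw [card_Pt, hH]; rfl
  have hk1 : k = q * lam + 1 := gs_succ q d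
  have hk2 : k = lam + q ^ d := gs_succ' q d
  have hN : Nat.card (ℙ F V) = q * k + 1 := by
    rw [Projectivization.card_of_finrank (k := F) (V := V) hV, hk, ← gs_succ]
    rfl
  -- the elements of `S` fixing `x`
  haveI : Fintype (ℙ F V) := Fintype.ofFinite _
  let S' : Finset (Equiv.Perm (ℙ F V)) := (Set.toFinite {s | s ∈ S ∧ s x = x}).toFinset
  have hS' : ∀ s, s ∈ S' ↔ s ∈ S ∧ s x = x := by
    intro s
    simp [S']
  -- unique element with a prescribed value
  have hex : ∀ y z : ℙ F V, y ≠ x → z ≠ x → ∃ s ∈ S', s y = z := by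
    intro y z hy hz
    obtain ⟨s, ⟨hs1, hs2, hs3⟩, -⟩ := hsharp x y x z hy.symm hz.symm
    exact ⟨s, (hS' s).2 ⟨hs1, hs2⟩, hs3⟩
  have huniq : ∀ y : ℙ F V, y ≠ x → ∀ s ∈ S', ∀ t ∈ S', s y = t y → s = t := by
    intro y hy s hs t ht hst
    have hs' := (hS' s).1 hs
    have ht' := (hS' t).1 ht
    have hz : s y ≠ x := by
      intro h
      apply hy
      apply s.injective
      rw [h, hs'.2]
    obtain ⟨a, -, ha⟩ := hsharp x y x (s y) hy.symm hz.symm
    rw [ha s ⟨hs'.1, hs'.2, rfl⟩, ha t ⟨ht'.1, ht'.2, hst.symm⟩]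
  have hk0 : 0 < k := by rw [hk1]; omega
  obtain ⟨y₀, hy₀⟩ : (Pt H₀).Nonempty := by
    rw [← Finset.card_pos, hPk]
    exact hk0
  have hne : ∀ y ∈ Pt H₀, y ≠ x := by
    rintro y hy rfl
    exact hxH hy
  -- the order of `S'`
  have hcardS : S'.card = q * k := by
    have h1 : S'.card = ((Finset.univ : Finset (ℙ F V)).erase x).card := by
      apply Finset.card_bij (fun s _ => s y₀)
      · intro s hs
        simp only [Finset.mem_erase, Finset.mem_univ, and_true]
        intro h
        apply hne y₀ hy₀
        apply s.injective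
        rw [h, ((hS' s).1 hs).2]
      · intro s hs t ht hst
        exact huniq y₀ (hne y₀ hy₀) s hs t ht hst
      · intro z hz
        simp only [Finset.mem_erase, Finset.mem_univ, and_true] at hz
        obtain ⟨s, hs, hsz⟩ := hex y₀ z (hne y₀ hy₀) hz
        exact ⟨s, hs, hsz⟩
    rw [h1, Finset.card_erase_of_mem (Finset.mem_univ _), Finset.card_univ, ← Nat.card_eq_fintype_card, hN]
    simp
  -- the images of the hyperplane
  let im : Equiv.Perm (ℙ F V) → Finset (ℙ F V) := fun s => (Pt H₀).image s
  have him : ∀ s ∈ S', ∃ W : Submodule F V, finrank F W = d + 1 ∧ im s = Pt W := by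
    intro s hs
    obtain ⟨σ, f, hf, hsf⟩ := hS s ((hS' s).1 hs).1
    obtain ⟨W, hW1, hW2⟩ := image_Pt s σ f hf hsf H₀
    exact ⟨W, hW1.trans hH, hW2⟩
  -- the two counts of incidences
  have hcount1 : ∀ z ∈ Pt H₀, (S'.filter (fun s => z ∈ im s)).card = k := by
    intro z hz
    rw [← hPk]
    apply Finset.card_bij (fun s _ => s⁻¹ z)
    · intro s hs
      rw [Finset.mem_filter] at hs
      obtain ⟨a, ha, rfl⟩ := Finset.mem_image.1 hs.2
      simpa using ha
    · intro s hs t ht hst
      rw [Finset.mem_filter] at hs ht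
      have hsy : s (s⁻¹ z) = z := by simp
      have hty : t (t⁻¹ z) = z := by simp
      obtain ⟨a, ha, haz⟩ := Finset.mem_image.1 hs.2
      have h1 : s⁻¹ z = a := by rw [← haz]; simp
      apply huniq (s⁻¹ z) (by rw [h1]; exact hne a ha) s hs.1 t ht.1
      rw [hsy]
      have hst' : s⁻¹ z = t⁻¹ z := hst
      rw [hst', hty]
    · intro y hy
      obtain ⟨s, hs, hsz⟩ := hex y z (hne y hy) (hne z hz)
      refine ⟨s, ?_, ?_⟩
      · rw [Finset.mem_filter]
        exact ⟨hs, Finset.mem_image.2 ⟨y, hy, hsz⟩⟩
      · rw [← hsz]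
        simp
  have hcount2 : ∀ s ∈ S', ((Pt H₀).filter (fun z => z ∈ im s)).card = if im s = Pt H₀ then k else lam := by
    intro s hs
    obtain ⟨W, hW1, hW2⟩ := him s hs
    split_ifs with h
    · rw [h, Finset.filter_mem_eq_inter, Finset.inter_self, hPk]
    · have hUW : H₀ ≠ W := by
        rintro rfl
        exact h hW2
      have h1 : (Pt H₀).filter (fun z => z ∈ im s) = Pt (H₀ ⊓ W) := by
        ext z
        rw [Finset.mem_filter, hW2, mem_inter_Pt]
      rw [h1, card_Pt, finrank_inter hV hH hW1 hUW]
      rfl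
  have hdouble := Finset.sum_card_bipartiteAbove_eq_sum_card_bipartiteBelow (s := S') (t := Pt H₀) (fun s z => z ∈ im s)
  simp only [Finset.bipartiteAbove, Finset.bipartiteBelow] at hdouble
  rw [Finset.sum_congr rfl hcount2, Finset.sum_congr rfl hcount1, Finset.sum_ite, Finset.sum_const, Finset.sum_const, Finset.sum_const,
    hPk] at hdouble
  simp only [smul_eq_mul] at hdouble
  set C := (S'.filter (fun s => im s = Pt H₀)).card with hC
  set C' := (S'.filter (fun s => ¬ im s = Pt H₀)).card with hC'
  have hCC : C + C' = q * k := by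
    rw [← hcardS, hC, hC']
    exact Finset.card_filter_add_card_filter_not _
  -- the arithmetic
  have hfin : k = C * q ^ d := by
    have h1 : (k : ℤ) * k = C * k + C' * lam := by exact_mod_cast hdouble.symm
    have h2 : (C : ℤ) + C' = q * k := by exact_mod_cast hCC
    have h3 : (k : ℤ) = q * lam + 1 := by exact_mod_cast hk1
    have h4 : (k : ℤ) = lam + q ^ d := by exact_mod_cast hk2
    have h5 : (k : ℤ) = C * q ^ d := by
      have h6 : (C' : ℤ) = q * k - C := by linarith
      rw [h6] at h1
      have h7 : ((q : ℤ) ^ d) = k - lam := by linarith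
      rw [h7]
      have h8 : (k : ℤ) * (k - q * lam) = C * (k - lam) := by linear_combination h1
      have h9 : (k : ℤ) - q * lam = 1 := by linarith
      rw [h9] at h8
      linarith
    exact_mod_cast h5
  have hdvd : q ∣ k := by
    rw [hfin]
    exact Dvd.dvd.mul_left (dvd_pow_self q (by omega)) C
  rw [hk1] at hdvd
  have h1 : q ∣ 1 := (Nat.dvd_add_right (Dvd.intro _ rfl)).1 hdvd
  have h2 := Nat.le_of_dvd one_pos h1
  omega

end Cfsg.Agent.Lib.Known3.Sharp
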