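import Mathlib

set_option autoImplicit false

namespace Cfsg.Agent.Lib.Known3.Shintani

variable {X : Type*} [Group X]

/-- Membership in the fixed point subgroup, as written in the Shintani statements. -/
theorem mem_fix (τ : MulAut X) (y : X) :
    y ∈ (MulEquiv.toMonoidHom τ).eqLocus (MonoidHom.id X) ↔ τ y = y := Iff.rfl

/-- Telescoping the norm of `g = a σ(a)⁻¹`. -/
theorem norm_eq (σ : MulAut X) (a : X) (d : ℕ) :
    ((List.range d).map (fun i => (σ ^ i) (a * (σ a)⁻¹))).prod = a * ((σ ^ d) a)⁻¹ := by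
  induction d with
  | zero => simp
  | succ n ih =>
    rw [List.range_succ, List.map_append, List.prod_append, ih]
    simp only [List.map_cons, List.map_nil, List.prod_cons, List.prod_nil, mul_one, map_mul, map_inv]
    rw [pow_succ, MulAut.mul_apply]
    group

/-- Powers of `σ` fix what `σ` fixes. -/
theorem pow_fix (σ : MulAut X) {y : X} (hy : σ y = y) (n : ℕ) : (σ ^ n) y = y := by
  induction n with
  | zero => simp
  | succ n ih => rw [pow_succ, MulAut.mul_apply, hy, ih]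

/-- `σ` and `σ^e` commute. -/
theorem pow_comm (σ : MulAut X) (e : ℕ) (y : X) : (σ ^ e) (σ y) = σ ((σ ^ e) y) := by
  rw [← MulAut.mul_apply, ← MulAut.mul_apply, ← pow_succ, ← pow_succ']

/-- The Shintani image is fixed by `σ`. -/
theorem shintani_fix (σ : MulAut X) (e : ℕ) {a : X}
    (hg : (σ ^ e) (a * (σ a)⁻¹) = a * (σ a)⁻¹) :
    σ (((σ ^ e) a)⁻¹ * a) = ((σ ^ e) a)⁻¹ * a := by
  simp only [map_mul, map_inv] at hg ⊢
  rw [← pow_comm]
  -- hg : τ a * (τ (σ a))⁻¹ = a * (σ a)⁻¹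
  have h : ((σ ^ e) a)⁻¹ * ((σ ^ e) a * ((σ ^ e) (σ a))⁻¹) * σ a
      = ((σ ^ e) a)⁻¹ * (a * (σ a)⁻¹) * σ a := by rw [hg]
  simpa [mul_assoc] using h

end Cfsg.Agent.Lib.Known3.Shintani

namespace Cfsg.Agent.Lib.Known3.Shintani

/-- Double counting: a relation whose non-empty fibres over `A` all have size `c`. -/
theorem card_rel_eq {A B : Type*} [Finite A] [Finite B] (R : A → B → Prop) (c : ℕ)
    (hc : ∀ a, (∃ b, R a b) → Nat.card {b // R a b} = c) :
    Nat.card {p : A × B // R p.1 p.2} = Nat.card {a // ∃ b, R a b} * c := by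
  classical
  have := Fintype.ofFinite {a // ∃ b, R a b}
  let e : {p : A × B // R p.1 p.2} ≃ Σ a : {a // ∃ b, R a b}, {b // R a b} :=
    { toFun := fun p => ⟨⟨p.1.1, ⟨p.1.2, p.2⟩⟩, ⟨p.1.2, p.2⟩⟩
      invFun := fun q => ⟨(q.1.1, q.2.1), q.2.2⟩
      left_inv := fun p => rfl
      right_inv := fun q => rfl }
  rw [Nat.card_congr e, Nat.card_sigma]
  simp only [fun a : {a // ∃ b, R a b} => hc a.1 a.2]
  simp [Nat.card_eq_fintype_card]

end Cfsg.Agent.Lib.Known3.Shintani
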