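import Mathlib

set_option autoImplicit false

namespace Cfsg.Agent.Lib.Known3.TwoPart

variable {F : Type*} [Field F] [Fintype F]

/-- `2`-adic criterion: in a finite field of odd order `q`, `-1` is an `n`-th power iff `v₂(n) < v₂(q-1)`. -/
theorem exists_pow_eq_neg_one_iff {q : ℕ} (hF : Fintype.card F = q) (hq : Odd q) {n : ℕ} (hn : 1 ≤ n) :
    (∃ c : F, c ≠ 0 ∧ c ^ n = -1) ↔ padicValNat 2 n < padicValNat 2 (q - 1) := by
  classical
  have hq2 : 2 ≤ q := by rw [← hF]; exact Fintype.one_lt_card
  have hqodd : q ≠ 2 := by rintro rfl; exact absurd hq (by decide)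
  have hq3 : 3 ≤ q := by omega
  have hne : (-1 : F) ≠ 1 := by
    intro h
    have h2 : (2 : F) = 0 := by
      linear_combination -h
    have hchar : ringChar F = 2 := by
      have := CharP.ringChar_of_prime_eq_zero (R := F) Nat.prime_two (by exact_mod_cast h2)
      exact this
    have : Even (Fintype.card F) := Nat.even_iff.2 (FiniteField.even_card_of_char_two hchar)
    rw [hF] at this
    exact (Nat.not_even_iff_odd.2 hq) this
  have hN0 : q - 1 ≠ 0 := by omega
  constructor
  · rintro ⟨c, hc0, hc⟩
    -- the order of c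
    set o := orderOf c with ho
    have ho1 : o ∣ 2 * n := by
      apply orderOf_dvd_of_pow_eq_one
      rw [mul_comm, pow_mul, hc]; simp
    have ho2 : ¬ o ∣ n := by
      intro h
      have := orderOf_dvd_iff_pow_eq_one.1 h
      rw [hc] at this
      exact hne this
    have ho3 : o ∣ q - 1 := by
      apply orderOf_dvd_of_pow_eq_one
      rw [← hF]; exact FiniteField.pow_card_sub_one_eq_one c hc0
    by_contra hle
    push Not at hle
    apply ho2
    have hn0 : n ≠ 0 := by omega
    have ho0 : o ≠ 0 := by
      intro h; rw [h] at ho3; exact hN0 (Nat.eq_zero_of_zero_dvd ho3)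
    rw [← Nat.factorization_prime_le_iff_dvd ho0 hn0]
    intro p hp
    by_cases hp2 : p = 2
    · subst hp2
      have h1 := (Nat.factorization_le_iff_dvd ho0 hN0).2 ho3 2
      rw [Nat.factorization_def _ Nat.prime_two, Nat.factorization_def _ Nat.prime_two] at *
      exact h1.trans hle
    · have h1 := (Nat.factorization_le_iff_dvd ho0 (by omega)).2 ho1 p
      rw [Nat.factorization_mul (by norm_num) hn0] at h1
      simp only [Finsupp.coe_add, Pi.add_apply] at h1
      have h2 : (2 : ℕ).factorization p = 0 := by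
        rw [Nat.Prime.factorization Nat.prime_two]
        simp [Finsupp.single_apply, Ne.symm hp2]
      omega
  · intro hlt
    -- `2 ^ (a + 1) ∣ q - 1`, where `n = 2 ^ a * n'`
    set a := padicValNat 2 n with ha
    have hdvd : 2 ^ (a + 1) ∣ q - 1 := by
      have : a + 1 ≤ padicValNat 2 (q - 1) := hlt
      exact (pow_dvd_pow 2 this).trans pow_padicValNat_dvd
    obtain ⟨n', hn'⟩ : 2 ^ a ∣ n := pow_padicValNat_dvd
    have hn'odd : Odd n' := by
      by_contra hodd
      rw [Nat.not_odd_iff_even] at hodd
      obtain ⟨t, rfl⟩ := hodd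
      have : 2 ^ (a + 1) ∣ n := ⟨t, by rw [hn', pow_succ]; ring⟩
      have h3 := (padicValNat_dvd_iff_le (p := 2) (by omega)).1 this
      omega
    -- an element of order `2 ^ (a+1)`
    obtain ⟨g, hg⟩ := IsCyclic.exists_generator (α := Fˣ)
    have hcard : Nat.card Fˣ = q - 1 := by
      rw [Nat.card_eq_fintype_card, Fintype.card_units, hF]
    have hgo : orderOf g = q - 1 := by
      rw [orderOf_eq_card_of_forall_mem_zpowers hg, hcard]
    have hord : orderOf (g ^ ((q - 1) / 2 ^ (a + 1))) = 2 ^ (a + 1) := by
      have := orderOf_pow_orderOf_div (x := g) (n := 2 ^ (a + 1)) (by rw [hgo]; exact hN0) (by rw [hgo]; exact hdvd)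
      rwa [hgo] at this
    set c := g ^ ((q - 1) / 2 ^ (a + 1)) with hc
    have hc1 : (c ^ 2 ^ a) ^ 2 = 1 := by
      rw [← pow_mul, ← pow_succ, ← hord, pow_orderOf_eq_one]
    have hc2 : c ^ 2 ^ a ≠ 1 := by
      intro h
      have h1 := orderOf_dvd_of_pow_eq_one h
      rw [hord] at h1
      have := Nat.le_of_dvd (by positivity) h1
      rw [pow_succ] at this
      have : 0 < 2 ^ a := by positivity
      omega
    have hc3 : ((c : F) ^ 2 ^ a) = -1 := by
      have h1 : (((c ^ 2 ^ a : Fˣ) : F)) ^ 2 = 1 := by
        have := congrArg Units.val hc1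
        simpa using this
      have h2 : ((c ^ 2 ^ a : Fˣ) : F) ≠ 1 := by
        intro h
        apply hc2
        exact Units.ext (by simpa using h)
      rw [pow_two, mul_self_eq_one_iff] at h1
      have h4 := h1.resolve_left h2
      simpa using h4
    refine ⟨c, c.ne_zero, ?_⟩
    rw [hn', pow_mul, hc3]
    exact hn'odd.neg_one_pow

/-- Products of conditionally negated entries. -/
theorem prod_fin_ite (a : F) (n i : ℕ) (hi : i ≤ n) :
    ∏ j : Fin n, (if (j : ℕ) < i then a else 1) = a ^ i := by
  have : Finset.filter (fun j => j < i) (Finset.range n) = Finset.range i := by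
    ext x
    simp only [Finset.mem_filter, Finset.mem_range]
    omega
  rw [Fin.prod_univ_eq_prod_range (fun j => if j < i then a else 1) n, Finset.prod_ite, this]
  simp

/-- A divisor of `N` whose `2`-adic valuation is smaller than that of `N` divides `N / 2`. -/
theorem dvd_half_of_val_lt {o N : ℕ} (hN : N ≠ 0) (hev : Even N) (ho : o ∣ N)
    (hlt : padicValNat 2 o < padicValNat 2 N) : o ∣ N / 2 := by
  obtain ⟨k, rfl⟩ := hev
  have hk : k ≠ 0 := by omega
  have h2k : (k + k) / 2 = k := by omega
  rw [h2k]
  have hkk : k + k = 2 * k := by ring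
  rw [hkk] at ho hlt hN
  have ho0 : o ≠ 0 := by
    rintro rfl
    exact hN (Nat.eq_zero_of_zero_dvd ho)
  rw [← Nat.factorization_prime_le_iff_dvd ho0 hk]
  intro p hp
  have h1 := (Nat.factorization_le_iff_dvd ho0 hN).2 ho p
  rw [Nat.factorization_mul (by norm_num) hk] at h1
  simp only [Finsupp.coe_add, Pi.add_apply] at h1
  by_cases hp2 : p = 2
  · subst hp2
    rw [Nat.factorization_def _ Nat.prime_two, Nat.factorization_def _ Nat.prime_two]
    haveI : Fact (Nat.Prime 2) := ⟨Nat.prime_two⟩
    rw [padicValNat.mul (by norm_num) hk, padicValNat.self (by norm_num)] at hlt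
    omega
  · have h2 : (2 : ℕ).factorization p = 0 := by
      rw [Nat.Prime.factorization Nat.prime_two]
      simp [Ne.symm hp2]
    omega

end Cfsg.Agent.Lib.Known3.TwoPart
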